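import Mathlib
import Cfsg.Agent.Lib.Helper26.Gross2DefsC

/-!
# S3795, piece DIMHOM: the dimension of the additive maps vanishing on a subgroup
-/

set_option autoImplicit false
set_option linter.style.haveILetI false
open scoped commutatorElement

open Cfsg.Agent.Lib.Helper26 Cfsg.Agent.Lib.Helper26.Gross2 Cfsg.Agent.Lib.Helper94.GrossKPAut

namespace Cfsg.Agent.Lib.Helper49.Gross2DIMHOM

universe u

/-- linear maps from a finite `ZMod q`-vector space of order `q ^ d` to `k`: dimension `d` -/
theorem dimhom_add (B : Type u) [AddCommGroup B] [Finite B] (q : ℕ) [Fact q.Prime]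
    [Module (ZMod q) B] (k : Type) [Field k] [Algebra (ZMod q) k] (d : ℕ)
    (hcard : Nat.card B = q ^ d) : Module.finrank k (B →ₗ[ZMod q] k) = d := by
  haveI : Module.Finite (ZMod q) B := Module.Finite.of_finite
  have hfin : Module.finrank (ZMod q) B = d := by
    have h1 := Module.natCard_eq_pow_finrank (K := ZMod q) (V := B)
    rw [hcard, Nat.card_zmod] at h1
    exact (Nat.pow_right_injective (Fact.out : q.Prime).two_le h1).symm
  rw [Module.finrank_linearMap_self, hfin]

/-- additive maps on a commutative group `A` as linear maps on `Additive A` -/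
noncomputable def addEquiv (A : Type u) [CommGroup A] (q : ℕ) [Fact q.Prime]
    [Module (ZMod q) (Additive A)] (k : Type) [Field k] [Algebra (ZMod q) k] :
    ↥(addMaps A k) ≃ₗ[k] (Additive A →ₗ[ZMod q] k) where
  toFun f := AddMonoidHom.toZModLinearMap q
    { toFun := fun a => f.1 (Additive.toMul a)
      map_zero' := addMaps_one f
      map_add' := fun a b => addMaps_mul f (Additive.toMul a) (Additive.toMul b) }
  map_add' f g := by
    apply LinearMap.ext
    intro a
    rfl
  map_smul' c f := by
    apply LinearMap.ext
    intro a
    rfl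
  invFun g := ⟨fun x => g (Additive.ofMul x), fun x y => by
    show g (Additive.ofMul (x * y)) = g (Additive.ofMul x) + g (Additive.ofMul y)
    rw [ofMul_mul, map_add]⟩
  left_inv f := by
    apply Subtype.ext
    funext x
    rfl
  right_inv g := by
    apply LinearMap.ext
    intro a
    rfl

/-- additive maps on an elementary abelian `q`-group of order `q ^ d`, values in a field of
characteristic `q`: dimension `d` -/
theorem dimhom_comm (A : Type u) [CommGroup A] [Finite A] (q : ℕ) [Fact q.Prime] (k : Type)
    [Field k] [Algebra (ZMod q) k] (d : ℕ) (hexp : ∀ x : A, x ^ q = 1)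
    (hcard : Nat.card A = q ^ d) : Module.finrank k ↥(addMaps A k) = d := by
  obtain ⟨md⟩ : Nonempty (Module (ZMod q) (Additive A)) :=
    ⟨AddCommGroup.zmodModule (n := q) (fun x => by
      show Additive.ofMul ((Additive.toMul x) ^ q) = Additive.ofMul 1
      rw [hexp])⟩
  haveI hfA : Finite (Additive A) := inferInstanceAs (Finite A)
  have h2 : Nat.card (Additive A) = q ^ d := hcard
  have h3 : Module.finrank k ↥(addMaps A k) = Module.finrank k (Additive A →ₗ[ZMod q] k) :=
    LinearEquiv.finrank_eq (addEquiv A q k)
  rw [h3]
  exact dimhom_add (Additive A) q k d h2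

/-- additive maps vanishing on a normal subgroup are the additive maps on the quotient -/
noncomputable def annEquiv {N : Type u} [Group N] (k : Type) [Field k] (M : Subgroup N)
    [M.Normal] : ↥(annSub k M) ≃ₗ[k] ↥(addMaps (N ⧸ M) k) where
  toFun f := ⟨fun a => Quotient.liftOn' a f.1.1 (fun x y hxy => by
      have h1 : x⁻¹ * y ∈ M := QuotientGroup.leftRel_apply.mp hxy
      have h2 : f.1.1 (x * (x⁻¹ * y)) = f.1.1 x + f.1.1 (x⁻¹ * y) := f.1.2 x (x⁻¹ * y)
      rw [mul_inv_cancel_left, f.2 _ h1, add_zero] at h2
      exact h2.symm), fun a b => by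
      induction a using QuotientGroup.induction_on with
      | H x =>
        induction b using QuotientGroup.induction_on with
        | H y => exact f.1.2 x y⟩
  map_add' f g := by
    apply Subtype.ext
    funext a
    induction a using QuotientGroup.induction_on with
    | H x => rfl
  map_smul' c f := by
    apply Subtype.ext
    funext a
    induction a using QuotientGroup.induction_on with
    | H x => rfl
  invFun g := ⟨⟨fun x => g.1 (QuotientGroup.mk x), fun x y => by
      show g.1 (QuotientGroup.mk (x * y)) = g.1 (QuotientGroup.mk x) + g.1 (QuotientGroup.mk y)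
      rw [QuotientGroup.mk_mul]
      exact g.2 _ _⟩, fun x hx => by
      show g.1 (QuotientGroup.mk x) = 0
      rw [(QuotientGroup.eq_one_iff x).mpr hx]
      exact addMaps_one g⟩
  left_inv f := by
    apply Subtype.ext
    apply Subtype.ext
    funext x
    rfl
  right_inv g := by
    apply Subtype.ext
    funext a
    induction a using QuotientGroup.induction_on with
    | H x => rfl

theorem gross2_dimhom : DimHomStmt.{u} := by
  intro N _ _ q _ k _ _ M d hcomm hpow hcard
  haveI hMn : M.Normal := ⟨fun n hn g => by
    have e : g * n * g⁻¹ = ⁅g, n⁆ * n := by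
      rw [commutatorElement_def]
      group
    rw [e]
    exact M.mul_mem (hcomm g n) hn⟩
  have hc : ∀ a b : N ⧸ M, a * b = b * a := by
    intro a b
    induction a using QuotientGroup.induction_on with
    | H x =>
      induction b using QuotientGroup.induction_on with
      | H y =>
        rw [← QuotientGroup.mk_mul, ← QuotientGroup.mk_mul]
        apply QuotientGroup.eq.mpr
        have e : (x * y)⁻¹ * (y * x) = ⁅y⁻¹, x⁻¹⁆ := by
          rw [commutatorElement_def]
          group
        rw [e]
        exact hcomm _ _
  have he : ∀ a : N ⧸ M, a ^ q = 1 := by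
    intro a
    induction a using QuotientGroup.induction_on with
    | H x =>
      rw [← QuotientGroup.mk_pow]
      exact (QuotientGroup.eq_one_iff _).mpr (hpow x)
  have hcq : Nat.card (N ⧸ M) = q ^ d := by
    have h1 : Nat.card N = Nat.card (N ⧸ M) * Nat.card M :=
      Subgroup.card_eq_card_quotient_mul_card_subgroup M
    rw [hcard] at h1
    exact (Nat.eq_of_mul_eq_mul_right Nat.card_pos h1).symm
  rw [(annEquiv k M).finrank_eq]
  exact @dimhom_comm (N ⧸ M) { toGroup := QuotientGroup.Quotient.group M, mul_comm := hc }
    _ q _ k _ _ d he hcq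

end Cfsg.Agent.Lib.Helper49.Gross2DIMHOM
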