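import Mathlib
import Cfsg.Agent.Lib.Helper26.Gross2DefsC

/-!
# S3795, piece K2L: the global fixed-point formula from the component theorem
-/

set_option autoImplicit false
set_option linter.unusedSectionVars false
set_option linter.style.haveILetI false

open Cfsg.Agent.Lib.Helper26 Cfsg.Agent.Lib.Helper26.Gross2

namespace Cfsg.Agent.Lib.Helper49.Gross2K2L

universe u

section

variable {k : Type*} [Field k] {V : Type*} [AddCommGroup V] [Module k V]

/-- splitting a subspace along a projection -/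
theorem split_finrank [Module.Finite k V] (Y Y₁ : Submodule k V) (hY₁ : Y₁ ≤ Y)
    (π : Module.End k V) (h1 : ∀ y ∈ Y, π y ∈ Y₁) (h2 : ∀ u ∈ Y₁, π u = u) :
    Module.finrank k ↥Y =
      Module.finrank k ↥Y₁ + Module.finrank k ↥(Y ⊓ LinearMap.ker π) := by
  have hinf : Y₁ ⊓ (Y ⊓ LinearMap.ker π) = ⊥ := by
    rw [eq_bot_iff]
    intro u hu
    obtain ⟨hu1, hu2⟩ := Submodule.mem_inf.mp hu
    have hu3 := (Submodule.mem_inf.mp hu2).2
    rw [LinearMap.mem_ker, h2 u hu1] at hu3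
    exact (Submodule.mem_bot k).mpr hu3
  have hsup : Y₁ ⊔ (Y ⊓ LinearMap.ker π) = Y := by
    apply le_antisymm
    · exact sup_le hY₁ inf_le_left
    · intro y hy
      have e : y = π y + (y - π y) := by abel
      rw [e]
      refine Submodule.add_mem_sup (h1 y hy)
        (Submodule.mem_inf.mpr ⟨Y.sub_mem hy (hY₁ (h1 y hy)), ?_⟩)
      rw [LinearMap.mem_ker, map_sub, h2 _ (h1 y hy), sub_self]
  have h := Submodule.finrank_sup_add_finrank_inf_eq Y₁ (Y ⊓ LinearMap.ker π)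
  rw [hsup, hinf, finrank_bot, add_zero] at h
  exact h

end

theorem gross2_k2l (hSetup : SetupStmt.{u}) (hComp : CompStmt.{u}) : K2LStmt.{u} := by
  intro k _ _ M₀ ℓ n hD V _ _ _ P φ hInv hcard hCV hNC
  haveI : Finite P := hInv.hfin
  obtain ⟨ψ, hψ⟩ : ∃ ψ : (Module.End k V)ˣ, ψ = φ ^ 2 ^ n := ⟨_, rfl⟩
  rw [← hψ]
  have hψ2 : ψ ^ 2 = 1 := by
    rw [hψ, ← pow_mul, ← pow_succ]
    exact hInv.hφ
  obtain ⟨F, hF⟩ : ∃ F : Submodule k V, F = LinearMap.ker ((ψ : Module.End k V) - 1) :=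
    ⟨_, rfl⟩
  rw [← hF]
  have hmemF : ∀ v, v ∈ F ↔ (ψ : Module.End k V) v = v := by
    intro v
    rw [hF, LinearMap.mem_ker, LinearMap.sub_apply, Module.End.one_apply, sub_eq_zero]
  have hcardP : Nat.card P ∣ M₀ := (dvd_mul_right _ _).trans hcard
  have hPk : (Nat.card P : k) ≠ 0 :=
    gross_cast_ne_zero (Nat.Coprime.coprime_dvd_left hcardP hD.hcop)
  have h2M : 2 ∣ M₀ :=
    (dvd_mul_of_dvd_right (dvd_pow_self 2 (Nat.succ_ne_zero n)) _).trans hcard
  have hψnorm : ∀ x ∈ P, ψ * x * ψ⁻¹ ∈ P := by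
    rw [hψ]
    exact gross_pow_conj_mem P hInv.hnorm (2 ^ n)
  have hψinv : ∀ x ∈ P, ψ⁻¹ * x * ψ ∈ P :=
    gross_inv_conj_mem P (by norm_num : 0 < 2) hψ2 hψnorm
  have hzp : ∀ b ∈ Subgroup.zpowers ψ, b = 1 ∨ b = ψ := by
    intro b hb
    obtain ⟨j, rfl⟩ := Subgroup.mem_zpowers_iff.mp hb
    have e : ψ ^ j = ψ ^ (j % 2) := by
      have e1 : j = j % 2 + 2 * (j / 2) := (Int.emod_add_mul_ediv j 2).symm
      have e2 : ψ ^ (j % 2 + 2 * (j / 2)) = ψ ^ (j % 2) := by
        rw [zpow_add, zpow_mul, zpow_ofNat, hψ2, one_zpow, mul_one]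
      rw [← e2, ← e1]
    have h01 : j % 2 = 0 ∨ j % 2 = 1 := by omega
    rcases h01 with h | h
    · left
      rw [e, h, zpow_zero]
    · right
      rw [e, h, zpow_one]
  haveI hZfin : Finite ↥(Subgroup.zpowers ψ) := by
    have hs : ((Subgroup.zpowers ψ : Subgroup (Module.End k V)ˣ) : Set (Module.End k V)ˣ).Finite := by
      apply Set.Finite.subset (Set.toFinite ({1, ψ} : Set (Module.End k V)ˣ))
      intro b hb
      rcases hzp b hb with h | h
      · rw [h]; exact Set.mem_insert _ _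
      · rw [h]; exact Set.mem_insert_of_mem _ rfl
    exact hs.to_subtype
  have hZk : (Nat.card ↥(Subgroup.zpowers ψ) : k) ≠ 0 := by
    apply gross_cast_ne_zero
    rw [Nat.card_zpowers]
    have h1 : orderOf ψ ∣ 2 := orderOf_dvd_of_pow_eq_one hψ2
    exact Nat.Coprime.coprime_dvd_left (h1.trans h2M) hD.hcop
  have main : ∀ d : ℕ, ∀ Y : Submodule k V, Module.finrank k ↥Y = d →
      (∀ x ∈ P, ∀ u ∈ Y, (x : Module.End k V) u ∈ Y) →
      (∀ u ∈ Y, (ψ : Module.End k V) u ∈ Y) →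
      2 * ℓ * Module.finrank k ↥(Y ⊓ F) = (ℓ - 1) * Module.finrank k ↥Y := by
    intro d
    induction d using Nat.strong_induction_on with
    | _ d ih =>
      intro Y hd hYP hYψ
      by_cases hY0 : Y = ⊥
      · subst hY0
        rw [bot_inf_eq, finrank_bot, mul_zero, mul_zero]
      · obtain ⟨χ, θ, R, W, hW, hWY⟩ := hSetup k M₀ ℓ n hD V P φ hInv hcardP Y hY0 hYP
          (fun U _ hU0 hUP => hNC U hU0 hUP)
        obtain ⟨-, hWψ, hform⟩ := hComp k M₀ ℓ n hD V P φ hInv hcard hCV χ θ R W hW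
        rw [← hψ] at hWψ hform
        rw [← hF] at hform
        obtain ⟨Y₁, hY₁⟩ : ∃ Y₁ : Submodule k V, Y₁ = W ⊓ Y := ⟨_, rfl⟩
        have hY₁le : Y₁ ≤ Y := by rw [hY₁]; exact inf_le_right
        have hY₁P : ∀ x ∈ P, ∀ u ∈ Y₁, (x : Module.End k V) u ∈ Y₁ := by
          intro x hx u hu
          rw [hY₁] at hu ⊢
          exact ⟨hW.hWQ x hx u hu.1, hYP x hx u hu.2⟩
        have hY₁ψ : ∀ u ∈ Y₁, (ψ : Module.End k V) u ∈ Y₁ := by
          intro u hu
          rw [hY₁] at hu ⊢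
          exact ⟨hWψ u hu.1, hYψ u hu.2⟩
        have hf1 := hform Y₁ (by rw [hY₁]; exact inf_le_left) hY₁P hY₁ψ
        obtain ⟨C, hC⟩ := Submodule.exists_isCompl Y₁
        obtain ⟨π₀, hπ₀⟩ : ∃ π₀ : Module.End k V,
            π₀ = Y₁.subtype ∘ₗ Submodule.linearProjOfIsCompl Y₁ C hC := ⟨_, rfl⟩
        have hπ₀a : ∀ v, π₀ v ∈ Y₁ := by
          intro v
          rw [hπ₀]
          exact (Submodule.linearProjOfIsCompl Y₁ C hC v).2
        have hπ₀b : ∀ u ∈ Y₁, π₀ u = u := by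
          intro u hu
          rw [hπ₀]
          have h1 := Submodule.linearProjOfIsCompl_apply_left hC ⟨u, hu⟩
          show ((Submodule.linearProjOfIsCompl Y₁ C hC u : ↥Y₁) : V) = u
          have h2 : Submodule.linearProjOfIsCompl Y₁ C hC u = ⟨u, hu⟩ := h1
          rw [h2]
        obtain ⟨π₁, hπ₁a, hπ₁b, hπ₁P, -⟩ := gross_avg (Units.coeHom (Module.End k V)) P ⊥ hPk Y₁
          (fun b hb u hu => hY₁P b hb u hu) π₀ hπ₀a hπ₀b
          (fun b _ h hh => by
            rw [Subgroup.mem_bot] at hh ⊢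
            rw [hh]
            group)
          (fun h hh v => by
            rw [Subgroup.mem_bot] at hh
            rw [hh, map_one]
            rfl)
        obtain ⟨π₂, hπ₂a, hπ₂b, hπ₂ψ, hπ₂P⟩ := gross_avg (Units.coeHom (Module.End k V))
          (Subgroup.zpowers ψ) P hZk Y₁
          (fun b hb u hu => by
            rcases hzp b hb with h | h
            · rw [h, map_one]
              exact hu
            · rw [h]
              exact hY₁ψ u hu)
          π₁ hπ₁a hπ₁b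
          (fun b hb h hh => by
            rcases hzp b hb with h' | h'
            · rw [h', inv_one, one_mul, mul_one]
              exact hh
            · rw [h']
              exact hψinv h hh)
          hπ₁P
        have hπ₂ψ' : ∀ v, π₂ ((ψ : Module.End k V) v) = (ψ : Module.End k V) (π₂ v) :=
          hπ₂ψ ψ (Subgroup.mem_zpowers ψ)
        have hπ₂P' : ∀ x ∈ P, ∀ v, π₂ ((x : Module.End k V) v) = (x : Module.End k V) (π₂ v) :=
          hπ₂P
        have hY₂P : ∀ x ∈ P, ∀ u ∈ Y ⊓ LinearMap.ker π₂,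
            (x : Module.End k V) u ∈ Y ⊓ LinearMap.ker π₂ := by
          intro x hx u hu
          obtain ⟨hu1, hu2⟩ := Submodule.mem_inf.mp hu
          refine Submodule.mem_inf.mpr ⟨hYP x hx u hu1, ?_⟩
          rw [LinearMap.mem_ker] at hu2 ⊢
          rw [hπ₂P' x hx, hu2, map_zero]
        have hY₂ψ : ∀ u ∈ Y ⊓ LinearMap.ker π₂,
            (ψ : Module.End k V) u ∈ Y ⊓ LinearMap.ker π₂ := by
          intro u hu
          obtain ⟨hu1, hu2⟩ := Submodule.mem_inf.mp hu
          refine Submodule.mem_inf.mpr ⟨hYψ u hu1, ?_⟩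
          rw [LinearMap.mem_ker] at hu2 ⊢
          rw [hπ₂ψ', hu2, map_zero]
        have hsplit := split_finrank Y Y₁ hY₁le π₂ (fun y _ => hπ₂a y) hπ₂b
        have hpos : 0 < Module.finrank k ↥Y₁ := by
          rcases Nat.eq_zero_or_pos (Module.finrank k ↥Y₁) with h | h
          · exfalso
            apply hWY
            rw [← hY₁]
            exact Submodule.finrank_eq_zero.mp h
          · exact h
        have hlt : Module.finrank k ↥(Y ⊓ LinearMap.ker π₂) < d := by omega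
        have hf2 := ih _ hlt (Y ⊓ LinearMap.ker π₂) rfl hY₂P hY₂ψ
        have hsplitF := split_finrank (Y ⊓ F) (Y₁ ⊓ F) (inf_le_inf_right F hY₁le) π₂
          (fun y hy => Submodule.mem_inf.mpr ⟨hπ₂a y, (hmemF _).mpr (by
            rw [← hπ₂ψ', (hmemF y).mp (Submodule.mem_inf.mp hy).2])⟩)
          (fun u hu => hπ₂b u (Submodule.mem_inf.mp hu).1)
        have e : Y ⊓ F ⊓ LinearMap.ker π₂ = Y ⊓ LinearMap.ker π₂ ⊓ F := inf_right_comm _ _ _
        rw [e] at hsplitF
        rw [hsplitF, hsplit, mul_add, mul_add, hf1, hf2]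
  intro Y hYP hYψ
  exact main _ Y rfl hYP hYψ

end Cfsg.Agent.Lib.Helper49.Gross2K2L
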