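import Mathlib
import Cfsg.Agent.S0840
import Cfsg.Agent.Lib.Helper82.CharCore
import Cfsg.Agent.Lib.Helper83.Ortho
import Cfsg.Agent.Lib.Helper83.Linear

/-!
# S0997 (Brauer–Tuan, project of helper5), piece BW-C6: the class-constant count formula
-/

set_option autoImplicit false

namespace Cfsg.Agent.Lib.Helper5.BW

open Cfsg
open Cfsg.Agent.Lib.Helper83 (trivIrr)
open scoped ComplexConjugate

/-- BW-C6 -/
theorem count_formula {G : Type*} [Group G] [Fintype G] (X : Set (IrrCharacter G))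
    (εX : IrrCharacter G → ℤ) (ε : ℤ) (htriv : trivIrr G ∈ X) (htrivs : εX (trivIrr G) = 1)
    (s : Finset (IrrCharacter G)) (hs : ∀ χ, χ ∈ s ↔ χ ∈ X ∧ χ ≠ trivIrr G)
    (θ₀ : IrrCharacter G) (x w : G) (a : IrrCharacter G → ℤ)
    (ha : ∀ ψ : IrrCharacter G, (ψ : G → ℂ) w = (a ψ : ℂ))
    (hBr : ∑ᶠ ψ : IrrCharacter G,
        (ψ : G → ℂ) w * (ψ : G → ℂ) w * conj ((ψ : G → ℂ) x) / (ψ : G → ℂ) 1 =
      ∑ᶠ χ ∈ X, (εX χ : ℂ) * ((χ : G → ℂ) w * (χ : G → ℂ) w) / (χ : G → ℂ) 1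
        - (ε : ℂ) * ((θ₀ : G → ℂ) w * (θ₀ : G → ℂ) w) / (θ₀ : G → ℂ) 1) :
    (Nat.card {q : G × G // IsConj w q.1 ∧ IsConj w q.2 ∧ q.1 * q.2 = x} : ℝ) *
        (Nat.card (Subgroup.centralizer ({w} : Set G)) : ℝ) ^ 2 =
      (Nat.card G : ℝ) * (1 + ∑ χ ∈ s, (εX χ : ℝ) * (a χ : ℝ) ^ 2 /
          (charDegree (χ : G → ℂ) : ℝ)
        - (ε : ℝ) * (a θ₀ : ℝ) ^ 2 / (charDegree (θ₀ : G → ℂ) : ℝ)) := by
  classical
  have h1 := Cfsg.Agent.S0840.result w w x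
  have h2 := Cfsg.Agent.Lib.Helper83.card_conj_mul_card_centralizer w
  rw [hBr] at h1
  have hX : X = ((insert (trivIrr G) s : Finset (IrrCharacter G)) : Set (IrrCharacter G)) := by
    ext χ
    simp only [Finset.coe_insert, Set.mem_insert_iff, Finset.mem_coe, hs]
    constructor
    · intro h
      by_cases hχ : χ = trivIrr G
      · exact Or.inl hχ
      · exact Or.inr ⟨h, hχ⟩
    · rintro (rfl | ⟨h, -⟩)
      · exact htriv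
      · exact h
  have hnot : trivIrr G ∉ s := fun h => ((hs _).mp h).2 rfl
  rw [hX, finsum_mem_coe_finset, Finset.sum_insert hnot] at h1
  have ht : (εX (trivIrr G) : ℂ) * ((trivIrr G : G → ℂ) w * (trivIrr G : G → ℂ) w) /
      (trivIrr G : G → ℂ) 1 = 1 := by
    rw [htrivs]
    simp [Cfsg.Agent.Lib.Helper83.trivIrr_apply]
  rw [ht] at h1
  have hdeg : ∀ ψ : IrrCharacter G,
      (ψ : G → ℂ) 1 = ((charDegree (ψ : G → ℂ) : ℕ) : ℂ) :=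
    fun ψ => (Cfsg.Agent.Lib.Helper82.irr_charDegree ψ).1.symm
  have hsum : ∑ χ ∈ s, (εX χ : ℂ) * ((χ : G → ℂ) w * (χ : G → ℂ) w) / (χ : G → ℂ) 1 =
      ∑ χ ∈ s, (εX χ : ℂ) * (a χ : ℂ) ^ 2 / ((charDegree (χ : G → ℂ) : ℕ) : ℂ) := by
    apply Finset.sum_congr rfl
    intro χ _
    rw [ha χ, hdeg χ, sq]
  rw [hsum, ha θ₀, hdeg θ₀] at h1
  have hK : (Nat.card {y : G // IsConj w y} : ℂ) *
      (Nat.card (Subgroup.centralizer ({w} : Set G)) : ℂ) = (Nat.card G : ℂ) := by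
    exact_mod_cast h2
  have hG0 : (Nat.card G : ℂ) ≠ 0 := by
    have : 0 < Nat.card G := Nat.card_pos
    exact_mod_cast this.ne'
  apply Complex.ofReal_injective
  push_cast
  rw [h1]
  obtain ⟨K, hKdef⟩ : ∃ K : ℂ, K = (Nat.card {y : G // IsConj w y} : ℂ) := ⟨_, rfl⟩
  obtain ⟨C, hCdef⟩ : ∃ C : ℂ, C = (Nat.card (Subgroup.centralizer ({w} : Set G)) : ℂ) :=
    ⟨_, rfl⟩
  obtain ⟨N, hNdef⟩ : ∃ N : ℂ, N = (Nat.card G : ℂ) := ⟨_, rfl⟩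
  rw [← hKdef, ← hCdef, ← hNdef] at hK
  rw [← hNdef] at hG0
  rw [← hKdef, ← hCdef, ← hNdef]
  obtain ⟨B, hBdef⟩ : ∃ B : ℂ, B = 1 + ∑ χ ∈ s, (εX χ : ℂ) * (a χ : ℂ) ^ 2 /
      ((charDegree (χ : G → ℂ) : ℕ) : ℂ) -
      (ε : ℂ) * ((a θ₀ : ℂ) * (a θ₀ : ℂ)) / ((charDegree (θ₀ : G → ℂ) : ℕ) : ℂ) := ⟨_, rfl⟩
  have hB2 : 1 + ∑ χ ∈ s, (εX χ : ℂ) * (a χ : ℂ) ^ 2 /
      ((charDegree (χ : G → ℂ) : ℕ) : ℂ) -
      (ε : ℂ) * (a θ₀ : ℂ) ^ 2 / ((charDegree (θ₀ : G → ℂ) : ℕ) : ℂ) = B := by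
    rw [hBdef, sq]
  rw [← hBdef, hB2]
  rw [div_mul_eq_mul_div, div_mul_eq_mul_div, div_eq_iff hG0]
  have e : K * K * C ^ 2 = N * N := by
    rw [← hK]
    ring
  linear_combination B * e

end Cfsg.Agent.Lib.Helper5.BW
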