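import Mathlib
import Cfsg.Agent.Lib.Helper97.FCDefs

/-!
# S5115 (project FC of helper97), piece B1: the `p'`-elements of `C_G(Q)` form a subgroup
-/

set_option autoImplicit false
set_option linter.style.haveILetI false

open Cfsg.Agent.Lib.Helper97.FC

namespace Cfsg.Agent.Lib.Helper49.FC

universe u

section aux

variable {Γ : Type*} [Group Γ]

theorem b1_card_mul_relIndex {H K : Subgroup Γ} (h : H ≤ K) :
    Nat.card H * H.relIndex K = Nat.card K := by
  have := Subgroup.relIndex_mul_relIndex (H := (⊥ : Subgroup Γ)) (K := H) (L := K) bot_le h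
  rwa [Subgroup.relIndex_bot_left, Subgroup.relIndex_bot_left] at this

theorem b1_relIndex_sup {H K : Subgroup Γ}
    (hLE : H ≤ Subgroup.normalizer (K : Set Γ)) : K.relIndex (H ⊔ K) = K.relIndex H := by
  have := Subgroup.normal_subgroupOf_of_le_normalizer hLE
  have := Subgroup.normal_subgroupOf_sup_of_le_normalizer hLE
  exact Nat.card_congr (QuotientGroup.quotientInfEquivProdNormalizerQuotient H K hLE).toEquiv.symm

theorem b1_card_sup_mul_card_inf {H K : Subgroup Γ}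
    (hLE : H ≤ Subgroup.normalizer (K : Set Γ)) :
    Nat.card (H ⊔ K : Subgroup Γ) * Nat.card (H ⊓ K : Subgroup Γ) = Nat.card H * Nat.card K := by
  have h1 : Nat.card K * K.relIndex (H ⊔ K) = Nat.card (H ⊔ K : Subgroup Γ) :=
    b1_card_mul_relIndex le_sup_right
  have h2 : Nat.card (H ⊓ K : Subgroup Γ) * (H ⊓ K).relIndex H = Nat.card H :=
    b1_card_mul_relIndex inf_le_left
  rw [b1_relIndex_sup hLE] at h1
  rw [Subgroup.inf_relIndex_left] at h2
  rw [← h1, ← h2]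
  ring

/-- if `S` normalises `C` then `[C : S ∩ C]` divides `[G : S]` -/
theorem b1_relIndex_dvd [Finite Γ] {S C : Subgroup Γ}
    (hLE : S ≤ Subgroup.normalizer (C : Set Γ)) : (S ⊓ C).relIndex C ∣ S.index := by
  have h1 := b1_card_sup_mul_card_inf hLE
  have h2 : Nat.card (S ⊓ C : Subgroup Γ) * (S ⊓ C).relIndex C = Nat.card C :=
    b1_card_mul_relIndex inf_le_right
  have h3 : Nat.card S * S.relIndex (S ⊔ C) = Nat.card (S ⊔ C : Subgroup Γ) :=
    b1_card_mul_relIndex le_sup_left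
  have hpos1 : 0 < Nat.card S := Nat.card_pos
  have hpos2 : 0 < Nat.card (S ⊓ C : Subgroup Γ) := Nat.card_pos
  have e : S.relIndex (S ⊔ C) = (S ⊓ C).relIndex C := by
    apply Nat.eq_of_mul_eq_mul_left (Nat.mul_pos hpos1 hpos2)
    calc Nat.card S * Nat.card (S ⊓ C : Subgroup Γ) * S.relIndex (S ⊔ C)
        = (Nat.card S * S.relIndex (S ⊔ C)) * Nat.card (S ⊓ C : Subgroup Γ) := by ring
      _ = Nat.card S * Nat.card C := by rw [h3, h1]
      _ = Nat.card S * Nat.card (S ⊓ C : Subgroup Γ) * (S ⊓ C).relIndex C := by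
          rw [← h2]
          ring
  rw [← e]
  exact Subgroup.relIndex_dvd_index_of_le le_sup_left

end aux

theorem fc_b1 : B1Stmt.{u} := by
  intro G _ _ p _ S Q hS hQ
  obtain ⟨R, rfl⟩ := hS
  obtain ⟨hQS, hExt, hcen⟩ := hQ
  have hp : p.Prime := Fact.out
  -- `S` normalises `Q`
  have hSQ : ∀ g ∈ (R : Subgroup G), ∀ x ∈ Q, g * x * g⁻¹ ∈ Q := by
    intro g hg x hx
    obtain ⟨n, hn, hnx⟩ := hExt (R : Subgroup G) le_rfl g
      (fun y hy => (R : Subgroup G).mul_mem ((R : Subgroup G).mul_mem hg hy)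
        ((R : Subgroup G).inv_mem hg))
    rw [← hnx x (hQS hx)]
    exact (Subgroup.mem_normalizer_iff.mp hn x).mp hx
  obtain ⟨C, hC⟩ : ∃ C : Subgroup G, C = Subgroup.centralizer (Q : Set G) := ⟨_, rfl⟩
  have hmemC : ∀ c : G, c ∈ C ↔ ∀ q ∈ Q, q * c = c * q := by
    intro c
    rw [hC, Subgroup.mem_centralizer_iff]
    rfl
  -- `S` normalises `C`
  have hSC1 : ∀ g ∈ (R : Subgroup G), ∀ c ∈ C, g * c * g⁻¹ ∈ C := by
    intro g hg c hc
    rw [hmemC] at hc ⊢
    intro q hq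
    have h1 := hSQ g⁻¹ ((R : Subgroup G).inv_mem hg) q hq
    rw [inv_inv] at h1
    have h2 := hc _ h1
    calc q * (g * c * g⁻¹) = g * ((g⁻¹ * q * g) * c) * g⁻¹ := by group
      _ = g * (c * (g⁻¹ * q * g)) * g⁻¹ := by rw [h2]
      _ = g * c * g⁻¹ * q := by group
  have hSC : (R : Subgroup G) ≤ Subgroup.normalizer (C : Set G) := by
    intro g hg
    rw [Subgroup.mem_normalizer_iff]
    intro c
    constructor
    · exact hSC1 g hg c
    · intro h
      have h1 := hSC1 g⁻¹ ((R : Subgroup G).inv_mem hg) _ h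
      have e : g⁻¹ * (g * c * g⁻¹) * g⁻¹⁻¹ = c := by group
      rw [e] at h1
      exact h1
  have hrel : ¬ p ∣ (R : Subgroup G).relIndex C := by
    intro h
    rw [← Subgroup.inf_relIndex_right] at h
    exact R.not_dvd_index (h.trans (b1_relIndex_dvd hSC))
  -- the central Sylow subgroup of `C`
  obtain ⟨P₀, hP₀⟩ : ∃ P₀ : Subgroup ↥C, P₀ = (R : Subgroup G).subgroupOf C := ⟨_, rfl⟩
  have hmemP : ∀ z : ↥C, z ∈ P₀ ↔ (z : G) ∈ (R : Subgroup G) := by
    intro z
    rw [hP₀, Subgroup.mem_subgroupOf]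
  have hcentral : ∀ z ∈ P₀, ∀ c : ↥C, z * c = c * z := by
    intro z hz c
    apply Subtype.ext
    show (z : G) * (c : G) = (c : G) * (z : G)
    have hzQ : (z : G) ∈ Q := by
      apply hcen _ ((hmemP z).mp hz)
      intro x hx
      exact ((hmemC _).mp z.2 x hx).symm
    exact (hmemC _).mp c.2 _ hzQ
  haveI hnorm : P₀.Normal := by
    constructor
    intro n hn g
    have e : g * n * g⁻¹ = n := by
      rw [← hcentral n hn g]
      group
    rw [e]
    exact hn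
  have hPp : IsPGroup p ↥P₀ := by
    intro g
    obtain ⟨k, hk⟩ := R.isPGroup' ⟨(g.1 : G), (hmemP g.1).mp g.2⟩
    refine ⟨k, ?_⟩
    apply Subtype.ext
    apply Subtype.ext
    have h1 := congrArg (fun y : ↥(R : Subgroup G) => (y : G)) hk
    exact h1
  obtain ⟨a, ha⟩ := IsPGroup.iff_card.mp hPp
  have hidx : P₀.index = (R : Subgroup G).relIndex C := by
    rw [hP₀]
    rfl
  have hcop : Nat.Coprime (Nat.card ↥P₀) P₀.index := by
    rw [ha, hidx]
    exact Nat.Coprime.pow_left a ((Nat.Prime.coprime_iff_not_dvd hp).mpr hrel)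
  obtain ⟨K₀, hK₀⟩ := Subgroup.exists_right_complement'_of_coprime hcop
  have hcardK : Nat.card ↥K₀ = (R : Subgroup G).relIndex C := by
    have h1 := hK₀.card_mul_card
    have h2 := P₀.card_mul_index
    rw [hidx] at h2
    have hpos : 0 < Nat.card ↥P₀ := Nat.card_pos
    exact Nat.eq_of_mul_eq_mul_left hpos (h1.trans h2.symm)
  have hKcop : (Nat.card ↥K₀).Coprime p := by
    rw [hcardK]
    exact ((Nat.Prime.coprime_iff_not_dvd hp).mpr hrel).symm
  rw [← hC]
  refine ⟨K₀.map C.subtype, fun x => ?_⟩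
  constructor
  · rintro ⟨k, hk, rfl⟩
    refine ⟨k.2, ?_⟩
    have h1 : orderOf ((C.subtype k : G)) = orderOf k := Subgroup.orderOf_coe k
    rw [h1]
    have h2 : orderOf (⟨k, hk⟩ : ↥K₀) = orderOf k := (Subgroup.orderOf_coe (⟨k, hk⟩ : ↥K₀)).symm
    rw [← h2]
    exact Nat.Coprime.coprime_dvd_left (orderOf_dvd_natCard _) hKcop
  · rintro ⟨hxC, hxo⟩
    obtain ⟨⟨z, k⟩, hzk⟩ := hK₀.2 (⟨x, hxC⟩ : ↥C)
    have hzP : (z : ↥C) ∈ P₀ := z.2
    have hkK : (k : ↥C) ∈ K₀ := k.2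
    have hzk' : (z : ↥C) * (k : ↥C) = ⟨x, hxC⟩ := hzk
    have hord : orderOf (⟨x, hxC⟩ : ↥C) = orderOf x := (Subgroup.orderOf_coe (⟨x, hxC⟩ : ↥C)).symm
    have hpow : ((z : ↥C) * (k : ↥C)) ^ orderOf x = 1 := by
      rw [hzk', ← hord]
      exact pow_orderOf_eq_one _
    have hcomm : Commute (z : ↥C) (k : ↥C) := hcentral _ hzP _
    rw [hcomm.mul_pow] at hpow
    have hzn : (z : ↥C) ^ orderOf x ∈ P₀ ⊓ K₀ := by
      refine Subgroup.mem_inf.mpr ⟨P₀.pow_mem hzP _, ?_⟩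
      have e : (z : ↥C) ^ orderOf x = ((k : ↥C) ^ orderOf x)⁻¹ := eq_inv_of_mul_eq_one_left hpow
      rw [e]
      exact K₀.inv_mem (K₀.pow_mem hkK _)
    have hdisj := hK₀.disjoint
    rw [disjoint_iff] at hdisj
    rw [hdisj, Subgroup.mem_bot] at hzn
    obtain ⟨j, hj⟩ := hPp ⟨(z : ↥C), hzP⟩
    have hj' : (z : ↥C) ^ p ^ j = 1 := by
      have h1 := congrArg (fun y : ↥P₀ => (y : ↥C)) hj
      exact h1
    have hd : orderOf (z : ↥C) ∣ Nat.gcd (orderOf x) (p ^ j) :=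
      Nat.dvd_gcd (orderOf_dvd_of_pow_eq_one hzn) (orderOf_dvd_of_pow_eq_one hj')
    have hg : Nat.gcd (orderOf x) (p ^ j) = 1 := Nat.Coprime.pow_right j hxo
    rw [hg, Nat.dvd_one] at hd
    have hz1 : (z : ↥C) = 1 := orderOf_eq_one_iff.mp hd
    rw [hz1, one_mul] at hzk'
    refine ⟨(k : ↥C), hkK, ?_⟩
    rw [hzk']
    rfl

end Cfsg.Agent.Lib.Helper49.FC
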