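import Mathlib
import Cfsg.Agent.Lib.Helper26.Gross2DefsC
import Cfsg.Agent.Lib.Helper32.GrossG3

/-!
# S3795, piece G3EQ: the equality case of the Hall–Higman count
-/

set_option autoImplicit false
set_option linter.unusedSectionVars false
set_option linter.style.haveILetI false

open Cfsg.Agent.Lib.Helper26 Cfsg.Agent.Lib.Helper26.Gross2 Cfsg.Agent.Lib.Helper32.GrossG3

namespace Cfsg.Agent.Lib.Helper49.Gross2G3EQ

universe u

section

variable {k : Type*} [Field k] {W : Type*} [AddCommGroup W] [Module k W]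

/-- the `ζ ^ i`-eigenspace of `t` -/
def eigS (t : (Module.End k W)ˣ) (ζ : k) (i : ℕ) : Submodule k W :=
  LinearMap.ker ((t : Module.End k W) - algebraMap k (Module.End k W) (ζ ^ i))

theorem mem_eigS (t : (Module.End k W)ˣ) (ζ : k) (i : ℕ) (w : W) :
    w ∈ eigS t ζ i ↔ (t : Module.End k W) w = ζ ^ i • w := by
  rw [eigS, LinearMap.mem_ker, LinearMap.sub_apply, Module.algebraMap_end_apply, sub_eq_zero]

theorem eigS_pow (t : (Module.End k W)ˣ) (ζ : k) (i : ℕ) (w : W) (hw : w ∈ eigS t ζ i) (n : ℕ) :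
    ((t ^ n : (Module.End k W)ˣ) : Module.End k W) w = ζ ^ (i * n) • w := by
  rw [mem_eigS] at hw
  induction n with
  | zero => simp
  | succ n ih =>
    rw [pow_succ, Units.val_mul, Module.End.mul_apply, hw, map_smul, ih, smul_smul, ← pow_add]
    congr 2
    ring

/-- the eigenspace decomposition and the lower bound for the commutant, in terms of `eigS` -/
theorem g3_setup [Module.Finite k W] (t : (Module.End k W)ˣ) (a : ℕ) (ha : 1 < a)
    (ht : t ^ a = 1) (ζ : k) (hζ : IsPrimitiveRoot ζ a) (hak : (a : k) ≠ 0) :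
    Module.finrank k W = ∑ i : Fin a, Module.finrank k (eigS t ζ i.val) ∧
    ∑ i : Fin a, Module.finrank k (eigS t ζ i.val) ^ 2 ≤
      Module.finrank k ↥(grossComm ({t} : Set (Module.End k W)ˣ)) := by
  classical
  haveI : NeZero a := ⟨by omega⟩
  haveI : Fact (1 < a) := ⟨ha⟩
  have hζa : ζ ^ a = 1 := hζ.pow_eq_one
  have hζ0 : ζ ≠ 0 := hζ.ne_zero (by omega)
  obtain ⟨act, hact⟩ : ∃ act : Multiplicative (ZMod a) →* Module.End k W,
      act = grossCyc t a ht := ⟨_, rfl⟩
  obtain ⟨α, hα⟩ : ∃ α : Fin a → Multiplicative (ZMod a) → k,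
      α = fun j y => ζ ^ (j.val * (Multiplicative.toAdd y).val) := ⟨_, rfl⟩
  have hαv : ∀ j y, α j y = ζ ^ (j.val * (Multiplicative.toAdd y).val) := by
    intro j y; rw [hα]
  have hmul : ∀ i y y', α i (y * y') = α i y * α i y' := by
    intro i y y'
    rw [hαv, hαv, hαv, toAdd_mul, ZMod.val_add, ← pow_add, ← mul_add, mul_comm i.val,
      mul_comm i.val, pow_mul, pow_mul, ← pow_eq_pow_mod _ hζa]
  have hne : ∀ i y, α i y ≠ 0 := fun i y => by rw [hαv]; exact pow_ne_zero _ hζ0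
  have hy1 : (Multiplicative.toAdd (Multiplicative.ofAdd (1 : ZMod a))).val = 1 :=
    ZMod.val_one a
  have hdist : ∀ i j, i ≠ j → ∃ y, α i y ≠ α j y := by
    intro i j hij
    refine ⟨Multiplicative.ofAdd (1 : ZMod a), ?_⟩
    rw [hαv, hαv, hy1, mul_one, mul_one]
    intro h
    exact hij (Fin.ext (hζ.pow_inj i.2 j.2 h))
  have hcardY : Fintype.card (Multiplicative (ZMod a)) = a := by
    rw [Fintype.card_multiplicative, ZMod.card]
  have hcard : (Fintype.card (Multiplicative (ZMod a)) : k) ≠ 0 := by rw [hcardY]; exact hak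
  have hsum0 : ∀ y : Multiplicative (ZMod a), y ≠ 1 → ∑ i : Fin a, (α i y)⁻¹ = 0 := by
    intro y hy
    have hi0 : (Multiplicative.toAdd y).val ≠ 0 := by
      intro h
      apply hy
      have h1 := (ZMod.val_eq_zero (Multiplicative.toAdd y)).mp h
      exact toAdd_eq_zero.mp h1
    have hilt : (Multiplicative.toAdd y).val < a := ZMod.val_lt _
    have hr1 : (ζ ^ (Multiplicative.toAdd y).val)⁻¹ ≠ 1 := by
      intro h
      exact hζ.pow_ne_one_of_pos_of_lt hi0 hilt (inv_eq_one.mp h)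
    have hra : ((ζ ^ (Multiplicative.toAdd y).val)⁻¹) ^ a = 1 := by
      rw [inv_pow, ← pow_mul, mul_comm, pow_mul, hζa, one_pow, inv_one]
    have h2 : ∑ j : Fin a, (α j y)⁻¹ =
        ∑ j ∈ Finset.range a, ((ζ ^ (Multiplicative.toAdd y).val)⁻¹) ^ j := by
      rw [← Fin.sum_univ_eq_sum_range (fun j => ((ζ ^ (Multiplicative.toAdd y).val)⁻¹) ^ j) a]
      apply Finset.sum_congr rfl
      intro j _
      rw [hαv, inv_pow, ← pow_mul, mul_comm]
    rw [h2, geom_sum_eq hr1, hra, sub_self, zero_div]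
  have horth : ∑ y : Multiplicative (ZMod a), (∑ i : Fin a, (α i y)⁻¹) • act y =
      (Fintype.card (Multiplicative (ZMod a)) : k) • (1 : Module.End k W) := by
    rw [Finset.sum_eq_single (1 : Multiplicative (ZMod a))]
    · rw [map_one, hcardY]
      congr 1
      have h3 : ∀ i : Fin a, (α i 1)⁻¹ = 1 := by
        intro i
        rw [hαv, toAdd_one, ZMod.val_zero, mul_zero, pow_zero, inv_one]
      rw [Finset.sum_congr rfl (fun i _ => h3 i), Finset.sum_const, Finset.card_univ,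
        Fintype.card_fin, nsmul_eq_mul, mul_one]
    · intro y _ hy
      rw [hsum0 y hy, zero_smul]
    · intro h; exact absurd (Finset.mem_univ _) h
  have hdec := gross_dec_finrank act α hmul hne hdist hcard horth
  have hact1 : act (Multiplicative.ofAdd (1 : ZMod a)) = (t : Module.End k W) := by
    rw [hact, grossCyc_apply, hy1, pow_one]
  have hge := finrank_comm_ge act α hmul hne hdist hcard
    (grossComm ({t} : Set (Module.End k W)ˣ)) (by
      intro f hf x hx
      rw [Set.mem_singleton_iff] at hx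
      subst hx
      rw [← hact1]; exact hf _)
  have hEq : ∀ i : Fin a, grossEig (fun y => act y) (α i) = eigS t ζ i.val := by
    intro i
    ext w
    rw [mem_grossEig]
    constructor
    · intro hw
      have h1 := hw (Multiplicative.ofAdd (1 : ZMod a))
      rw [hαv, hy1, mul_one, hact1] at h1
      exact (mem_eigS t ζ i.val w).mpr h1
    · intro hw y
      rw [hαv, hact, grossCyc_apply]
      exact eigS_pow t ζ i.val w hw _
  have hdec' : Module.finrank k W = ∑ i : Fin a, Module.finrank k (eigS t ζ i.val) := by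
    rw [hdec]
    apply Finset.sum_congr rfl
    intro i _
    rw [hEq i]
  have hge' : ∑ i : Fin a, Module.finrank k (eigS t ζ i.val) ^ 2 ≤
      Module.finrank k ↥(grossComm ({t} : Set (Module.End k W)ˣ)) := by
    refine le_trans (le_of_eq ?_) hge
    apply Finset.sum_congr rfl
    intro i _
    rw [hEq i]
  exact ⟨hdec', hge'⟩

end

/-- the equality case of the Cauchy–Schwarz inequality for natural numbers -/
theorem eq_of_cs_eq {ι : Type*} (S : Finset ι) (d : ι → ℕ)
    (h : S.card * ∑ i ∈ S, d i ^ 2 ≤ (∑ i ∈ S, d i) ^ 2) : ∀ i ∈ S, ∀ j ∈ S, d i = d j := by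
  have key : ∑ i ∈ S, ∑ j ∈ S, ((d i : ℤ) - (d j : ℤ)) ^ 2 =
      2 * ((S.card : ℤ) * ∑ i ∈ S, (d i : ℤ) ^ 2 - (∑ i ∈ S, (d i : ℤ)) ^ 2) := by
    have h1 : ∀ i ∈ S, ∑ j ∈ S, ((d i : ℤ) - (d j : ℤ)) ^ 2 =
        (S.card : ℤ) * (d i : ℤ) ^ 2 - 2 * (d i : ℤ) * ∑ j ∈ S, (d j : ℤ) +
          ∑ j ∈ S, (d j : ℤ) ^ 2 := by
      intro i _
      have h2 : ∀ j ∈ S, ((d i : ℤ) - (d j : ℤ)) ^ 2 =
          (d i : ℤ) ^ 2 - 2 * (d i : ℤ) * (d j : ℤ) + (d j : ℤ) ^ 2 := by
        intro j _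
        ring
      rw [Finset.sum_congr rfl h2, Finset.sum_add_distrib, Finset.sum_sub_distrib,
        Finset.sum_const, nsmul_eq_mul, ← Finset.mul_sum]
    rw [Finset.sum_congr rfl h1, Finset.sum_add_distrib, Finset.sum_sub_distrib,
      Finset.sum_const, nsmul_eq_mul, ← Finset.mul_sum, ← Finset.sum_mul, ← Finset.mul_sum]
    ring
  have h' : (S.card : ℤ) * ∑ i ∈ S, (d i : ℤ) ^ 2 ≤ (∑ i ∈ S, (d i : ℤ)) ^ 2 := by
    exact_mod_cast h
  have hle : ∑ i ∈ S, ∑ j ∈ S, ((d i : ℤ) - (d j : ℤ)) ^ 2 ≤ 0 := by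
    rw [key]
    linarith
  have h0 : ∑ i ∈ S, ∑ j ∈ S, ((d i : ℤ) - (d j : ℤ)) ^ 2 = 0 :=
    le_antisymm hle (Finset.sum_nonneg fun i _ => Finset.sum_nonneg fun j _ => sq_nonneg _)
  intro i hi j hj
  have h1 := (Finset.sum_eq_zero_iff_of_nonneg
    (fun i _ => Finset.sum_nonneg fun j _ => sq_nonneg ((d i : ℤ) - (d j : ℤ)))).mp h0 i hi
  have h2 := (Finset.sum_eq_zero_iff_of_nonneg
    (fun j _ => sq_nonneg ((d i : ℤ) - (d j : ℤ)))).mp h1 j hj
  have h3 : (d i : ℤ) - (d j : ℤ) = 0 := by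
    rcases pow_eq_zero_iff (two_ne_zero) |>.mp h2 with h
    exact h
  exact_mod_cast sub_eq_zero.mp h3

/-- counting the nonzero even residues -/
theorem sum_even_range (m : ℕ) (c : ℕ) :
    ∑ n ∈ Finset.range (2 * (c + 1)), (if Even n ∧ n ≠ 0 then m else 0) = c * m := by
  induction c with
  | zero =>
    have e : 2 * (0 + 1) = 0 + 1 + 1 := by norm_num
    rw [e, Finset.sum_range_succ, Finset.sum_range_succ, Finset.sum_range_zero]
    simp
  | succ c ih =>
    have e : 2 * (c + 1 + 1) = 2 * (c + 1) + 1 + 1 := by ring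
    rw [e, Finset.sum_range_succ, Finset.sum_range_succ, ih]
    have h1 : Even (2 * (c + 1)) ∧ 2 * (c + 1) ≠ 0 := ⟨even_two_mul _, by omega⟩
    have h2 : ¬ (Even (2 * (c + 1) + 1) ∧ 2 * (c + 1) + 1 ≠ 0) := by
      intro h
      exact (Nat.not_even_iff_odd.mpr (odd_two_mul_add_one _)) h.1
    rw [if_pos h1, if_neg h2]
    ring

theorem gross2_g3eq : G3EqStmt.{u} := by
  intro k _ W _ _ _ t a ha hev ht hfix ζ hζ hak hEq
  classical
  obtain ⟨b, hb⟩ := hev
  obtain ⟨c, hc⟩ : ∃ c, b = c + 1 := ⟨b - 1, by omega⟩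
  have ha2 : a = 2 * (c + 1) := by omega
  have hdiv : a / 2 = c + 1 := by omega
  have h2k : (2 : k) ≠ 0 := by
    intro h
    apply hak
    rw [ha2]
    push_cast
    rw [h, zero_mul]
  have hζa : ζ ^ a = 1 := hζ.pow_eq_one
  have hζb : ζ ^ (c + 1) = -1 := by
    have h1 : (ζ ^ (c + 1)) ^ 2 = 1 := by rw [← pow_mul, mul_comm, ← ha2, hζa]
    have h2 : ζ ^ (c + 1) ≠ 1 := hζ.pow_ne_one_of_pos_of_lt (by omega) (by omega)
    have h3 : (ζ ^ (c + 1) - 1) * (ζ ^ (c + 1) + 1) = 0 := by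
      have e : (ζ ^ (c + 1) - 1) * (ζ ^ (c + 1) + 1) = (ζ ^ (c + 1)) ^ 2 - 1 := by ring
      rw [e, h1, sub_self]
    rcases mul_eq_zero.mp h3 with h | h
    · exact absurd (sub_eq_zero.mp h) h2
    · exact eq_neg_of_add_eq_zero_left h
  obtain ⟨hdec, hge⟩ := g3_setup t a ha ht ζ hζ hak
  obtain ⟨d, hd⟩ : ∃ d : ℕ → ℕ, d = fun n => Module.finrank k (eigS t ζ n) := ⟨_, rfl⟩
  have hdv : ∀ n, Module.finrank k (eigS t ζ n) = d n := by intro n; rw [hd]
  rw [Fin.sum_univ_eq_sum_range (fun n => Module.finrank k (eigS t ζ n)) a] at hdec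
  rw [Fin.sum_univ_eq_sum_range (fun n => Module.finrank k (eigS t ζ n) ^ 2) a] at hge
  simp only [hdv] at hdec hge
  have h0 : d 0 = 0 := by
    rw [← hdv]
    have hbot : eigS t ζ 0 = ⊥ := by
      rw [eq_bot_iff]
      intro w hw
      rw [mem_eigS, pow_zero, one_smul] at hw
      exact (Submodule.mem_bot k).mpr (hfix w hw)
    rw [hbot, finrank_bot]
  obtain ⟨S, hS⟩ : ∃ S : Finset ℕ, S = (Finset.range a).erase 0 := ⟨_, rfl⟩
  have h0mem : 0 ∈ Finset.range a := Finset.mem_range.mpr (by omega)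
  have hcardS : S.card = a - 1 := by
    rw [hS, Finset.card_erase_of_mem h0mem, Finset.card_range]
  have hsumS : ∑ n ∈ Finset.range a, d n = ∑ n ∈ S, d n := by
    rw [hS, ← Finset.add_sum_erase _ _ h0mem, h0, zero_add]
  have hsqS : ∑ n ∈ Finset.range a, d n ^ 2 = ∑ n ∈ S, d n ^ 2 := by
    rw [hS, ← Finset.add_sum_erase _ _ h0mem, h0]
    simp
  have hcs : S.card * ∑ n ∈ S, d n ^ 2 ≤ (∑ n ∈ S, d n) ^ 2 := by
    rw [hcardS, ← hsumS, ← hdec, ← hEq, ← hsqS]
    exact Nat.mul_le_mul_left _ hge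
  have hall := eq_of_cs_eq S d hcs
  have h1S : 1 ∈ S := by
    rw [hS]
    exact Finset.mem_erase.mpr ⟨one_ne_zero, Finset.mem_range.mpr ha⟩
  obtain ⟨m, hm⟩ : ∃ m, m = d 1 := ⟨_, rfl⟩
  have hdm : ∀ n ∈ S, d n = m := fun n hn => by rw [hm]; exact hall n hn 1 h1S
  have hw : Module.finrank k W = (a - 1) * m := by
    rw [hdec, hsumS, Finset.sum_congr rfl hdm, Finset.sum_const, hcardS, smul_eq_mul]
  -- the fixed space of `t ^ (a / 2)`
  rw [hdiv]
  obtain ⟨U, hU⟩ : ∃ U : Submodule k W,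
      U = LinearMap.ker (((t ^ (c + 1) : (Module.End k W)ˣ) : Module.End k W) - 1) := ⟨_, rfl⟩
  rw [← hU]
  have hmemU : ∀ w : W, w ∈ U ↔ ((t ^ (c + 1) : (Module.End k W)ˣ) : Module.End k W) w = w := by
    intro w
    rw [hU, LinearMap.mem_ker, LinearMap.sub_apply, Module.End.one_apply, sub_eq_zero]
  have hinv : ∀ u ∈ U, (t : Module.End k W) u ∈ U := by
    intro u hu
    rw [hmemU] at hu ⊢
    have e : ((t ^ (c + 1) : (Module.End k W)ˣ) : Module.End k W) ((t : Module.End k W) u) =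
        (t : Module.End k W) (((t ^ (c + 1) : (Module.End k W)ˣ) : Module.End k W) u) := by
      rw [← Module.End.mul_apply, ← Module.End.mul_apply, ← Units.val_mul, ← Units.val_mul,
        ← pow_succ, ← pow_succ']
    rw [e, hu]
  have hstab : t ∈ grossStab U := mem_grossStab_of_pow U (by omega : 0 < a) ht hinv
  obtain ⟨tU, htU⟩ : ∃ tU : (Module.End k ↥U)ˣ, tU = grossRes U ⟨t, hstab⟩ := ⟨_, rfl⟩
  have htUa : tU ^ a = 1 := by
    rw [htU, ← map_pow]
    have e : (⟨t, hstab⟩ : ↥(grossStab U)) ^ a = 1 := Subtype.ext (by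
      rw [Subgroup.coe_pow]
      exact ht)
    rw [e, map_one]
  have htUapp : ∀ u : ↥U, (((tU : Module.End k ↥U) u : ↥U) : W) = (t : Module.End k W) (u : W) := by
    intro u
    rw [htU]
    exact grossRes_apply U ⟨t, hstab⟩ u
  obtain ⟨hdecU, -⟩ := g3_setup tU a ha htUa ζ hζ hak
  rw [Fin.sum_univ_eq_sum_range (fun n => Module.finrank k (eigS tU ζ n)) a] at hdecU
  have hmap : ∀ n : ℕ, (eigS tU ζ n).map U.subtype = U ⊓ eigS t ζ n := by
    intro n
    ext w
    rw [Submodule.mem_map, Submodule.mem_inf]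
    constructor
    · rintro ⟨u, hu, rfl⟩
      refine ⟨u.2, ?_⟩
      rw [mem_eigS] at hu ⊢
      have h1 : (((tU : Module.End k ↥U) u : ↥U) : W) = ((ζ ^ n • u : ↥U) : W) :=
        congrArg Subtype.val hu
      rw [htUapp] at h1
      exact h1
    · rintro ⟨hwU, hw⟩
      refine ⟨⟨w, hwU⟩, ?_, rfl⟩
      rw [mem_eigS] at hw ⊢
      apply Subtype.ext
      rw [htUapp]
      exact hw
  have hfr : ∀ n : ℕ, Module.finrank k (eigS tU ζ n) = Module.finrank k ↥(U ⊓ eigS t ζ n) := by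
    intro n
    rw [← hmap n]
    exact (Submodule.finrank_map_subtype_eq U (eigS tU ζ n)).symm
  have hval : ∀ n ∈ Finset.range a, Module.finrank k (eigS tU ζ n) =
      if Even n ∧ n ≠ 0 then m else 0 := by
    intro n hn
    rw [hfr n]
    by_cases hev : Even n
    · by_cases hn0 : n = 0
      · rw [if_neg (fun h => h.2 hn0)]
        have e : U ⊓ eigS t ζ n ≤ eigS t ζ 0 := by rw [hn0]; exact inf_le_right
        have h1 := Submodule.finrank_mono e
        rw [hdv, h0] at h1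
        exact Nat.le_zero.mp h1
      · rw [if_pos ⟨hev, hn0⟩]
        have hle : eigS t ζ n ≤ U := by
          intro w hw
          rw [hmemU, eigS_pow t ζ n w hw]
          obtain ⟨r, hr⟩ := hev
          have e : n * (c + 1) = a * r := by rw [hr, ha2]; ring
          rw [e, pow_mul, hζa, one_pow, one_smul]
        rw [inf_eq_right.mpr hle, hdv]
        exact hdm n (by rw [hS]; exact Finset.mem_erase.mpr ⟨hn0, hn⟩)
    · rw [if_neg (fun h => hev h.1)]
      have hbot : U ⊓ eigS t ζ n = ⊥ := by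
        rw [eq_bot_iff]
        intro w hw
        obtain ⟨hwU, hwE⟩ := Submodule.mem_inf.mp hw
        rw [hmemU, eigS_pow t ζ n w hwE] at hwU
        obtain ⟨r, hr⟩ := Nat.not_even_iff_odd.mp hev
        have e : n * (c + 1) = a * r + (c + 1) := by rw [hr, ha2]; ring
        rw [e, pow_add, pow_mul, hζa, one_pow, one_mul, hζb, neg_smul, one_smul] at hwU
        have h1 : (2 : k) • w = 0 := by
          rw [two_smul]
          nth_rewrite 1 [← hwU]
          exact neg_add_cancel w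
        exact (Submodule.mem_bot k).mpr ((smul_eq_zero.mp h1).resolve_left h2k)
      rw [hbot, finrank_bot]
  have hUdim : Module.finrank k ↥U = c * m := by
    rw [hdecU, Finset.sum_congr rfl hval, ha2]
    exact sum_even_range m c
  rw [hUdim, hw, ha2]
  have e1 : 2 * (c + 1) - 1 = 2 * c + 1 := by omega
  have e2 : 2 * (c + 1) - 2 = 2 * c := by omega
  rw [e1, e2]
  ring

end Cfsg.Agent.Lib.Helper49.Gross2G3EQ
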