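import Mathlib
import Cfsg.Agent.Lib.Helper26.Gross2DefsC
import Cfsg.Agent.Lib.Helper26.Gross2Lin3
import Cfsg.Agent.Lib.Helper26.GrossSq

/-!
# S3795, piece K1: the first layer
-/

set_option autoImplicit false
set_option linter.unusedSectionVars false
set_option linter.style.haveILetI false
open scoped commutatorElement

open Cfsg.Agent.Lib.Helper26 Cfsg.Agent.Lib.Helper26.Gross2

namespace Cfsg.Agent.Lib.Helper49.Gross2K1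

universe u

section grp

variable {Γ : Type*} [Group Γ]

theorem k1_mem_Z (Q : Subgroup Γ) (z : Γ) :
    z ∈ Q ⊓ Subgroup.centralizer (Q : Set Γ) ↔ z ∈ Q ∧ ∀ w ∈ Q, z * w = w * z := by
  rw [Subgroup.mem_inf, Subgroup.mem_centralizer_iff]
  constructor
  · rintro ⟨h1, h2⟩
    exact ⟨h1, fun w hw => (h2 w hw).symm⟩
  · rintro ⟨h1, h2⟩
    exact ⟨h1, fun w hw => (h2 w hw).symm⟩

theorem k1_comm_mem (Q : Subgroup Γ) {x y : Γ} (hx : x ∈ Q) (hy : y ∈ Q) : ⁅x, y⁆ ∈ Q := by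
  rw [commutatorElement_def]
  exact Q.mul_mem (Q.mul_mem (Q.mul_mem hx hy) (Q.inv_mem hx)) (Q.inv_mem hy)

theorem k1_comm_mem_Z (Q : Subgroup Γ)
    (hc : ∀ x ∈ Q, ∀ y ∈ Q, ∀ w ∈ Q, ⁅x, y⁆ * w = w * ⁅x, y⁆) {x y : Γ} (hx : x ∈ Q)
    (hy : y ∈ Q) : ⁅x, y⁆ ∈ Q ⊓ Subgroup.centralizer (Q : Set Γ) :=
  (k1_mem_Z Q _).mpr ⟨k1_comm_mem Q hx hy, hc x hx y hy⟩

theorem k1_comm_mul_right (Q : Subgroup Γ)
    (hc : ∀ x ∈ Q, ∀ y ∈ Q, ∀ w ∈ Q, ⁅x, y⁆ * w = w * ⁅x, y⁆) {x y y' : Γ} (hx : x ∈ Q)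
    (hy : y ∈ Q) (hy' : y' ∈ Q) : ⁅x, y * y'⁆ = ⁅x, y⁆ * ⁅x, y'⁆ := by
  have h := hc x hx y' hy' y hy
  have e : ⁅x, y * y'⁆ = ⁅x, y⁆ * (y * ⁅x, y'⁆) * y⁻¹ := by
    simp only [commutatorElement_def]
    group
  rw [e, ← h]
  group

theorem k1_comm_mul_left (Q : Subgroup Γ)
    (hc : ∀ x ∈ Q, ∀ y ∈ Q, ∀ w ∈ Q, ⁅x, y⁆ * w = w * ⁅x, y⁆) {x x' y : Γ} (hx : x ∈ Q)
    (hx' : x' ∈ Q) (hy : y ∈ Q) : ⁅x * x', y⁆ = ⁅x, y⁆ * ⁅x', y⁆ := by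
  have h := hc x' hx' y hy x hx
  have h' := hc x' hx' y hy ⁅x, y⁆ (k1_comm_mem Q hx hy)
  have e : ⁅x * x', y⁆ = (x * ⁅x', y⁆) * x⁻¹ * ⁅x, y⁆ := by
    simp only [commutatorElement_def]
    group
  rw [e, ← h, ← h']
  group

theorem k1_comm_inv_left (Q : Subgroup Γ)
    (hc : ∀ x ∈ Q, ∀ y ∈ Q, ∀ w ∈ Q, ⁅x, y⁆ * w = w * ⁅x, y⁆) {x y : Γ} (hx : x ∈ Q)
    (hy : y ∈ Q) : ⁅x⁻¹, y⁆ = ⁅x, y⁆⁻¹ := by
  apply eq_inv_of_mul_eq_one_left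
  rw [← k1_comm_mul_left Q hc (Q.inv_mem hx) hx hy, inv_mul_cancel, commutatorElement_one_left]

theorem k1_comm_pow_left (Q : Subgroup Γ)
    (hc : ∀ x ∈ Q, ∀ y ∈ Q, ∀ w ∈ Q, ⁅x, y⁆ * w = w * ⁅x, y⁆) {x y : Γ} (hx : x ∈ Q)
    (hy : y ∈ Q) (i : ℕ) : ⁅x ^ i, y⁆ = ⁅x, y⁆ ^ i := by
  induction i with
  | zero => rw [pow_zero, pow_zero, commutatorElement_one_left]
  | succ i ih => rw [pow_succ, pow_succ, k1_comm_mul_left Q hc (Q.pow_mem hx i) hx hy, ih]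

theorem k1_conj_Z (K : Subgroup Γ) {g : Γ} (hg : ∀ x ∈ K, g * x * g⁻¹ ∈ K)
    (hg' : ∀ x ∈ K, g⁻¹ * x * g ∈ K) :
    ∀ z ∈ K ⊓ Subgroup.centralizer (K : Set Γ),
      g * z * g⁻¹ ∈ K ⊓ Subgroup.centralizer (K : Set Γ) := by
  intro z hz
  rw [k1_mem_Z] at hz ⊢
  refine ⟨hg z hz.1, fun w hw => ?_⟩
  have h := hz.2 _ (hg' w hw)
  calc g * z * g⁻¹ * w = g * (z * (g⁻¹ * w * g)) * g⁻¹ := by group
    _ = g * ((g⁻¹ * w * g) * z) * g⁻¹ := by rw [h]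
    _ = w * (g * z * g⁻¹) := by group

/-- the elements of `Q` inverted by `ψ` modulo the centre -/
def k1T (Q : Subgroup Γ) (ψ : Γ)
    (hc : ∀ x ∈ Q, ∀ y ∈ Q, ∀ w ∈ Q, ⁅x, y⁆ * w = w * ⁅x, y⁆)
    (hψ : ∀ x ∈ Q, ψ * x * ψ⁻¹ ∈ Q) : Subgroup Γ where
  carrier := {x | x ∈ Q ∧ x * (ψ * x * ψ⁻¹) ∈ Q ⊓ Subgroup.centralizer (Q : Set Γ)}
  mul_mem' := by
    rintro x y ⟨hx, hx'⟩ ⟨hy, hy'⟩
    refine ⟨Q.mul_mem hx hy, ?_⟩
    have hcm : ⁅y⁻¹, (ψ * x * ψ⁻¹)⁻¹⁆ ∈ Q ⊓ Subgroup.centralizer (Q : Set Γ) :=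
      k1_comm_mem_Z Q hc (Q.inv_mem hy) (Q.inv_mem (hψ x hx))
    have h := hc _ (Q.inv_mem hy) _ (Q.inv_mem (hψ x hx)) _ (hψ y hy)
    have e : (x * y) * (ψ * (x * y) * ψ⁻¹) =
        (x * (ψ * x * ψ⁻¹)) * (y * (ψ * y * ψ⁻¹)) * ⁅y⁻¹, (ψ * x * ψ⁻¹)⁻¹⁆ := by
      calc (x * y) * (ψ * (x * y) * ψ⁻¹)
          = (x * (ψ * x * ψ⁻¹)) * y * (⁅y⁻¹, (ψ * x * ψ⁻¹)⁻¹⁆ * (ψ * y * ψ⁻¹)) := by group
        _ = (x * (ψ * x * ψ⁻¹)) * y * ((ψ * y * ψ⁻¹) * ⁅y⁻¹, (ψ * x * ψ⁻¹)⁻¹⁆) := by rw [h]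
        _ = _ := by simp only [mul_assoc]
    show (x * y) * (ψ * (x * y) * ψ⁻¹) ∈ Q ⊓ Subgroup.centralizer (Q : Set Γ)
    rw [e]
    exact Subgroup.mul_mem _ (Subgroup.mul_mem _ hx' hy') hcm
  one_mem' := by
    refine ⟨Q.one_mem, ?_⟩
    have e : (1 : Γ) * (ψ * 1 * ψ⁻¹) = 1 := by group
    rw [e]
    exact Subgroup.one_mem _
  inv_mem' := by
    rintro x ⟨hx, hx'⟩
    refine ⟨Q.inv_mem hx, ?_⟩
    have hcm : ⁅(ψ * x * ψ⁻¹)⁻¹, x⁻¹⁆ ∈ Q ⊓ Subgroup.centralizer (Q : Set Γ) :=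
      k1_comm_mem_Z Q hc (Q.inv_mem (hψ x hx)) (Q.inv_mem hx)
    have e : x⁻¹ * (ψ * x⁻¹ * ψ⁻¹) = (x * (ψ * x * ψ⁻¹) * ⁅(ψ * x * ψ⁻¹)⁻¹, x⁻¹⁆)⁻¹ := by
      group
    show x⁻¹ * (ψ * x⁻¹ * ψ⁻¹) ∈ Q ⊓ Subgroup.centralizer (Q : Set Γ)
    rw [e]
    exact Subgroup.inv_mem _ (Subgroup.mul_mem _ hx' hcm)

theorem k1_mem_T (Q : Subgroup Γ) (ψ : Γ)
    (hc : ∀ x ∈ Q, ∀ y ∈ Q, ∀ w ∈ Q, ⁅x, y⁆ * w = w * ⁅x, y⁆)
    (hψ : ∀ x ∈ Q, ψ * x * ψ⁻¹ ∈ Q) (x : Γ) :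
    x ∈ k1T Q ψ hc hψ ↔
      x ∈ Q ∧ x * (ψ * x * ψ⁻¹) ∈ Q ⊓ Subgroup.centralizer (Q : Set Γ) := Iff.rfl

theorem k1_delta_T (ψ : Γ) (hψ2 : ψ ^ 2 = 1) (x : Γ) :
    (x⁻¹ * (ψ * x * ψ⁻¹)) * (ψ * (x⁻¹ * (ψ * x * ψ⁻¹)) * ψ⁻¹) = 1 := by
  have hψψ : ψ * ψ = 1 := by rw [← pow_two]; exact hψ2
  have e : (x⁻¹ * (ψ * x * ψ⁻¹)) * (ψ * (x⁻¹ * (ψ * x * ψ⁻¹)) * ψ⁻¹) =
      x⁻¹ * (ψ * ψ) * x * (ψ * ψ)⁻¹ := by group
  rw [e, hψψ]
  group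

theorem k1_rad (Q : Subgroup Γ) (ψ : Γ)
    (hc : ∀ x ∈ Q, ∀ y ∈ Q, ∀ w ∈ Q, ⁅x, y⁆ * w = w * ⁅x, y⁆)
    (hψ : ∀ x ∈ Q, ψ * x * ψ⁻¹ ∈ Q) (hψ2 : ψ ^ 2 = 1)
    (hψZ : ∀ z ∈ Q ⊓ Subgroup.centralizer (Q : Set Γ), ψ * z = z * ψ)
    (hodd : ∀ z ∈ Q, z ^ 2 = 1 → z = 1)
    {x y : Γ} (hx : x ∈ Q)
    (hxT : x * (ψ * x * ψ⁻¹) ∈ Q ⊓ Subgroup.centralizer (Q : Set Γ)) (hy : y ∈ Q) :
    ⁅x, y⁆ ^ 2 = ⁅x, (ψ * y * ψ⁻¹)⁻¹ * y⁆ := by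
  have hψψ : ψ * ψ = 1 := by rw [← pow_two]; exact hψ2
  obtain ⟨y', hy'def⟩ : ∃ y', y' = ψ * y * ψ⁻¹ := ⟨_, rfl⟩
  obtain ⟨x', hx'def⟩ : ∃ x', x' = ψ * x * ψ⁻¹ := ⟨_, rfl⟩
  rw [← hy'def]
  rw [← hx'def] at hxT
  have hy' : y' ∈ Q := by rw [hy'def]; exact hψ y hy
  have hx' : x' ∈ Q := by rw [hx'def]; exact hψ x hx
  have hyy' : ψ * y' * ψ⁻¹ = y := by
    rw [hy'def]
    calc ψ * (ψ * y * ψ⁻¹) * ψ⁻¹ = (ψ * ψ) * y * (ψ * ψ)⁻¹ := by group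
      _ = y := by rw [hψψ]; group
  have hcZ : ⁅x, y * y'⁆ ∈ Q ⊓ Subgroup.centralizer (Q : Set Γ) :=
    k1_comm_mem_Z Q hc hx (Q.mul_mem hy hy')
  have h1 : ψ * ⁅x, y * y'⁆ * ψ⁻¹ = ⁅x, y * y'⁆ := by
    rw [hψZ _ hcZ]
    group
  have h2 : ψ * ⁅x, y * y'⁆ * ψ⁻¹ = ⁅x', y' * y⁆ := by
    have e : ψ * ⁅x, y * y'⁆ * ψ⁻¹ = ⁅ψ * x * ψ⁻¹, (ψ * y * ψ⁻¹) * (ψ * y' * ψ⁻¹)⁆ := by
      simp only [commutatorElement_def]
      group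
    rw [e, hyy', ← hx'def, ← hy'def]
  have hz1 : ∀ w ∈ Q, (x * x') * w = w * (x * x') := ((k1_mem_Z Q _).mp hxT).2
  have h3 : ⁅x', y' * y⁆ = ⁅x, y * y'⁆⁻¹ := by
    have hyy : y' * y ∈ Q := Q.mul_mem hy' hy
    have e1 : ⁅x', y' * y⁆ = ⁅x⁻¹ * (x * x'), y' * y⁆ := by
      congr 1
      group
    rw [e1, k1_comm_mul_left Q hc (Q.inv_mem hx) (Q.mul_mem hx hx') hyy,
      commutatorElement_eq_one_iff_mul_comm.mpr (hz1 _ hyy), mul_one,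
      k1_comm_inv_left Q hc hx hyy, k1_comm_mul_right Q hc hx hy' hy,
      k1_comm_mul_right Q hc hx hy hy', hc x hx y' hy' _ (k1_comm_mem Q hx hy)]
  have h4 : ⁅x, y * y'⁆ = 1 := by
    apply hodd _ (k1_comm_mem Q hx (Q.mul_mem hy hy'))
    have e : ⁅x, y * y'⁆ = ⁅x, y * y'⁆⁻¹ := by
      rw [← h3, ← h2, h1]
    rw [pow_two]
    nth_rewrite 2 [e]
    exact mul_inv_cancel _
  have h5 : y * y = (y * y') * (y'⁻¹ * y) := by group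
  rw [pow_two, ← k1_comm_mul_right Q hc hx hy hy, h5,
    k1_comm_mul_right Q hc hx (Q.mul_mem hy hy') (Q.mul_mem (Q.inv_mem hy') hy), h4, one_mul]

/-- the radical of `(x, y) ↦ χ ⁅x, y⁆` on `Q` -/
def k1R (Q : Subgroup Γ) (hc : ∀ x ∈ Q, ∀ y ∈ Q, ∀ w ∈ Q, ⁅x, y⁆ * w = w * ⁅x, y⁆)
    {k : Type*} [Field k] (χ : Γ → k) (hχ1 : χ 1 = 1)
    (hχ : ∀ z ∈ Q ⊓ Subgroup.centralizer (Q : Set Γ),
      ∀ z' ∈ Q ⊓ Subgroup.centralizer (Q : Set Γ), χ (z * z') = χ z * χ z') : Subgroup Γ where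
  carrier := {x | x ∈ Q ∧ ∀ y ∈ Q, χ ⁅x, y⁆ = 1}
  mul_mem' := by
    rintro a b ⟨ha, ha'⟩ ⟨hb, hb'⟩
    refine ⟨Q.mul_mem ha hb, fun y hy => ?_⟩
    rw [k1_comm_mul_left Q hc ha hb hy,
      hχ _ (k1_comm_mem_Z Q hc ha hy) _ (k1_comm_mem_Z Q hc hb hy), ha' y hy, hb' y hy, one_mul]
  one_mem' := ⟨Q.one_mem, fun y _ => by rw [commutatorElement_one_left, hχ1]⟩
  inv_mem' := by
    rintro a ⟨ha, ha'⟩
    refine ⟨Q.inv_mem ha, fun y hy => ?_⟩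
    have e : ⁅a⁻¹, y⁆ * ⁅a, y⁆ = 1 := by
      rw [k1_comm_inv_left Q hc ha hy, inv_mul_cancel]
    have h := hχ _ (k1_comm_mem_Z Q hc (Q.inv_mem ha) hy) _ (k1_comm_mem_Z Q hc ha hy)
    rw [e, hχ1, ha' y hy, mul_one] at h
    exact h.symm

theorem k1_odd (Q : Subgroup Γ) {q : ℕ} (hq : q.Prime) (hq2 : q ≠ 2) (hQ : IsPGroup q Q) :
    ∀ z ∈ Q, z ^ 2 = 1 → z = 1 := by
  intro z hz h2
  obtain ⟨j, hj⟩ := hQ ⟨z, hz⟩
  have hj' : z ^ q ^ j = 1 := by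
    have h := congrArg Subtype.val hj
    simpa using h
  have hcop : Nat.Coprime 2 (q ^ j) :=
    Nat.Coprime.pow_right j ((Nat.coprime_primes Nat.prime_two hq).mpr (Ne.symm hq2))
  have hd : orderOf z ∣ Nat.gcd 2 (q ^ j) :=
    Nat.dvd_gcd (orderOf_dvd_of_pow_eq_one h2) (orderOf_dvd_of_pow_eq_one hj')
  rw [hcop.gcd_eq_one, Nat.dvd_one] at hd
  exact orderOf_eq_one_iff.mp hd

theorem k1_field_odd {k : Type*} [Field k] {q : ℕ} (hq : q.Prime) (hq2 : q ≠ 2) {t : k}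
    (h2 : t ^ 2 = 1) (hq' : t ^ q = 1) : t = 1 := by
  have hcop : Nat.Coprime 2 q := (Nat.coprime_primes Nat.prime_two hq).mpr (Ne.symm hq2)
  have hd : orderOf t ∣ Nat.gcd 2 q :=
    Nat.dvd_gcd (orderOf_dvd_of_pow_eq_one h2) (orderOf_dvd_of_pow_eq_one hq')
  rw [hcop.gcd_eq_one, Nat.dvd_one] at hd
  exact orderOf_eq_one_iff.mp hd

theorem k1_card_mul_relIndex {H K : Subgroup Γ} (h : H ≤ K) :
    Nat.card H * H.relIndex K = Nat.card K := by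
  have := Subgroup.relIndex_mul_relIndex (H := (⊥ : Subgroup Γ)) (K := H) (L := K) bot_le h
  rwa [Subgroup.relIndex_bot_left, Subgroup.relIndex_bot_left] at this

theorem k1_relIndex_sup {H K : Subgroup Γ}
    (hLE : H ≤ Subgroup.normalizer (K : Set Γ)) : K.relIndex (H ⊔ K) = K.relIndex H := by
  have := Subgroup.normal_subgroupOf_of_le_normalizer hLE
  have := Subgroup.normal_subgroupOf_sup_of_le_normalizer hLE
  exact Nat.card_congr (QuotientGroup.quotientInfEquivProdNormalizerQuotient H K hLE).toEquiv.symm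

theorem k1_card_sup_mul_card_inf {H K : Subgroup Γ}
    (hLE : H ≤ Subgroup.normalizer (K : Set Γ)) :
    Nat.card (H ⊔ K : Subgroup Γ) * Nat.card (H ⊓ K : Subgroup Γ) = Nat.card H * Nat.card K := by
  have h1 : Nat.card K * K.relIndex (H ⊔ K) = Nat.card (H ⊔ K : Subgroup Γ) :=
    k1_card_mul_relIndex le_sup_right
  have h2 : Nat.card (H ⊓ K : Subgroup Γ) * (H ⊓ K).relIndex H = Nat.card H :=
    k1_card_mul_relIndex inf_le_left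
  rw [k1_relIndex_sup hLE] at h1
  rw [Subgroup.inf_relIndex_left] at h2
  rw [← h1, ← h2]
  ring

end grp

section lin

variable {k : Type*} [Field k] {V : Type*} [AddCommGroup V] [Module k V]

theorem k1_fix_range (c : Module.End k V) (m : ℕ) (hm : (m : k) ≠ 0) (hcm : c ^ m = 1)
    (w : V) (hw : c w = w) (hr : w ∈ LinearMap.range (c - 1)) : w = 0 := by
  obtain ⟨w', hw'⟩ := hr
  have hpw : ∀ i : ℕ, (c ^ i) w = w := by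
    intro i
    induction i with
    | zero => rw [pow_zero, Module.End.one_apply]
    | succ i ih => rw [pow_succ, Module.End.mul_apply, hw, ih]
  have h1 : (∑ i ∈ Finset.range m, c ^ i) * (c - 1) = 0 := by
    rw [geom_sum_mul, hcm, sub_self]
  have h2 : (∑ i ∈ Finset.range m, c ^ i) w = (m : k) • w := by
    rw [LinearMap.sum_apply, Finset.sum_congr rfl (fun i _ => hpw i), Finset.sum_const,
      Finset.card_range, Nat.cast_smul_eq_nsmul]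
  have h3 : (∑ i ∈ Finset.range m, c ^ i) w = 0 := by
    rw [← hw', ← Module.End.mul_apply, h1, LinearMap.zero_apply]
  rw [h2] at h3
  rcases smul_eq_zero.mp h3 with h | h
  · exact absurd h hm
  · exact h

end lin

theorem gross2_k1 (hAbw : AbwStmt.{u}) (hSetup : SetupStmt.{u}) (hComp : CompStmt.{u}) :
    K1Stmt.{u} := by
  intro k _ _ M₀ q n hD hq hq2 V _ _ _ Q φ hQ hcard hφ hnQ hCV h1 h2 h3
  haveI : Finite (Module.End k V)ˣ := gross_finite_units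
  obtain ⟨ψ, hψ⟩ : ∃ ψ : (Module.End k V)ˣ, ψ = φ ^ 2 ^ n := ⟨_, rfl⟩
  rw [← hψ] at h3 ⊢
  have hψ2 : ψ ^ 2 = 1 := by
    rw [hψ, ← pow_mul, ← pow_succ]
    exact hφ
  have hcardQ : Nat.card Q ∣ M₀ := (dvd_mul_right _ _).trans hcard
  have hnQ' : ∀ x ∈ Q, φ⁻¹ * x * φ ∈ Q := gross_inv_conj_mem Q (by positivity) hφ hnQ
  have hψQ : ∀ x ∈ Q, ψ * x * ψ⁻¹ ∈ Q := by
    rw [hψ]
    exact gross_pow_conj_mem Q hnQ (2 ^ n)
  have hψQ' : ∀ x ∈ Q, ψ⁻¹ * x * ψ ∈ Q :=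
    gross_inv_conj_mem Q (by norm_num : 0 < 2) hψ2 hψQ
  have hφψ : φ * ψ = ψ * φ := by rw [hψ, ← pow_succ', ← pow_succ]
  have hodd : ∀ z ∈ Q, z ^ 2 = 1 → z = 1 := k1_odd Q hq hq2 hQ
  obtain ⟨Z, hZ⟩ : ∃ Z : Subgroup (Module.End k V)ˣ,
      Z = Q ⊓ Subgroup.centralizer (Q : Set (Module.End k V)ˣ) := ⟨_, rfl⟩
  obtain ⟨D, hDdef⟩ : ∃ D : Subgroup (Module.End k V)ˣ,
      D = Subgroup.closure {c | ∃ x ∈ Q, x⁻¹ * (ψ * x * ψ⁻¹) = c} := ⟨_, rfl⟩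
  rw [← hDdef]
  have hZQ : Z ≤ Q := by
    rw [hZ]
    exact inf_le_left
  have hDQ : D ≤ Q := by
    rw [hDdef, Subgroup.closure_le]
    rintro c ⟨x, hx, rfl⟩
    exact Q.mul_mem (Q.inv_mem hx) (hψQ x hx)
  obtain ⟨P, hPdef⟩ : ∃ P : Subgroup (Module.End k V)ˣ, P = Z ⊔ D := ⟨_, rfl⟩
  have hPQ : P ≤ Q := by
    rw [hPdef]
    exact sup_le hZQ hDQ
  have hZP : Z ≤ P := by
    rw [hPdef]
    exact le_sup_left
  have hDP : D ≤ P := by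
    rw [hPdef]
    exact le_sup_right
  have hmemZ : ∀ z, z ∈ Z ↔ z ∈ Q ∧ ∀ w ∈ Q, z * w = w * z := by
    intro z
    rw [hZ]
    exact k1_mem_Z Q z
  have hδD : ∀ x ∈ Q, x⁻¹ * (ψ * x * ψ⁻¹) ∈ D := by
    intro x hx
    rw [hDdef]
    exact Subgroup.subset_closure ⟨x, hx, rfl⟩
  -- `φ` normalises `Z`, and `ψ` centralises it
  have hφZ : ∀ z ∈ Z, φ * z * φ⁻¹ ∈ Z := by
    rw [hZ]
    exact k1_conj_Z Q hnQ hnQ'
  have hψZn : ∀ z ∈ Z, ψ * z * ψ⁻¹ ∈ Z := by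
    rw [hZ]
    exact k1_conj_Z Q hψQ hψQ'
  have hψZ : ∀ z ∈ Z, ψ * z = z * ψ := by
    have h := gross2_ab_of_abw hAbw hD Z φ ((Subgroup.card_dvd_of_le hZQ).trans hcardQ) hφ hφZ
      hCV (fun x hx y hy => ((hmemZ x).mp hx).2 y (hZQ hy))
    rw [hψ]
    exact h
  -- `ψ` inverts `P` modulo `Z`
  have hPT : P ≤ k1T Q ψ h1 hψQ := by
    rw [hPdef]
    apply sup_le
    · intro z hz
      rw [k1_mem_T]
      refine ⟨hZQ hz, ?_⟩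
      rw [← hZ]
      exact Z.mul_mem hz (hψZn z hz)
    · rw [hDdef, Subgroup.closure_le]
      rintro c ⟨x, hx, rfl⟩
      show _ ∈ k1T Q ψ h1 hψQ
      rw [k1_mem_T]
      refine ⟨Q.mul_mem (Q.inv_mem hx) (hψQ x hx), ?_⟩
      rw [k1_delta_T ψ hψ2 x]
      exact Subgroup.one_mem _
  have hPinv : ∀ x ∈ P, x * (ψ * x * ψ⁻¹) ∈ Z := by
    intro x hx
    rw [hZ]
    exact ((k1_mem_T Q ψ h1 hψQ x).mp (hPT hx)).2
  -- `φ` normalises `P`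
  have hφP : ∀ x ∈ P, φ * x * φ⁻¹ ∈ P := by
    have hle : Z ⊔ D ≤ P.comap (MulAut.conj φ).toMonoidHom := by
      apply sup_le
      · intro z hz
        show φ * z * φ⁻¹ ∈ P
        exact hZP (hφZ z hz)
      · rw [hDdef, Subgroup.closure_le]
        rintro c ⟨x, hx, rfl⟩
        show φ * (x⁻¹ * (ψ * x * ψ⁻¹)) * φ⁻¹ ∈ P
        have e : φ * (x⁻¹ * (ψ * x * ψ⁻¹)) * φ⁻¹ =
            (φ * x * φ⁻¹)⁻¹ * (ψ * (φ * x * φ⁻¹) * ψ⁻¹) := by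
          calc φ * (x⁻¹ * (ψ * x * ψ⁻¹)) * φ⁻¹
              = (φ * x * φ⁻¹)⁻¹ * ((φ * ψ) * x * (φ * ψ)⁻¹) := by group
            _ = (φ * x * φ⁻¹)⁻¹ * ((ψ * φ) * x * (ψ * φ)⁻¹) := by rw [hφψ]
            _ = _ := by group
        rw [e]
        exact hDP (hδD _ (hnQ x hx))
    intro x hx
    rw [hPdef] at hx
    exact hle hx
  have hφP' : ∀ x ∈ P, φ⁻¹ * x * φ ∈ P := gross_inv_conj_mem P (by positivity) hφ hφP
  have hcardP : Nat.card P ∣ M₀ := (Subgroup.card_dvd_of_le hPQ).trans hcardQ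
  have hcardP2 : Nat.card P * 2 ^ (n + 1) ∣ M₀ :=
    (Nat.mul_dvd_mul_right (Subgroup.card_dvd_of_le hPQ) _).trans hcard
  have hInv : GrossInv q n P φ := by
    refine ⟨hq, hq2, inferInstance, hQ.to_le hPQ, hφ, hφP,
      fun x hx y hy w hw => h1 x (hPQ hx) y (hPQ hy) w (hPQ hw), ?_, ?_,
      fun x hx w hw => h2 x (hPQ hx) w (hPQ hw), ?_⟩
    · intro z hz hzc
      have hB : P ⊓ Subgroup.centralizer (P : Set (Module.End k V)ˣ) ≤ P := inf_le_left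
      exact gross2_ab_of_abw hAbw hD (P ⊓ Subgroup.centralizer (P : Set (Module.End k V)ˣ)) φ
        ((Subgroup.card_dvd_of_le hB).trans hcardP) hφ (k1_conj_Z P hφP hφP') hCV
        (fun x hx y hy => ((k1_mem_Z P x).mp hx).2 y (hB hy)) z ((k1_mem_Z P z).mpr ⟨hz, hzc⟩)
    · intro x hx w hw
      rw [← hψ]
      exact ((hmemZ _).mp (hPinv x hx)).2 w (hPQ hw)
    · by_contra hab
      push Not at hab
      have hcen : ∀ x ∈ P, ψ * x = x * ψ := by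
        have h := gross2_ab_of_abw hAbw hD P φ hcardP hφ hφP hCV hab
        rw [hψ]
        exact h
      obtain ⟨x, hx, w, hw, hne⟩ := h3
      apply hne
      have hδ := hcen _ (hDP (hδD x hx))
      have hδ' : ψ * (x⁻¹ * (ψ * x * ψ⁻¹)) * ψ⁻¹ = x⁻¹ * (ψ * x * ψ⁻¹) := by
        rw [hδ]
        group
      have h5 := k1_delta_T ψ hψ2 x
      rw [hδ', ← pow_two] at h5
      rw [hodd _ (hDQ (hδD x hx)) h5, one_mul, mul_one]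
  -- the subspace `Y`
  obtain ⟨u, hu, v, hv, huv⟩ := hInv.hnab
  obtain ⟨c, hcdef⟩ : ∃ c : (Module.End k V)ˣ, c = ⁅u, v⁆ := ⟨_, rfl⟩
  have hcZ : c ∈ Z := by
    rw [hcdef, hZ]
    exact k1_comm_mem_Z Q h1 (hPQ hu) (hPQ hv)
  have hc1 : c ≠ 1 := by
    rw [hcdef]
    intro h
    exact huv (commutatorElement_eq_one_iff_mul_comm.mp h)
  have hcQ : c ∈ Q := hZQ hcZ
  have hcm : c ^ Nat.card Q = 1 := by
    have h : (⟨c, hcQ⟩ : ↥Q) ^ Nat.card Q = 1 := pow_card_eq_one'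
    have h' := congrArg (fun z : ↥Q => (z : (Module.End k V)ˣ)) h
    exact h'
  have hmk : (Nat.card Q : k) ≠ 0 :=
    gross_cast_ne_zero (Nat.Coprime.coprime_dvd_left hcardQ hD.hcop)
  obtain ⟨Y, hYdef⟩ : ∃ Y : Submodule k V, Y = LinearMap.range ((c : Module.End k V) - 1) :=
    ⟨_, rfl⟩
  have hY0 : Y ≠ ⊥ := by
    intro h
    apply hc1
    apply Units.ext
    rw [hYdef, LinearMap.range_eq_bot] at h
    rw [Units.val_one]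
    exact sub_eq_zero.mp h
  have hYinv : ∀ x ∈ P, ∀ y ∈ Y, (x : Module.End k V) y ∈ Y := by
    intro x hx y hy
    rw [hYdef] at hy ⊢
    obtain ⟨w, rfl⟩ := hy
    refine ⟨(x : Module.End k V) w, ?_⟩
    have hcx : (c : Module.End k V) * (x : Module.End k V) =
        (x : Module.End k V) * (c : Module.End k V) := by
      rw [← Units.val_mul, ← Units.val_mul, ((hmemZ c).mp hcZ).2 x (hPQ hx)]
    rw [LinearMap.sub_apply, LinearMap.sub_apply, Module.End.one_apply, Module.End.one_apply,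
      map_sub, ← Module.End.mul_apply, ← Module.End.mul_apply, hcx]
  have hNC : ∀ U : Submodule k V, U ≤ Y → U ≠ ⊥ →
      (∀ x ∈ P, ∀ u ∈ U, (x : Module.End k V) u ∈ U) →
      ¬ ∀ x ∈ P, ∀ y ∈ P, ∀ u ∈ U,
        (x : Module.End k V) ((y : Module.End k V) u) =
          (y : Module.End k V) ((x : Module.End k V) u) := by
    intro U hUY hU0 hUinv hcomm
    apply hU0
    rw [eq_bot_iff]
    intro w hw
    rw [Submodule.mem_bot]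
    have hcw : (c : Module.End k V) w = w := by
      rw [hcdef, commutatorElement_def]
      simp only [Units.val_mul, Module.End.mul_apply]
      rw [hcomm u⁻¹ (P.inv_mem hu) v⁻¹ (P.inv_mem hv) w hw]
      rw [← Module.End.mul_apply, ← Module.End.mul_apply, ← Module.End.mul_apply,
        ← Units.val_mul, ← Units.val_mul, ← Units.val_mul]
      have e : u * v * v⁻¹ * u⁻¹ = 1 := by group
      rw [e, Units.val_one, Module.End.one_apply]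
    exact k1_fix_range (c : Module.End k V) (Nat.card Q) hmk
      (by rw [← Units.val_pow_eq_pow_val, hcm, Units.val_one]) w hcw
      (by rw [← hYdef]; exact hUY hw)
  obtain ⟨χ, θ, RP, W, hW, -⟩ := hSetup k M₀ q n hD V P φ hInv hcardP Y hY0 hYinv hNC
  have hPR := (hComp k M₀ q n hD V P φ hInv hcardP2 hCV χ θ RP W hW).1
  -- the radical `R`
  have hχ1 : χ 1 = 1 := hW.hχ.h1
  have hZZP : Q ⊓ Subgroup.centralizer (Q : Set (Module.End k V)ˣ) ≤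
      P ⊓ Subgroup.centralizer (P : Set (Module.End k V)ˣ) := by
    intro z hz
    have hz' := (k1_mem_Z Q z).mp hz
    refine (k1_mem_Z P z).mpr ⟨hZP ?_, fun w hw => hz'.2 w (hPQ hw)⟩
    rw [hZ]
    exact hz
  have hχmul : ∀ z ∈ Q ⊓ Subgroup.centralizer (Q : Set (Module.End k V)ˣ),
      ∀ z' ∈ Q ⊓ Subgroup.centralizer (Q : Set (Module.End k V)ˣ), χ (z * z') = χ z * χ z' :=
    fun z hz z' hz' => hW.hχ.hmul z (hZZP hz) z' (hZZP hz')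
  have hχpow : ∀ z ∈ Q ⊓ Subgroup.centralizer (Q : Set (Module.End k V)ˣ), ∀ i : ℕ,
      χ (z ^ i) = χ z ^ i := by
    intro z hz i
    induction i with
    | zero => rw [pow_zero, pow_zero, hχ1]
    | succ i ih => rw [pow_succ, pow_succ, hχmul _ (Subgroup.pow_mem _ hz i) _ hz, ih]
  obtain ⟨R, hRdef⟩ : ∃ R : Subgroup (Module.End k V)ˣ, R = k1R Q h1 χ hχ1 hχmul := ⟨_, rfl⟩
  have hmemR : ∀ x, x ∈ R ↔ x ∈ Q ∧ ∀ y ∈ Q, χ ⁅x, y⁆ = 1 := by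
    intro x
    rw [hRdef]
    exact Iff.rfl
  have hRQ : R ≤ Q := fun x hx => ((hmemR x).mp hx).1
  have hZR : ∀ z ∈ Q, (∀ w ∈ Q, z * w = w * z) → z ∈ R := by
    intro z hz hzc
    refine (hmemR z).mpr ⟨hz, fun y hy => ?_⟩
    rw [commutatorElement_eq_one_iff_mul_comm.mpr (hzc y hy), hχ1]
  have hZR' : Z ≤ R := fun z hz => hZR z (hZQ hz) ((hmemZ z).mp hz).2
  have hpow : ∀ x ∈ Q, ∀ y ∈ Q, χ ⁅x, y⁆ ^ q = 1 := by
    intro x hx y hy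
    rw [← hχpow _ (k1_comm_mem_Z Q h1 hx hy), ← k1_comm_pow_left Q h1 hx hy,
      commutatorElement_eq_one_iff_mul_comm.mpr (h2 x hx y hy), hχ1]
  -- the index of `R`
  obtain ⟨s, hs⟩ := gross_sq (fun x y => χ ⁅x, y⁆) q hq R (Nat.card Q) Q rfl inferInstance
    (fun x hx x' hx' y hy => by
      show χ ⁅x * x', y⁆ = χ ⁅x, y⁆ * χ ⁅x', y⁆
      rw [k1_comm_mul_left Q h1 hx hx' hy]
      exact hχmul _ (k1_comm_mem_Z Q h1 hx hy) _ (k1_comm_mem_Z Q h1 hx' hy))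
    (fun x hx y hy y' hy' => by
      show χ ⁅x, y * y'⁆ = χ ⁅x, y⁆ * χ ⁅x, y'⁆
      rw [k1_comm_mul_right Q h1 hx hy hy']
      exact hχmul _ (k1_comm_mem_Z Q h1 hx hy) _ (k1_comm_mem_Z Q h1 hx hy'))
    (fun x _ => by
      show χ ⁅x, x⁆ = 1
      rw [commutatorElement_self, hχ1])
    (fun x hx y hy => by
      show χ ⁅x, y⁆ * χ ⁅y, x⁆ = 1
      rw [← hχmul _ (k1_comm_mem_Z Q h1 hx hy) _ (k1_comm_mem_Z Q h1 hy hx),
        ← commutatorElement_inv x y, mul_inv_cancel, hχ1])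
    hpow hmemR
  obtain ⟨a, ha⟩ : ∃ a : ℕ, Nat.card Q = q ^ a := by
    haveI : Fact q.Prime := ⟨hq⟩
    exact IsPGroup.iff_card.mp hQ
  have hsd : s ∣ q ^ a := by
    rw [← ha, hs]
    exact Dvd.dvd.mul_right (dvd_pow_self s (by norm_num)) _
  obtain ⟨j, -, hj⟩ := (Nat.dvd_prime_pow hq).mp hsd
  have hQR : Nat.card Q = q ^ (2 * j) * Nat.card R := by
    rw [hs, hj, ← pow_mul, mul_comm j 2]
  -- `R ⊓ P` is the radical of `P`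
  have hRP : R ⊓ P = RP := by
    ext x
    rw [Subgroup.mem_inf, hmemR, hW.hχ.hR]
    constructor
    · rintro ⟨⟨_, hx⟩, hxP⟩
      exact ⟨hxP, fun y hy => hx y (hPQ hy)⟩
    · rintro ⟨hxP, hx⟩
      refine ⟨⟨hPQ hxP, fun y hy => ?_⟩, hxP⟩
      have e := k1_rad Q ψ h1 hψQ hψ2 (by rw [← hZ]; exact hψZ) hodd (hPQ hxP)
        (by rw [← hZ]; exact hPinv x hxP) hy
      have hd : (ψ * y * ψ⁻¹)⁻¹ * y ∈ P := by
        apply hDP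
        have e' : (ψ * y * ψ⁻¹)⁻¹ * y = (y⁻¹ * (ψ * y * ψ⁻¹))⁻¹ := by group
        rw [e']
        exact D.inv_mem (hδD y hy)
      have h5 := hx _ hd
      rw [← e, hχpow _ (k1_comm_mem_Z Q h1 (hPQ hxP) hy)] at h5
      exact k1_field_odd hq hq2 h5 (hpow x (hPQ hxP) y hy)
  -- `R` is normalised by `Q`
  have hRn : ∀ g ∈ Q, ∀ x ∈ R, g * x * g⁻¹ ∈ R := by
    intro g hg x hx
    have e : g * x * g⁻¹ = ⁅g, x⁆ * x := by
      rw [commutatorElement_def]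
      group
    rw [e]
    exact R.mul_mem (hZR _ (k1_comm_mem Q hg (hRQ hx)) (h1 g hg x (hRQ hx))) hx
  have hnorm : P ≤ Subgroup.normalizer (R : Set (Module.End k V)ˣ) := by
    intro g hg
    rw [Subgroup.mem_normalizer_iff]
    intro x
    constructor
    · intro hx
      exact hRn g (hPQ hg) x hx
    · intro hx
      have h := hRn g⁻¹ (Q.inv_mem (hPQ hg)) _ hx
      have e : g⁻¹ * (g * x * g⁻¹) * g⁻¹⁻¹ = x := by group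
      rw [e] at h
      exact h
  have hprod := k1_card_sup_mul_card_inf hnorm
  rw [inf_comm, hRP, hPR] at hprod
  have hRD : R ⊔ D = P ⊔ R := by
    apply le_antisymm
    · exact sup_le le_sup_right (hDP.trans le_sup_left)
    · rw [hPdef]
      exact sup_le (sup_le (hZR'.trans le_sup_left) le_sup_right) le_sup_left
  refine ⟨R, j, hRQ, hZR, ?_, hQR, ?_⟩
  · intro g hgQ hgZ x hx
    have hx' := (hmemR x).mp hx
    refine (hmemR _).mpr ⟨hgQ x hx'.1, fun y hy => ?_⟩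
    have hgQ' : ∀ x ∈ Q, g⁻¹ * x * g ∈ Q :=
      gross_inv_conj_mem Q (orderOf_pos g) (pow_orderOf_eq_one g) hgQ
    have hy0 : g⁻¹ * y * g ∈ Q := hgQ' y hy
    have hcz := k1_comm_mem_Z Q h1 hx'.1 hy0
    rw [← hZ] at hcz
    have e : ⁅g * x * g⁻¹, y⁆ = ⁅x, g⁻¹ * y * g⁆ := by
      calc ⁅g * x * g⁻¹, y⁆ = g * ⁅x, g⁻¹ * y * g⁆ * g⁻¹ := by
            simp only [commutatorElement_def]
            group
        _ = ⁅x, g⁻¹ * y * g⁆ := by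
            rw [hgZ _ (hZQ hcz) ((hmemZ _).mp hcz).2]
            group
    rw [e]
    exact hx'.2 _ hy0
  · rw [hRD]
    have hpos : 0 < Nat.card RP := Nat.card_pos
    apply Nat.eq_of_mul_eq_mul_right hpos
    rw [hprod]
    ring

end Cfsg.Agent.Lib.Helper49.Gross2K1
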