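import Mathlib

/-!
# S5981 (project of helper96), piece SPECCENTER
-/

set_option autoImplicit false

namespace Cfsg.Agent.Lib.Helper49.Oq

theorem spec_center (r : ℕ) (hr : r = 3 ∨ r = 5) (m : ℕ → ℕ)
    (hsum : ∑ j ∈ Finset.range r, m j = r) (c : ℕ) (hc : c < r)
    (hsym : ∀ j ∈ Finset.range r, m ((2 * c + r - j) % r) = m j) : 1 ≤ m c := by
  rcases hr with rfl | rfl
  · have h0 := hsym 0 (by simp)
    have h1 := hsym 1 (by simp)
    have h2 := hsym 2 (by simp)
    simp only [Finset.sum_range_succ, Finset.sum_range_zero] at hsum
    interval_cases c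
    · have e1 : m 2 = m 1 := by simpa using h1
      omega
    · have e0 : m 2 = m 0 := by simpa using h0
      omega
    · have e0 : m 1 = m 0 := by simpa using h0
      omega
  · have h0 := hsym 0 (by simp)
    have h1 := hsym 1 (by simp)
    have h2 := hsym 2 (by simp)
    have h3 := hsym 3 (by simp)
    have h4 := hsym 4 (by simp)
    simp only [Finset.sum_range_succ, Finset.sum_range_zero] at hsum
    interval_cases c
    · have e1 : m 4 = m 1 := by simpa using h1
      have e2 : m 3 = m 2 := by simpa using h2
      omega
    · have e0 : m 2 = m 0 := by simpa using h0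
      have e3 : m 4 = m 3 := by simpa using h3
      omega
    · have e0 : m 4 = m 0 := by simpa using h0
      have e1 : m 3 = m 1 := by simpa using h1
      omega
    · have e0 : m 1 = m 0 := by simpa using h0
      have e2 : m 4 = m 2 := by simpa using h2
      omega
    · have e0 : m 3 = m 0 := by simpa using h0
      have e1 : m 2 = m 1 := by simpa using h1
      omega

end Cfsg.Agent.Lib.Helper49.Oq
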