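import Mathlib
import Cfsg.Prelude.Def_GeometricClasses
import Cfsg.Prelude.Def_LieClassical

/-!
# Project SU6 (helper49): definitions for S5802 (maximal subgroups of `SU_6(q)`)

The two exceptional lemmas at `q = 2` (`|F| = 4`, form `Σ u_i v_i^2`):

* E1: the stabiliser of an orthonormal frame (`3^5 : S_6`) is not maximal: it preserves the set of
  126 root points `InR`, and so does a unitary transvection outside it.
* E2: the normaliser of a field subalgebra `K` of degree 3 (`|K| = 64`) lies in a symplectic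
  subfield group: it normalises the stabiliser `Lgrp` of the `F_8`-form `V0` spanned by a
  hyperbolic pair.
-/

set_option autoImplicit false

namespace Cfsg.Agent.Lib.Helper49.SU6

open Matrix Cfsg.Geo

variable {F : Type*} [Field F] [Fintype F]

/-! ## E1: the 126 roots -/

/-- Coefficient condition: support of size exactly 2, or product of all six coefficients equal to 1. -/
def RC (c : Fin 6 → F) : Prop :=
  (∃ i j : Fin 6, i ≠ j ∧ c i ≠ 0 ∧ c j ≠ 0 ∧ ∀ k, k ≠ i → k ≠ j → c k = 0) ∨ ∏ i, c i = 1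

/-- An orthonormal frame `d` adapted to the decomposition `D`. -/
structure OFrame (D : Fin 6 → Submodule F (Fin 6 → F)) (d : Fin 6 → Fin 6 → F) : Prop where
  span : ∀ i, D i = Submodule.span F {d i}
  orth : ∀ i j, Cfsg.hermForm 6 F 2 (d i) (d j) = if i = j then 1 else 0
  expand : ∀ x : Fin 6 → F, x = ∑ i, Cfsg.hermForm 6 F 2 x (d i) • d i

/-- `x` is a root vector relative to the frame `d`: its coefficient vector satisfies `RC`. -/
def InR (d : Fin 6 → Fin 6 → F) (x : Fin 6 → F) : Prop :=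
  RC (fun i => Cfsg.hermForm 6 F 2 x (d i))

/-! ## E2: the field of degree 3 at `q = 2` -/

/-- The relative trace polynomial of `F_64 / F_4`. -/
def tr3 (m : Matrix (Fin 6) (Fin 6) F) : Matrix (Fin 6) (Fin 6) F := m + m ^ 4 + m ^ 16

/-- The subfield of order 8 of `K`: the fixed points of the 8-th power map. -/
def K0 (K : Subalgebra F (Matrix (Fin 6) (Fin 6) F)) : Set (Matrix (Fin 6) (Fin 6) F) :=
  {k | k ∈ K ∧ k ^ 8 = k}

/-- A hyperbolic pair `(u, v)` for the hermitian `K`-form: `u`, `v` are `K`-isotropic and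
`h (k u) v = Tr_{K/F} k`. -/
structure Frame (K : Subalgebra F (Matrix (Fin 6) (Fin 6) F)) (u v : Fin 6 → F) : Prop where
  iso_u : ∀ k ∈ K, Cfsg.hermForm 6 F 2 (k *ᵥ u) u = 0
  iso_v : ∀ k ∈ K, Cfsg.hermForm 6 F 2 (k *ᵥ v) v = 0
  pair : ∀ k ∈ K, Cfsg.hermForm 6 F 2 (k *ᵥ u) v • (1 : Matrix (Fin 6) (Fin 6) F) = tr3 k

/-- The `F_8`-form spanned by the hyperbolic pair. -/
def V0 (K : Subalgebra F (Matrix (Fin 6) (Fin 6) F)) (u v : Fin 6 → F) : Set (Fin 6 → F) :=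
  {x | ∃ a ∈ K0 K, ∃ b ∈ K0 K, x = a *ᵥ u + b *ᵥ v}

/-- The stabiliser of the `F_8`-form in `N(K) ∩ GU`. -/
def Lgrp (K : Subalgebra F (Matrix (Fin 6) (Fin 6) F)) (u v : Fin 6 → F) :
    Subgroup (GL (Fin 6) F) where
  carrier := {g | g ∈ Cfsg.GU 6 F 2 ∧ g ∈ subalgebraNormalizer K ∧
    ∀ x, x ∈ V0 K u v ↔ g.1 *ᵥ x ∈ V0 K u v}
  mul_mem' := by
    rintro a b ⟨ha1, ha2, ha3⟩ ⟨hb1, hb2, hb3⟩
    refine ⟨mul_mem ha1 hb1, mul_mem ha2 hb2, fun x => ?_⟩
    rw [hb3 x, ha3 (b.1 *ᵥ x), Units.val_mul, Matrix.mulVec_mulVec]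
  one_mem' := ⟨one_mem _, one_mem _, fun x => by simp⟩
  inv_mem' := by
    rintro a ⟨ha1, ha2, ha3⟩
    refine ⟨inv_mem ha1, inv_mem ha2, fun x => ?_⟩
    rw [ha3 ((a⁻¹ : GL (Fin 6) F).1 *ᵥ x), Matrix.mulVec_mulVec, ← Units.val_mul,
      mul_inv_cancel, Units.val_one, Matrix.one_mulVec]

theorem mem_Lgrp (K : Subalgebra F (Matrix (Fin 6) (Fin 6) F)) (u v : Fin 6 → F)
    (g : GL (Fin 6) F) :
    g ∈ Lgrp K u v ↔ g ∈ Cfsg.GU 6 F 2 ∧ g ∈ subalgebraNormalizer K ∧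
      ∀ x, x ∈ V0 K u v ↔ g.1 *ᵥ x ∈ V0 K u v := Iff.rfl

end Cfsg.Agent.Lib.Helper49.SU6
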