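import Mathlib
import Cfsg.Prelude.Def_GeometricClasses
import Cfsg.Prelude.Def_LieClassical
import Cfsg.Agent.Lib.Helper49.SU6Defs
import Cfsg.Agent.Lib.Helper71.SUP0
import Cfsg.Agent.Lib.Helper10.SPPUNIQ

/-!
# S5802 project SU6 (helper49), piece KITA

PLACEHOLDER: replace every `sorry` in this file (keep the statements and the namespace exactly;
auxiliary lemmas with fresh names prefixed `su6kita_` are fine; you may add imports of
landed libraries).  Paper proof: see the job note.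
-/

set_option autoImplicit false

namespace Cfsg.Agent.Lib.Helper49.SU6

open Matrix Cfsg.Geo

variable {F : Type*} [Field F] [Fintype F]

/-- every element of `K` satisfies `k ^ 64 = k`. -/
theorem kit_pow64 (hF : Fintype.card F = 2 ^ 2) (K : Subalgebra F (Matrix (Fin 6) (Fin 6) F))
    (hK : IsFieldSubalgebra 3 K) : ∀ k ∈ K, k ^ 64 = k := by
  intro k hk
  have h := Cfsg.Agent.Lib.Helper10.SPPUNIQ.pow_card_of_mem (by norm_num : 1 ≤ 6) 3 K hK k hk
  have e : (2 ^ 2) ^ 3 = 64 := by norm_num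
  rw [hF, e] at h
  exact h

/-- characteristic 2. -/
theorem kit_two (hF : Fintype.card F = 2 ^ 2) : (2 : F) = 0 := by
  have hF4 : Fintype.card F = 4 := by rw [hF]; norm_num
  have hchar : ringChar F = 2 := by
    rw [FiniteField.even_card_iff_char_two, hF4]
  have h3 := (ringChar.spec F 2).2 (by rw [hchar])
  exact_mod_cast h3

/-- `c ^ 4 = c` in `F`. -/
theorem kit_F4 (hF : Fintype.card F = 2 ^ 2) : ∀ c : F, c ^ 4 = c := by
  intro c
  have h := FiniteField.pow_card c
  have e : 2 ^ 2 = 4 := by norm_num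
  rw [hF, e] at h
  exact h

/-- a primitive cube root of unity. -/
theorem kit_omega (hF : Fintype.card F = 2 ^ 2) : ∃ ω : F, ω ^ 2 + ω + 1 = 0 := by
  classical
  have hF4 : Fintype.card F = 4 := by rw [hF]; norm_num
  have hlt : ({0, 1} : Finset F).card < (Finset.univ : Finset F).card := by
    rw [Finset.card_univ, hF4]
    exact lt_of_le_of_lt Finset.card_le_two (by norm_num)
  obtain ⟨c, -, hc⟩ := Finset.exists_mem_notMem_of_card_lt_card hlt
  have hc0 : c ≠ 0 := fun h => hc (by simp [h])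
  have hc1 : c ≠ 1 := fun h => hc (by simp [h])
  have h3 : c ^ 3 = 1 := by
    have h := FiniteField.pow_card_sub_one_eq_one c hc0
    rwa [hF4] at h
  refine ⟨c, ?_⟩
  have h4 : (c - 1) * (c ^ 2 + c + 1) = 0 := by linear_combination h3
  rcases mul_eq_zero.1 h4 with h5 | h5
  · exact absurd (sub_eq_zero.1 h5) hc1
  · exact h5

/-- matrices double to zero. -/
theorem kit_add_self (hF : Fintype.card F = 2 ^ 2) (m : Matrix (Fin 6) (Fin 6) F) :
    m + m = 0 := by
  ext i j
  simp only [Matrix.add_apply, Matrix.zero_apply]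
  linear_combination (m i j) * kit_two hF

/-- the Frobenius is additive on commuting matrices. -/
theorem su6kita_add_pow (hF : Fintype.card F = 2 ^ 2) (a b : Matrix (Fin 6) (Fin 6) F)
    (hab : a * b = b * a) (j : ℕ) : (a + b) ^ (2 ^ j) = a ^ (2 ^ j) + b ^ (2 ^ j) := by
  induction j with
  | zero => simp
  | succ j ih =>
    have hc : a ^ 2 ^ j * b ^ 2 ^ j = b ^ 2 ^ j * a ^ 2 ^ j :=
      ((show Commute a b from hab).pow_pow _ _).eq
    have e : 2 ^ (j + 1) = 2 ^ j * 2 := pow_succ 2 j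
    rw [e, pow_mul, pow_mul, pow_mul, ih]
    have h0 := kit_add_self hF (b ^ 2 ^ j * a ^ 2 ^ j)
    calc (a ^ 2 ^ j + b ^ 2 ^ j) ^ 2
        = (a ^ 2 ^ j) ^ 2 + (b ^ 2 ^ j) ^ 2 + (b ^ 2 ^ j * a ^ 2 ^ j + b ^ 2 ^ j * a ^ 2 ^ j) := by
          rw [sq, sq, sq, add_mul, mul_add, mul_add, hc]
          abel
      _ = (a ^ 2 ^ j) ^ 2 + (b ^ 2 ^ j) ^ 2 := by rw [h0, add_zero]

/-- the Frobenius is additive on `K`. -/
theorem kit_add_pow (hF : Fintype.card F = 2 ^ 2) (K : Subalgebra F (Matrix (Fin 6) (Fin 6) F))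
    (hK : IsFieldSubalgebra 3 K) (j : ℕ) :
    ∀ a ∈ K, ∀ b ∈ K, (a + b) ^ (2 ^ j) = a ^ (2 ^ j) + b ^ (2 ^ j) := by
  intro a ha b hb
  exact su6kita_add_pow hF a b (hK.comm a ha b hb) j

/-- inverses in `K`. -/
theorem kit_inv (K : Subalgebra F (Matrix (Fin 6) (Fin 6) F)) (hK : IsFieldSubalgebra 3 K) :
    ∀ k ∈ K, k ≠ 0 → ∃ k' ∈ K, k * k' = 1 ∧ k' * k = 1 := by
  intro k hk hk0
  obtain ⟨k', hk', h1⟩ := hK.inv k hk hk0
  exact ⟨k', hk', h1, by rw [hK.comm k' hk' k hk]; exact h1⟩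

/-- the fixed points of the 4-th power map in `K` are the scalars. -/
theorem kit_fix4 (hF : Fintype.card F = 2 ^ 2) (K : Subalgebra F (Matrix (Fin 6) (Fin 6) F))
    (hK : IsFieldSubalgebra 3 K) : ∀ k ∈ K, k ^ 4 = k → ∃ c : F, k = c • 1 := by
  intro k hk h4
  obtain ⟨ω, hω⟩ := kit_omega hF
  have h2 := kit_two hF
  have hnz : ∀ a ∈ K, ∀ b ∈ K, a * b = 0 → a = 0 ∨ b = 0 := by
    intro a ha b hb hab
    by_cases ha0 : a = 0
    · exact Or.inl ha0
    · right
      obtain ⟨a', ha', h1, h1'⟩ := kit_inv K hK a ha ha0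
      calc b = (a' * a) * b := by rw [h1', one_mul]
        _ = a' * (a * b) := by rw [mul_assoc]
        _ = 0 := by rw [hab, mul_zero]
  have hP : (Polynomial.X * (Polynomial.X + 1) * (Polynomial.X + Polynomial.C ω) *
      (Polynomial.X + (Polynomial.C ω + 1)) : Polynomial F) = Polynomial.X ^ 4 + Polynomial.X := by
    have e2 : (2 : Polynomial F) = 0 := by
      have h5 : (Polynomial.C (1 + 1 : F)) = 0 := by rw [one_add_one_eq_two, h2, map_zero]
      rw [map_add, map_one] at h5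
      rw [← one_add_one_eq_two]
      exact h5
    have eω : (Polynomial.C ω : Polynomial F) ^ 2 + Polynomial.C ω + 1 = 0 := by
      have h6 : Polynomial.C (ω ^ 2 + ω + 1) = (0 : Polynomial F) := by rw [hω, map_zero]
      rw [map_add, map_add, map_pow, map_one] at h6
      exact h6
    linear_combination (Polynomial.X ^ 3 - Polynomial.X +
      Polynomial.C ω * Polynomial.X * (Polynomial.X ^ 2 + Polynomial.X)) * e2 +
      (Polynomial.X ^ 2 + Polynomial.X) * eω
  have hA := congrArg (Polynomial.aeval k) hP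
  simp only [map_mul, map_add, map_pow, Polynomial.aeval_X, Polynomial.aeval_C, map_one] at hA
  rw [h4, kit_add_self hF k] at hA
  have hω' : algebraMap F (Matrix (Fin 6) (Fin 6) F) ω ∈ K := K.algebraMap_mem ω
  have m1 : k + 1 ∈ K := K.add_mem hk K.one_mem
  have m2 : k + algebraMap F (Matrix (Fin 6) (Fin 6) F) ω ∈ K := K.add_mem hk hω'
  have m3 : k + (algebraMap F (Matrix (Fin 6) (Fin 6) F) ω + 1) ∈ K :=
    K.add_mem hk (K.add_mem hω' K.one_mem)
  rcases hnz _ (K.mul_mem (K.mul_mem hk m1) m2) _ m3 hA with h5 | h5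
  · rcases hnz _ (K.mul_mem hk m1) _ m2 h5 with h6 | h6
    · rcases hnz _ hk _ m1 h6 with h7 | h7
      · exact ⟨0, by rw [h7, zero_smul]⟩
      · exact ⟨-1, by rw [neg_smul, one_smul]; exact eq_neg_of_add_eq_zero_left h7⟩
    · exact ⟨-ω, by
        rw [neg_smul, ← Algebra.algebraMap_eq_smul_one]
        exact eq_neg_of_add_eq_zero_left h6⟩
  · exact ⟨-(ω + 1), by
      rw [neg_smul, add_smul, one_smul, ← Algebra.algebraMap_eq_smul_one]
      exact eq_neg_of_add_eq_zero_left h5⟩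

end Cfsg.Agent.Lib.Helper49.SU6
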