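import Mathlib
import Cfsg.Prelude.Def_GeometricClasses
import Cfsg.Prelude.Def_LieClassical
import Cfsg.Agent.Lib.Helper49.SU6Defs
import Cfsg.Agent.Lib.Helper71.SUP0
import Cfsg.Agent.Lib.Helper10.SPPUNIQ
import Cfsg.Agent.Lib.Helper49.SU6XKITA

/-!
# S5802 project SU6 (helper49), piece HSYM

Elementary properties of the standard hermitian form `Σ u_i v_i^2` over the field with four
elements (filled by helper9, job 4010).
-/

set_option autoImplicit false

namespace Cfsg.Agent.Lib.Helper49.SU6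

open Matrix Cfsg.Geo

variable {F : Type*} [Field F] [Fintype F]

theorem su6hsym_two (hF : Fintype.card F = 2 ^ 2) : (2 : F) = 0 := by
  have h := Nat.cast_card_eq_zero F
  rw [hF] at h
  have h4 : (2 : F) * 2 = 0 := by
    have h' : ((2 ^ 2 : ℕ) : F) = 2 * 2 := by norm_num
    rw [← h', h]
  exact mul_self_eq_zero.mp h4

theorem su6hsym_pow_four (hF : Fintype.card F = 2 ^ 2) (a : F) : a ^ 2 ^ 2 = a := by
  have h := FiniteField.pow_card a
  rwa [hF] at h

theorem su6hsym_sum_sq (h2 : (2 : F) = 0) {ι : Type*} (s : Finset ι) (f : ι → F) :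
    (∑ i ∈ s, f i) ^ 2 = ∑ i ∈ s, f i ^ 2 := by
  classical
  induction s using Finset.induction_on with
  | empty => simp
  | insert a s ha ih =>
    rw [Finset.sum_insert ha, Finset.sum_insert ha, add_sq, ih]
    linear_combination (f a * ∑ i ∈ s, f i) * h2

/-- hermitian symmetry of the standard form for `q = 2`. -/
theorem hsym (hF : Fintype.card F = 2 ^ 2) (x y : Fin 6 → F) :
    Cfsg.hermForm 6 F 2 x y = Cfsg.hermForm 6 F 2 y x ^ 2 := by
  have h2 := su6hsym_two hF
  unfold Cfsg.hermForm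
  rw [su6hsym_sum_sq h2]
  refine Finset.sum_congr rfl (fun i _ => ?_)
  rw [mul_pow, ← pow_mul, show 2 * 2 = 2 ^ 2 from rfl, su6hsym_pow_four hF, mul_comm]

/-- additivity in the first argument. -/
theorem hadd_left (x x' y : Fin 6 → F) :
    Cfsg.hermForm 6 F 2 (x + x') y = Cfsg.hermForm 6 F 2 x y + Cfsg.hermForm 6 F 2 x' y := by
  unfold Cfsg.hermForm
  rw [← Finset.sum_add_distrib]
  refine Finset.sum_congr rfl (fun i _ => ?_)
  rw [Pi.add_apply, add_mul]

/-- additivity in the second argument. -/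
theorem hadd_right (hF : Fintype.card F = 2 ^ 2) (x y y' : Fin 6 → F) :
    Cfsg.hermForm 6 F 2 x (y + y') = Cfsg.hermForm 6 F 2 x y + Cfsg.hermForm 6 F 2 x y' := by
  have h2 := su6hsym_two hF
  unfold Cfsg.hermForm
  rw [← Finset.sum_add_distrib]
  refine Finset.sum_congr rfl (fun i _ => ?_)
  rw [Pi.add_apply]
  linear_combination (x i * y i * y' i) * h2

/-- homogeneity in the first argument. -/
theorem hsmul_left (c : F) (x y : Fin 6 → F) :
    Cfsg.hermForm 6 F 2 (c • x) y = c * Cfsg.hermForm 6 F 2 x y := by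
  unfold Cfsg.hermForm
  rw [Finset.mul_sum]
  refine Finset.sum_congr rfl (fun i _ => ?_)
  rw [Pi.smul_apply, smul_eq_mul, mul_assoc]

/-- semi-homogeneity in the second argument. -/
theorem hsmul_right (c : F) (x y : Fin 6 → F) :
    Cfsg.hermForm 6 F 2 x (c • y) = c ^ 2 * Cfsg.hermForm 6 F 2 x y := by
  unfold Cfsg.hermForm
  rw [Finset.mul_sum]
  refine Finset.sum_congr rfl (fun i _ => ?_)
  rw [Pi.smul_apply, smul_eq_mul]
  ring

/-- the form is non-degenerate: every linear functional is `h (·, y)`. -/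
theorem hrep (hF : Fintype.card F = 2 ^ 2) (Λ : (Fin 6 → F) →ₗ[F] F) :
    ∃ y : Fin 6 → F, ∀ x, Λ x = Cfsg.hermForm 6 F 2 x y := by
  classical
  refine ⟨fun i => Λ (fun j => if i = j then 1 else 0) ^ 2, fun x => ?_⟩
  rw [LinearMap.pi_apply_eq_sum_univ Λ x]
  unfold Cfsg.hermForm
  refine Finset.sum_congr rfl (fun i _ => ?_)
  rw [← pow_mul, show 2 * 2 = 2 ^ 2 from rfl, su6hsym_pow_four hF, smul_eq_mul]

end Cfsg.Agent.Lib.Helper49.SU6
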