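import Mathlib
import Cfsg.Prelude.Def_GeometricClasses
import Cfsg.Prelude.Def_LieClassical
import Cfsg.Agent.Lib.Helper49.SU6Defs
import Cfsg.Agent.Lib.Helper71.SUP0
import Cfsg.Agent.Lib.Helper10.SPPUNIQ
import Cfsg.Agent.Lib.Helper49.SU6XKITA
import Cfsg.Agent.Lib.Helper49.SU6XHSYM

/-!
# S5802 project SU6 (helper49), piece ADJ8

PLACEHOLDER: replace every `sorry` in this file (keep the statements and the namespace exactly;
auxiliary lemmas with fresh names prefixed `su6adj8_` are fine; you may add imports of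
landed libraries).  Paper proof: see the job note.
-/

set_option autoImplicit false

namespace Cfsg.Agent.Lib.Helper49.SU6

open Matrix Cfsg.Geo

variable {F : Type*} [Field F] [Fintype F]

/-- the map `k ↦ (k*)^8` (adjoint followed by the 8-th power) -/
noncomputable def su6adj8_b (k : Matrix (Fin 6) (Fin 6) F) : Matrix (Fin 6) (Fin 6) F :=
  (Cfsg.Agent.Lib.Helper71.SUP.adj 2 k) ^ 8

theorem su6adj8_mem (hF : Fintype.card F = 2 ^ 2) (K : Subalgebra F (Matrix (Fin 6) (Fin 6) F))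
    (hadj : IsAdjointClosedFor (Cfsg.hermForm 6 F 2) K) :
    ∀ k ∈ K, Cfsg.Agent.Lib.Helper71.SUP.adj 2 k ∈ K := by
  intro k hk
  obtain ⟨k', hk', h⟩ := hadj k hk
  rw [← Cfsg.Agent.Lib.Helper71.SUP.adj_unique hF k k' h]
  exact hk'

theorem su6adj8_pow (hF : Fintype.card F = 2 ^ 2) (k : Matrix (Fin 6) (Fin 6) F) (n : ℕ) :
    Cfsg.Agent.Lib.Helper71.SUP.adj 2 (k ^ n) = (Cfsg.Agent.Lib.Helper71.SUP.adj 2 k) ^ n := by
  induction n with
  | zero => rw [pow_zero, pow_zero, Cfsg.Agent.Lib.Helper71.SUP.adj_one hF]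
  | succ n ih => rw [pow_succ, Cfsg.Agent.Lib.Helper71.SUP.adj_mul hF, ih, ← pow_succ']

theorem su6adj8_b_mem (hF : Fintype.card F = 2 ^ 2) (K : Subalgebra F (Matrix (Fin 6) (Fin 6) F))
    (hadj : IsAdjointClosedFor (Cfsg.hermForm 6 F 2) K) : ∀ k ∈ K, su6adj8_b k ∈ K :=
  fun k hk => pow_mem (su6adj8_mem hF K hadj k hk) 8

theorem su6adj8_b_add (hF : Fintype.card F = 2 ^ 2) (K : Subalgebra F (Matrix (Fin 6) (Fin 6) F))
    (hK : IsFieldSubalgebra 3 K) (hadj : IsAdjointClosedFor (Cfsg.hermForm 6 F 2) K) :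
    ∀ a ∈ K, ∀ b ∈ K, su6adj8_b (a + b) = su6adj8_b a + su6adj8_b b := by
  intro a ha b hb
  unfold su6adj8_b
  rw [Cfsg.Agent.Lib.Helper71.SUP.adj_add hF]
  have h := kit_add_pow hF K hK 3 _ (su6adj8_mem hF K hadj a ha) _ (su6adj8_mem hF K hadj b hb)
  have e : (2 : ℕ) ^ 3 = 8 := by norm_num
  rw [e] at h
  exact h

theorem su6adj8_b_mul (hF : Fintype.card F = 2 ^ 2) (K : Subalgebra F (Matrix (Fin 6) (Fin 6) F))
    (hK : IsFieldSubalgebra 3 K) (hadj : IsAdjointClosedFor (Cfsg.hermForm 6 F 2) K) :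
    ∀ a ∈ K, ∀ b ∈ K, su6adj8_b (a * b) = su6adj8_b a * su6adj8_b b := by
  intro a ha b hb
  unfold su6adj8_b
  have hc : Commute (Cfsg.Agent.Lib.Helper71.SUP.adj 2 b) (Cfsg.Agent.Lib.Helper71.SUP.adj 2 a) :=
    hK.comm _ (su6adj8_mem hF K hadj b hb) _ (su6adj8_mem hF K hadj a ha)
  rw [Cfsg.Agent.Lib.Helper71.SUP.adj_mul hF, hc.mul_pow]
  exact hK.comm _ (pow_mem (su6adj8_mem hF K hadj b hb) 8) _
    (pow_mem (su6adj8_mem hF K hadj a ha) 8)

theorem su6adj8_b_pow (hF : Fintype.card F = 2 ^ 2) (k : Matrix (Fin 6) (Fin 6) F) (n : ℕ) :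
    su6adj8_b (k ^ n) = (su6adj8_b k) ^ n := by
  unfold su6adj8_b
  rw [su6adj8_pow hF, ← pow_mul, ← pow_mul, mul_comm]

theorem su6adj8_b_smul_one (hF : Fintype.card F = 2 ^ 2) (c : F) :
    su6adj8_b (c • (1 : Matrix (Fin 6) (Fin 6) F)) = c • 1 := by
  unfold su6adj8_b
  rw [Cfsg.Agent.Lib.Helper71.SUP.adj_smul, Cfsg.Agent.Lib.Helper71.SUP.adj_one hF, smul_pow,
    one_pow]
  have h4 := kit_F4 hF c
  have h5 : (c ^ 2) ^ 8 = c := by
    calc (c ^ 2) ^ 8 = (c ^ 4) ^ 4 := by ring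
      _ = c := by rw [h4, h4]
  rw [h5]

theorem su6adj8_b_b (hF : Fintype.card F = 2 ^ 2) (K : Subalgebra F (Matrix (Fin 6) (Fin 6) F))
    (hK : IsFieldSubalgebra 3 K) : ∀ k ∈ K, su6adj8_b (su6adj8_b k) = k := by
  intro k hk
  unfold su6adj8_b
  rw [su6adj8_pow hF, Cfsg.Agent.Lib.Helper71.SUP.adj_adj hF, ← pow_mul]
  exact kit_pow64 hF K hK k hk

theorem su6adj8_tr_scalar (hF : Fintype.card F = 2 ^ 2)
    (K : Subalgebra F (Matrix (Fin 6) (Fin 6) F)) (hK : IsFieldSubalgebra 3 K) :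
    ∀ k ∈ K, ∃ c : F, tr3 k = c • 1 := by
  intro k hk
  apply kit_fix4 hF K hK
  · exact add_mem (add_mem hk (pow_mem hk 4)) (pow_mem hk 16)
  · unfold tr3
    have h1 := kit_add_pow hF K hK 2 (k + k ^ 4) (add_mem hk (pow_mem hk 4)) (k ^ 16)
      (pow_mem hk 16)
    have h2 := kit_add_pow hF K hK 2 k hk (k ^ 4) (pow_mem hk 4)
    have e : (2 : ℕ) ^ 2 = 4 := by norm_num
    rw [e] at h1 h2
    rw [h1, h2, ← pow_mul, ← pow_mul]
    have h64 : k ^ (16 * 4) = k := kit_pow64 hF K hK k hk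
    rw [h64]
    have e16 : k ^ (4 * 4) = k ^ 16 := rfl
    rw [e16]
    abel

theorem su6adj8_tr_add (hF : Fintype.card F = 2 ^ 2)
    (K : Subalgebra F (Matrix (Fin 6) (Fin 6) F)) (hK : IsFieldSubalgebra 3 K) :
    ∀ a ∈ K, ∀ b ∈ K, tr3 (a + b) = tr3 a + tr3 b := by
  intro a ha b hb
  unfold tr3
  have h1 := kit_add_pow hF K hK 2 a ha b hb
  have h2 := kit_add_pow hF K hK 4 a ha b hb
  have e2 : (2 : ℕ) ^ 2 = 4 := by norm_num
  have e4 : (2 : ℕ) ^ 4 = 16 := by norm_num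
  rw [e2] at h1
  rw [e4] at h2
  rw [h1, h2]
  abel

theorem su6adj8_tr_b (hF : Fintype.card F = 2 ^ 2) (K : Subalgebra F (Matrix (Fin 6) (Fin 6) F))
    (hK : IsFieldSubalgebra 3 K) (hadj : IsAdjointClosedFor (Cfsg.hermForm 6 F 2) K) :
    ∀ k ∈ K, tr3 (su6adj8_b k) = su6adj8_b (tr3 k) := by
  intro k hk
  unfold tr3
  rw [su6adj8_b_add hF K hK hadj _ (add_mem hk (pow_mem hk 4)) _ (pow_mem hk 16),
    su6adj8_b_add hF K hK hadj _ hk _ (pow_mem hk 4), su6adj8_b_pow hF, su6adj8_b_pow hF]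

theorem su6adj8_fix (hF : Fintype.card F = 2 ^ 2) (K : Subalgebra F (Matrix (Fin 6) (Fin 6) F))
    (hK : IsFieldSubalgebra 3 K) (hadj : IsAdjointClosedFor (Cfsg.hermForm 6 F 2) K) :
    ∀ k ∈ K, su6adj8_b k = k := by
  intro k hk
  have hbm := su6adj8_b_mem hF K hadj
  by_contra hne
  have hf0 : su6adj8_b k + k ≠ 0 := by
    intro h0
    apply hne
    have h2 := kit_add_self hF k
    calc su6adj8_b k = su6adj8_b k + (k + k) := by rw [h2, add_zero]
      _ = (su6adj8_b k + k) + k := by rw [add_assoc]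
      _ = k := by rw [h0, zero_add]
  have hfK : su6adj8_b k + k ∈ K := add_mem (hbm k hk) hk
  have hbf : su6adj8_b (su6adj8_b k + k) = su6adj8_b k + k := by
    rw [su6adj8_b_add hF K hK hadj _ (hbm k hk) _ hk, su6adj8_b_b hF K hK k hk, add_comm]
  obtain ⟨g, hgK, hfg, hgf⟩ := kit_inv K hK _ hfK hf0
  have hb1 : su6adj8_b (1 : Matrix (Fin 6) (Fin 6) F) = 1 := by
    have h := su6adj8_b_smul_one hF (1 : F)
    rwa [one_smul] at h
  have hbg : su6adj8_b g = g := by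
    have h1 : su6adj8_b (su6adj8_b k + k) * su6adj8_b g = 1 := by
      rw [← su6adj8_b_mul hF K hK hadj _ hfK _ hgK, hfg, hb1]
    rw [hbf] at h1
    calc su6adj8_b g = (g * (su6adj8_b k + k)) * su6adj8_b g := by rw [hgf, one_mul]
      _ = g * ((su6adj8_b k + k) * su6adj8_b g) := by rw [mul_assoc]
      _ = g := by rw [h1, mul_one]
  have hk'K : g * k ∈ K := mul_mem hgK hk
  have h1 : su6adj8_b (g * k) + g * k = 1 := by
    rw [su6adj8_b_mul hF K hK hadj _ hgK _ hk, hbg, ← mul_add, hgf]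
  have h2 : su6adj8_b (g * k) = 1 + g * k := by
    have h := kit_add_self hF (g * k)
    calc su6adj8_b (g * k) = su6adj8_b (g * k) + (g * k + g * k) := by rw [h, add_zero]
      _ = (su6adj8_b (g * k) + g * k) + g * k := by rw [add_assoc]
      _ = 1 + g * k := by rw [h1]
  obtain ⟨c, hc⟩ := su6adj8_tr_scalar hF K hK (g * k) hk'K
  have h3 : tr3 (su6adj8_b (g * k)) = tr3 (g * k) := by
    rw [su6adj8_tr_b hF K hK hadj _ hk'K, hc, su6adj8_b_smul_one hF]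
  rw [h2, su6adj8_tr_add hF K hK _ (one_mem K) _ hk'K] at h3
  have h4 : tr3 (1 : Matrix (Fin 6) (Fin 6) F) = 1 := by
    unfold tr3
    rw [one_pow, one_pow, kit_add_self hF, zero_add]
  rw [h4] at h3
  exact one_ne_zero (add_eq_right.mp h3)

/-- ADJ8: the adjoint of `k ∈ K` for the hermitian form is `k ^ 8`. -/
theorem adj8 (hF : Fintype.card F = 2 ^ 2) (K : Subalgebra F (Matrix (Fin 6) (Fin 6) F))
    (hK : IsFieldSubalgebra 3 K) (hadj : IsAdjointClosedFor (Cfsg.hermForm 6 F 2) K) :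
    ∀ k ∈ K, ∀ x y : Fin 6 → F,
      Cfsg.hermForm 6 F 2 (k *ᵥ x) y = Cfsg.hermForm 6 F 2 x ((k ^ 8) *ᵥ y) := by
  intro k hk x y
  have h1 := su6adj8_fix hF K hK hadj (Cfsg.Agent.Lib.Helper71.SUP.adj 2 k)
    (su6adj8_mem hF K hadj k hk)
  unfold su6adj8_b at h1
  rw [Cfsg.Agent.Lib.Helper71.SUP.adj_adj hF] at h1
  rw [h1, Cfsg.Agent.Lib.Helper71.SUP.hf_adj hF]

end Cfsg.Agent.Lib.Helper49.SU6
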