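import Mathlib
import Cfsg.Prelude.Def_GeometricClasses
import Cfsg.Prelude.Def_LieClassical
import Cfsg.Agent.Lib.Helper49.SU6Defs
import Cfsg.Agent.Lib.Helper71.SUP0
import Cfsg.Agent.Lib.Helper10.SPPUNIQ
import Cfsg.Agent.Lib.Helper49.SU6XKITA

/-!
# S5802 project SU6 (helper49), piece KITC

Filled by helper89 (job 4008): the relative trace `tr3 k = k + k ^ 4 + k ^ 16` on a field
subalgebra `K` of degree 3 over a field with 4 elements.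
-/

set_option autoImplicit false

namespace Cfsg.Agent.Lib.Helper49.SU6

open Matrix Cfsg.Geo

variable {F : Type*} [Field F] [Fintype F]

omit [Fintype F] in
theorem su6kitc_tr3_mem (K : Subalgebra F (Matrix (Fin 6) (Fin 6) F))
    (k : Matrix (Fin 6) (Fin 6) F) (hk : k ∈ K) : tr3 k ∈ K :=
  add_mem (add_mem hk (pow_mem hk 4)) (pow_mem hk 16)

theorem su6kitc_tr3_pow (hF : Fintype.card F = 2 ^ 2) (K : Subalgebra F (Matrix (Fin 6) (Fin 6) F))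
    (hK : IsFieldSubalgebra 3 K) (j : ℕ) (k : Matrix (Fin 6) (Fin 6) F) (hk : k ∈ K) :
    tr3 k ^ (2 ^ j) = k ^ (2 ^ j) + (k ^ 4) ^ (2 ^ j) + (k ^ 16) ^ (2 ^ j) := by
  have hk4 : k ^ 4 ∈ K := pow_mem hk 4
  have hk16 : k ^ 16 ∈ K := pow_mem hk 16
  have h1 := kit_add_pow hF K hK j (k + k ^ 4) (add_mem hk hk4) (k ^ 16) hk16
  have h2 := kit_add_pow hF K hK j k hk (k ^ 4) hk4
  unfold tr3
  rw [h1, h2]

/-- `tr3` is additive on `K`. -/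
theorem tr3_add (hF : Fintype.card F = 2 ^ 2) (K : Subalgebra F (Matrix (Fin 6) (Fin 6) F))
    (hK : IsFieldSubalgebra 3 K) : ∀ a ∈ K, ∀ b ∈ K, tr3 (a + b) = tr3 a + tr3 b := by
  intro a ha b hb
  have h4 : (a + b) ^ 4 = a ^ 4 + b ^ 4 := kit_add_pow hF K hK 2 a ha b hb
  have h16 : (a + b) ^ 16 = a ^ 16 + b ^ 16 := kit_add_pow hF K hK 4 a ha b hb
  unfold tr3
  rw [h4, h16]
  abel

/-- `tr3` is `F`-homogeneous. -/
theorem tr3_smul (hF : Fintype.card F = 2 ^ 2) (c : F) (m : Matrix (Fin 6) (Fin 6) F) :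
    tr3 (c • m) = c • tr3 m := by
  have hc4 : c ^ 4 = c := kit_F4 hF c
  have hc16 : c ^ 16 = c := by
    have h : c ^ 16 = (c ^ 4) ^ 4 := by rw [← pow_mul]
    rw [h, hc4, hc4]
  unfold tr3
  rw [smul_pow, smul_pow, hc4, hc16, smul_add, smul_add]

/-- `tr3` takes scalar values on `K`. -/
theorem tr3_scalar (hF : Fintype.card F = 2 ^ 2) (K : Subalgebra F (Matrix (Fin 6) (Fin 6) F))
    (hK : IsFieldSubalgebra 3 K) : ∀ k ∈ K, ∃ c : F, tr3 k = c • 1 := by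
  intro k hk
  apply kit_fix4 hF K hK (tr3 k) (su6kitc_tr3_mem K k hk)
  have h1 : tr3 k ^ 4 = k ^ 4 + (k ^ 4) ^ 4 + (k ^ 16) ^ 4 := su6kitc_tr3_pow hF K hK 2 k hk
  have h64 : k ^ 64 = k := kit_pow64 hF K hK k hk
  have e1 : (k ^ 4) ^ 4 = k ^ 16 := by rw [← pow_mul]
  have e2 : (k ^ 16) ^ 4 = k ^ 64 := by rw [← pow_mul]
  rw [h1, e1, e2, h64]
  unfold tr3
  abel

/-- `tr3 (k ^ 4) = tr3 k` on `K`. -/
theorem tr3_pow4 (hF : Fintype.card F = 2 ^ 2) (K : Subalgebra F (Matrix (Fin 6) (Fin 6) F))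
    (hK : IsFieldSubalgebra 3 K) : ∀ k ∈ K, tr3 (k ^ 4) = tr3 k := by
  intro k hk
  have h64 : k ^ 64 = k := kit_pow64 hF K hK k hk
  have e1 : (k ^ 4) ^ 4 = k ^ 16 := by rw [← pow_mul]
  have e2 : (k ^ 4) ^ 16 = k ^ 64 := by rw [← pow_mul]
  unfold tr3
  rw [e1, e2, h64]
  abel

/-- `tr3 (k ^ 8) = (tr3 k) ^ 2` on `K`. -/
theorem tr3_pow8 (hF : Fintype.card F = 2 ^ 2) (K : Subalgebra F (Matrix (Fin 6) (Fin 6) F))
    (hK : IsFieldSubalgebra 3 K) : ∀ k ∈ K, tr3 (k ^ 8) = tr3 k ^ 2 := by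
  intro k hk
  have h1 : tr3 k ^ 2 = k ^ 2 + (k ^ 4) ^ 2 + (k ^ 16) ^ 2 := su6kitc_tr3_pow hF K hK 1 k hk
  have h64 : k ^ 64 = k := kit_pow64 hF K hK k hk
  have e1 : (k ^ 4) ^ 2 = k ^ 8 := by rw [← pow_mul]
  have e2 : (k ^ 16) ^ 2 = k ^ 32 := by rw [← pow_mul]
  have e3 : (k ^ 8) ^ 4 = k ^ 32 := by rw [← pow_mul]
  have e4 : (k ^ 8) ^ 16 = k ^ 2 := by
    have h : (k ^ 8) ^ 16 = (k ^ 64) ^ 2 := by rw [← pow_mul, ← pow_mul]
    rw [h, h64]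
  rw [h1, e1, e2]
  unfold tr3
  rw [e3, e4]
  abel

/-- `tr3` takes values in `F_2` on `K0`. -/
theorem tr3_K0 (hF : Fintype.card F = 2 ^ 2) (K : Subalgebra F (Matrix (Fin 6) (Fin 6) F))
    (hK : IsFieldSubalgebra 3 K) : ∀ k ∈ K0 K, ∃ c : F, c ^ 2 = c ∧ tr3 k = c • 1 := by
  rintro k ⟨hk, hk8⟩
  obtain ⟨c, hc⟩ := tr3_scalar hF K hK k hk
  refine ⟨c, ?_, hc⟩
  have h := tr3_pow8 hF K hK k hk
  rw [hk8, hc, smul_pow, one_pow] at h
  have h00 := congrFun (congrFun h 0) 0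
  simp only [Matrix.smul_apply, Matrix.one_apply_eq, smul_eq_mul, mul_one] at h00
  exact h00.symm

/-- the trace form of `K` is non-degenerate. -/
theorem tr3_nondeg (hF : Fintype.card F = 2 ^ 2) (K : Subalgebra F (Matrix (Fin 6) (Fin 6) F))
    (hK : IsFieldSubalgebra 3 K) : ∀ w ∈ K, (∀ k ∈ K, tr3 (k * w) = 0) → w = 0 := by
  intro w hw h
  by_contra hne
  obtain ⟨k', hk', _, h2⟩ := kit_inv K hK w hw hne
  have h3 := h k' hk'
  rw [h2] at h3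
  unfold tr3 at h3
  rw [one_pow, one_pow, kit_add_self hF (1 : Matrix (Fin 6) (Fin 6) F), zero_add] at h3
  exact one_ne_zero h3

end Cfsg.Agent.Lib.Helper49.SU6
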