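import Mathlib
import Cfsg.Prelude.Def_GeometricClasses
import Cfsg.Prelude.Def_LieClassical
import Cfsg.Agent.Lib.Helper49.SU6Defs
import Cfsg.Agent.Lib.Helper71.SUP0
import Cfsg.Agent.Lib.Helper10.SPPUNIQ
import Cfsg.Agent.Lib.Helper49.SU6XKITA
import Cfsg.Agent.Lib.Helper49.SU6XKITC
import Cfsg.Agent.Lib.Helper49.SU6XHSYM
import Cfsg.Agent.Lib.Helper49.SU6XADJ8

/-!
# S5802 project SU6 (helper49), piece COORDU

Proved by helper33 (paper proof: job note 2327, section COORDU).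
-/

set_option autoImplicit false

namespace Cfsg.Agent.Lib.Helper49.SU6

open Matrix Cfsg.Geo

variable {F : Type*} [Field F] [Fintype F]

/-- COORDU: uniqueness of `K`-coordinates relative to a hyperbolic pair. -/
theorem coord_unique (hF : Fintype.card F = 2 ^ 2) (K : Subalgebra F (Matrix (Fin 6) (Fin 6) F))
    (hK : IsFieldSubalgebra 3 K) (hadj : IsAdjointClosedFor (Cfsg.hermForm 6 F 2) K)
    (u v : Fin 6 → F) (hf : Frame K u v) :
    ∀ a ∈ K, ∀ b ∈ K, a *ᵥ u + b *ᵥ v = 0 → a = 0 ∧ b = 0 := by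
  intro a ha b hb hab
  have h0 : ∀ y : Fin 6 → F, Cfsg.hermForm 6 F 2 (0 : Fin 6 → F) y = 0 := by
    intro y
    have := hsmul_left (0 : F) (0 : Fin 6 → F) y
    simpa using this
  have ha0 : a = 0 := by
    apply tr3_nondeg hF K hK a ha
    intro k hk
    rw [← hf.pair (k * a) (K.mul_mem hk ha)]
    have h1 : Cfsg.hermForm 6 F 2 (k *ᵥ (a *ᵥ u + b *ᵥ v)) v = 0 := by
      rw [hab, Matrix.mulVec_zero]
      exact h0 v
    rw [Matrix.mulVec_add, Matrix.mulVec_mulVec, Matrix.mulVec_mulVec, hadd_left,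
      hf.iso_v (k * b) (K.mul_mem hk hb), add_zero] at h1
    rw [h1, zero_smul]
  subst ha0
  have hbv : b *ᵥ v = 0 := by simpa using hab
  refine ⟨rfl, ?_⟩
  apply tr3_nondeg hF K hK b hb
  intro k hk
  have hm : k * b ∈ K := K.mul_mem hk hb
  have hm8 : (k * b) ^ 8 ∈ K := K.pow_mem hm 8
  have h1 : Cfsg.hermForm 6 F 2 ((k * b) *ᵥ v) u = 0 := by
    rw [← Matrix.mulVec_mulVec, hbv, Matrix.mulVec_zero]
    exact h0 u
  rw [hsym hF] at h1
  have h2 : Cfsg.hermForm 6 F 2 u ((k * b) *ᵥ v) = 0 :=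
    (pow_eq_zero_iff (by norm_num : (2 : ℕ) ≠ 0)).mp h1
  have e8 : ((k * b) ^ 8) ^ 8 = k * b := by
    rw [← pow_mul]
    exact kit_pow64 hF K hK _ hm
  have h3 : Cfsg.hermForm 6 F 2 (((k * b) ^ 8) *ᵥ u) v = 0 := by
    rw [adj8 hF K hK hadj _ hm8, e8]
    exact h2
  have h4 : tr3 ((k * b) ^ 8) = 0 := by
    rw [← hf.pair _ hm8, h3, zero_smul]
  rw [tr3_pow8 hF K hK _ hm] at h4
  obtain ⟨c, hc⟩ := tr3_scalar hF K hK _ hm
  rw [hc] at h4 ⊢
  have h5 : c ^ 2 = 0 := by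
    have := congrFun (congrFun h4 0) 0
    simpa [smul_pow] using this
  rw [pow_eq_zero_iff (by norm_num : (2 : ℕ) ≠ 0)] at h5
  rw [h5, zero_smul]

end Cfsg.Agent.Lib.Helper49.SU6
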