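import Mathlib
import Cfsg.Prelude.Def_GeometricClasses
import Cfsg.Prelude.Def_LieClassical
import Cfsg.Agent.Lib.Helper49.SU6Defs
import Cfsg.Agent.Lib.Helper71.SUP0
import Cfsg.Agent.Lib.Helper10.SPPUNIQ
import Cfsg.Agent.Lib.Helper49.SU6XKITA
import Cfsg.Agent.Lib.Helper49.SU6XKITC
import Cfsg.Agent.Lib.Helper49.SU6XCOORDU

/-!
# S5802 project SU6 (helper49), piece COORD (filled by helper75)

Every vector is `a u + b v` with `a, b ∈ K`: the coordinate map `K × K → V` is injective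
(`coord_unique`) between spaces of the same dimension 6.
-/

set_option autoImplicit false

namespace Cfsg.Agent.Lib.Helper49.SU6

open Matrix Cfsg.Geo

variable {F : Type*} [Field F] [Fintype F]

/-- COORD: existence of `K`-coordinates relative to a hyperbolic pair. -/
theorem coord_ex (hF : Fintype.card F = 2 ^ 2) (K : Subalgebra F (Matrix (Fin 6) (Fin 6) F))
    (hK : IsFieldSubalgebra 3 K) (hadj : IsAdjointClosedFor (Cfsg.hermForm 6 F 2) K)
    (u v : Fin 6 → F) (hf : Frame K u v) :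
    ∀ x : Fin 6 → F, ∃ a ∈ K, ∃ b ∈ K, x = a *ᵥ u + b *ᵥ v := by
  have huniq := coord_unique hF K hK hadj u v hf
  let φ : (↥K × ↥K) →ₗ[F] (Fin 6 → F) :=
    { toFun := fun p => (p.1 : Matrix (Fin 6) (Fin 6) F) *ᵥ u +
        (p.2 : Matrix (Fin 6) (Fin 6) F) *ᵥ v
      map_add' := by
        rintro ⟨a, b⟩ ⟨a', b'⟩
        simp only [Prod.mk_add_mk, Subalgebra.coe_add, Matrix.add_mulVec]
        abel
      map_smul' := by
        rintro c ⟨a, b⟩
        simp only [Prod.smul_mk, Subalgebra.coe_smul, Matrix.smul_mulVec, RingHom.id_apply,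
          smul_add] }
  have hφ : ∀ p : ↥K × ↥K, φ p = (p.1 : Matrix (Fin 6) (Fin 6) F) *ᵥ u +
      (p.2 : Matrix (Fin 6) (Fin 6) F) *ᵥ v := fun _ => rfl
  have hinj : Function.Injective φ := by
    rw [injective_iff_map_eq_zero]
    rintro ⟨a, b⟩ h
    rw [hφ] at h
    obtain ⟨ha, hb⟩ := huniq a.1 a.2 b.1 b.2 h
    exact Prod.ext (Subtype.ext ha) (Subtype.ext hb)
  have hfin : Module.finrank F (↥K × ↥K) = Module.finrank F (Fin 6 → F) := by
    rw [Module.finrank_prod, hK.finrank_eq, Module.finrank_fin_fun]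
  have hsurj : Function.Surjective φ :=
    (LinearMap.injective_iff_surjective_of_finrank_eq_finrank hfin).mp hinj
  intro x
  obtain ⟨⟨a, b⟩, hab⟩ := hsurj x
  exact ⟨a.1, a.2, b.1, b.2, hab.symm⟩

end Cfsg.Agent.Lib.Helper49.SU6
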