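import Mathlib
import Cfsg.Prelude.Def_GeometricClasses
import Cfsg.Prelude.Def_LieClassical
import Cfsg.Agent.Lib.Helper49.SU6Defs
import Cfsg.Agent.Lib.Helper71.SUP0
import Cfsg.Agent.Lib.Helper10.SPPUNIQ
import Cfsg.Agent.Lib.Helper49.SU6XKITA

/-!
# S5802 project SU6 (helper49), piece KITB

Filled by helper40 (job 4007).
-/

set_option autoImplicit false

namespace Cfsg.Agent.Lib.Helper49.SU6

open Matrix Cfsg.Geo

variable {F : Type*} [Field F] [Fintype F]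

/-- `K0` is closed under addition. -/
theorem k0_add (hF : Fintype.card F = 2 ^ 2) (K : Subalgebra F (Matrix (Fin 6) (Fin 6) F))
    (hK : IsFieldSubalgebra 3 K) : ∀ a ∈ K0 K, ∀ b ∈ K0 K, a + b ∈ K0 K := by
  intro a ha b hb
  have h8 : (2 : ℕ) ^ 3 = 8 := by norm_num
  have h := kit_add_pow hF K hK 3 a ha.1 b hb.1
  rw [h8] at h
  exact ⟨add_mem ha.1 hb.1, by rw [h, ha.2, hb.2]⟩

/-- `K0` is closed under multiplication. -/
theorem k0_mul (K : Subalgebra F (Matrix (Fin 6) (Fin 6) F))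
    (hK : IsFieldSubalgebra 3 K) : ∀ a ∈ K0 K, ∀ b ∈ K0 K, a * b ∈ K0 K := by
  intro a ha b hb
  have hc : Commute a b := hK.comm a ha.1 b hb.1
  exact ⟨mul_mem ha.1 hb.1, by rw [hc.mul_pow, ha.2, hb.2]⟩

theorem k0_zero (K : Subalgebra F (Matrix (Fin 6) (Fin 6) F)) : (0 : Matrix (Fin 6) (Fin 6) F) ∈ K0 K :=
  ⟨zero_mem K, zero_pow (n := 8) (by norm_num)⟩

theorem k0_one (K : Subalgebra F (Matrix (Fin 6) (Fin 6) F)) : (1 : Matrix (Fin 6) (Fin 6) F) ∈ K0 K :=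
  ⟨one_mem K, one_pow 8⟩

/-- inverses in `K0`. -/
theorem k0_inv (K : Subalgebra F (Matrix (Fin 6) (Fin 6) F)) (hK : IsFieldSubalgebra 3 K) :
    ∀ k ∈ K0 K, k ≠ 0 → ∃ k' ∈ K0 K, k * k' = 1 ∧ k' * k = 1 := by
  intro k hk hne
  obtain ⟨k', hk'K, h1, h2⟩ := kit_inv K hK k hk.1 hne
  have hc : Commute k' k := hK.comm k' hk'K k hk.1
  have h3 : k' ^ 8 * k ^ 8 = 1 := by rw [← hc.mul_pow, h2, one_pow]
  rw [hk.2] at h3
  refine ⟨k', ⟨hk'K, ?_⟩, h1, h2⟩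
  calc k' ^ 8 = k' ^ 8 * (k * k') := by rw [h1, mul_one]
    _ = (k' ^ 8 * k) * k' := by rw [mul_assoc]
    _ = k' := by rw [h3, one_mul]

theorem su6kitb_omega (hF : Fintype.card F = 2 ^ 2) (ω : F) (hω : ω ^ 2 + ω + 1 = 0) :
    ω ^ 2 + ω = 1 ∧ ω ^ 8 = ω ^ 2 ∧ ω ^ 16 = ω := by
  have h4 := kit_F4 hF ω
  have h2 := kit_two hF
  refine ⟨by linear_combination hω - h2, ?_, ?_⟩
  · calc ω ^ 8 = (ω ^ 4) ^ 2 := by ring
      _ = ω ^ 2 := by rw [h4]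
  · calc ω ^ 16 = (ω ^ 4) ^ 4 := by ring
      _ = ω := by rw [h4, h4]

/-- `K = K0 ⊕ ω K0`: existence. -/
theorem k0_decomp (hF : Fintype.card F = 2 ^ 2) (K : Subalgebra F (Matrix (Fin 6) (Fin 6) F))
    (hK : IsFieldSubalgebra 3 K) (ω : F) (hω : ω ^ 2 + ω + 1 = 0) :
    ∀ k ∈ K, ∃ a ∈ K0 K, ∃ b ∈ K0 K, k = a + ω • b := by
  intro k hk
  have h64 := kit_pow64 hF K hK k hk
  obtain ⟨hω1, hω8, hω16⟩ := su6kitb_omega hF ω hω
  have hk8 : k ^ 8 ∈ K := pow_mem hk 8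
  have h8 : (2 : ℕ) ^ 3 = 8 := by norm_num
  have e1 : (ω ^ 2 • k) ^ 8 = ω • k ^ 8 := by
    rw [smul_pow, ← pow_mul, show 2 * 8 = 16 from rfl, hω16]
  have e2 : (ω • k ^ 8) ^ 8 = ω ^ 2 • k := by
    rw [smul_pow, ← pow_mul, show 8 * 8 = 64 from rfl, h64, hω8]
  refine ⟨ω ^ 2 • k + ω • k ^ 8, ⟨add_mem (K.smul_mem hk _) (K.smul_mem hk8 _), ?_⟩,
    k + k ^ 8, ⟨add_mem hk hk8, ?_⟩, ?_⟩
  · have h := kit_add_pow hF K hK 3 (ω ^ 2 • k) (K.smul_mem hk _) (ω • k ^ 8) (K.smul_mem hk8 _)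
    rw [h8] at h
    rw [h, e1, e2, add_comm]
  · have h := kit_add_pow hF K hK 3 k hk (k ^ 8) hk8
    rw [h8] at h
    rw [h, ← pow_mul, show 8 * 8 = 64 from rfl, h64, add_comm]
  · symm
    calc ω ^ 2 • k + ω • k ^ 8 + ω • (k + k ^ 8)
        = (ω ^ 2 + ω) • k + (ω • k ^ 8 + ω • k ^ 8) := by
          rw [smul_add, add_smul]
          abel
      _ = k := by rw [kit_add_self hF (ω • k ^ 8), add_zero, hω1, one_smul]

/-- `K = K0 ⊕ ω K0`: uniqueness. -/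
theorem k0_decomp_unique (hF : Fintype.card F = 2 ^ 2)
    (K : Subalgebra F (Matrix (Fin 6) (Fin 6) F)) (hK : IsFieldSubalgebra 3 K) (ω : F)
    (hω : ω ^ 2 + ω + 1 = 0) :
    ∀ a ∈ K0 K, ∀ b ∈ K0 K, a + ω • b = 0 → a = 0 ∧ b = 0 := by
  intro a ha b hb h
  obtain ⟨hω1, hω8, hω16⟩ := su6kitb_omega hF ω hω
  have h8 : (2 : ℕ) ^ 3 = 8 := by norm_num
  have e := kit_add_pow hF K hK 3 a ha.1 (ω • b) (K.smul_mem hb.1 _)
  rw [h8, h, zero_pow (n := 8) (by norm_num), smul_pow, ha.2, hb.2, hω8] at e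
  have hb0 : b = 0 := by
    have h3 : (a + ω • b) + (a + ω ^ 2 • b) = b := by
      calc (a + ω • b) + (a + ω ^ 2 • b) = (a + a) + (ω ^ 2 + ω) • b := by
            rw [add_smul]
            abel
        _ = b := by rw [kit_add_self hF a, zero_add, hω1, one_smul]
    rw [← h3, h, ← e, add_zero]
  refine ⟨?_, hb0⟩
  rw [hb0, smul_zero, add_zero] at h
  exact h

/-- ninth powers lie in `K0`. -/
theorem k0_of_pow9 (hF : Fintype.card F = 2 ^ 2) (K : Subalgebra F (Matrix (Fin 6) (Fin 6) F))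
    (hK : IsFieldSubalgebra 3 K) : ∀ k ∈ K, k ^ 9 ∈ K0 K := by
  intro k hk
  refine ⟨pow_mem hk 9, ?_⟩
  rw [← pow_mul, show 9 * 8 = 64 + 8 from rfl, pow_add, kit_pow64 hF K hK k hk, ← pow_succ']

/-- a scalar in `K0` is `0` or `1`. -/
theorem k0_scalar (hF : Fintype.card F = 2 ^ 2) (K : Subalgebra F (Matrix (Fin 6) (Fin 6) F))
    (c : F) (hc : c • (1 : Matrix (Fin 6) (Fin 6) F) ∈ K0 K) : c ^ 2 = c := by
  have h := hc.2
  rw [smul_pow, one_pow] at h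
  have h1 := congrFun (congrFun h 0) 0
  rw [Matrix.smul_apply, Matrix.smul_apply, Matrix.one_apply_eq, smul_eq_mul, smul_eq_mul, mul_one,
    mul_one] at h1
  have h4 := kit_F4 hF c
  calc c ^ 2 = (c ^ 4) ^ 2 := by rw [h4]
    _ = c ^ 8 := by ring
    _ = c := h1

end Cfsg.Agent.Lib.Helper49.SU6
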