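import Mathlib
import Cfsg.Prelude.Def_GeometricClasses
import Cfsg.Prelude.Def_LieClassical
import Cfsg.Agent.Lib.Helper49.SU6Defs
import Cfsg.Agent.Lib.Helper71.SUP0
import Cfsg.Agent.Lib.Helper10.SPPUNIQ
import Cfsg.Agent.Lib.Helper49.SU6XCOORD
import Cfsg.Agent.Lib.Helper49.SU6XCOORDU

/-!
# S5802 project SU6 (helper49), piece EXMAP

PLACEHOLDER: replace every `sorry` in this file (keep the statements and the namespace exactly;
auxiliary lemmas with fresh names prefixed `su6exmap_` are fine; you may add imports of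
landed libraries).  Paper proof: see the job note.
-/

set_option autoImplicit false

namespace Cfsg.Agent.Lib.Helper49.SU6

open Matrix Cfsg.Geo

variable {F : Type*} [Field F] [Fintype F]

/-- EXMAP: every `F`-linear map in `K`-coordinates is given by a matrix. -/
theorem exmap (hF : Fintype.card F = 2 ^ 2) (K : Subalgebra F (Matrix (Fin 6) (Fin 6) F))
    (hK : IsFieldSubalgebra 3 K) (hadj : IsAdjointClosedFor (Cfsg.hermForm 6 F 2) K)
    (u v : Fin 6 → F) (hf : Frame K u v) (T : (↥K × ↥K) →ₗ[F] (↥K × ↥K)) :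
    ∃ m : Matrix (Fin 6) (Fin 6) F, ∀ p r : ↥K,
      m *ᵥ (p.1 *ᵥ u + r.1 *ᵥ v) = (T (p, r)).1.1 *ᵥ u + (T (p, r)).2.1 *ᵥ v := by
  classical
  let ψ : (↥K × ↥K) →ₗ[F] (Fin 6 → F) :=
    { toFun := fun q => q.1.1 *ᵥ u + q.2.1 *ᵥ v
      map_add' := by
        intro q q'
        show (q.1 + q'.1 : ↥K).1 *ᵥ u + (q.2 + q'.2 : ↥K).1 *ᵥ v =
          (q.1.1 *ᵥ u + q.2.1 *ᵥ v) + (q'.1.1 *ᵥ u + q'.2.1 *ᵥ v)
        rw [Subalgebra.coe_add, Subalgebra.coe_add, Matrix.add_mulVec, Matrix.add_mulVec]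
        abel
      map_smul' := by
        intro c q
        show (c • q.1 : ↥K).1 *ᵥ u + (c • q.2 : ↥K).1 *ᵥ v = c • (q.1.1 *ᵥ u + q.2.1 *ᵥ v)
        rw [Subalgebra.coe_smul, Subalgebra.coe_smul, Matrix.smul_mulVec, Matrix.smul_mulVec,
          smul_add] }
  have hψ : ∀ q : ↥K × ↥K, ψ q = q.1.1 *ᵥ u + q.2.1 *ᵥ v := fun q => rfl
  have hinj : Function.Injective ψ := by
    apply (injective_iff_map_eq_zero ψ).mpr
    intro q hq
    rw [hψ] at hq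
    obtain ⟨h1, h2⟩ := coord_unique hF K hK hadj u v hf q.1.1 q.1.2 q.2.1 q.2.2 hq
    exact Prod.ext (Subtype.ext h1) (Subtype.ext h2)
  have hsurj : Function.Surjective ψ := by
    intro x
    obtain ⟨a, ha, b, hb, hx⟩ := coord_ex hF K hK hadj u v hf x
    exact ⟨(⟨a, ha⟩, ⟨b, hb⟩), hx.symm⟩
  obtain ⟨φ, hφ⟩ : ∃ φ : (↥K × ↥K) ≃ₗ[F] (Fin 6 → F), ∀ q, φ q = ψ q :=
    ⟨LinearEquiv.ofBijective ψ ⟨hinj, hsurj⟩, fun q => rfl⟩
  refine ⟨LinearMap.toMatrix' (ψ ∘ₗ T ∘ₗ (φ.symm : (Fin 6 → F) →ₗ[F] (↥K × ↥K))), ?_⟩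
  intro p r
  have h1 : p.1 *ᵥ u + r.1 *ᵥ v = φ (p, r) := by rw [hφ, hψ]
  rw [h1, LinearMap.toMatrix'_mulVec, LinearMap.comp_apply, LinearMap.comp_apply,
    LinearEquiv.coe_coe, LinearEquiv.symm_apply_apply, hψ]

end Cfsg.Agent.Lib.Helper49.SU6
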