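import Mathlib
import Cfsg.Prelude.Def_GeometricClasses
import Cfsg.Prelude.Def_LieClassical
import Cfsg.Agent.Lib.Helper49.SU6Defs
import Cfsg.Agent.Lib.Helper71.SUP0
import Cfsg.Agent.Lib.Helper10.SPPUNIQ
import Cfsg.Agent.Lib.Helper49.SU6XKITA
import Cfsg.Agent.Lib.Helper49.SU6XKITB
import Cfsg.Agent.Lib.Helper49.SU6XKITC
import Cfsg.Agent.Lib.Helper49.SU6XCOORD
import Cfsg.Agent.Lib.Helper49.SU6XCOORDU
import Cfsg.Agent.Lib.Helper49.SU6XFORMULA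
import Cfsg.Agent.Lib.Helper49.SU6XEXMAP

/-!
# S5802 project SU6 (helper49), piece MEMGAL

Filled by helper65.
-/

set_option autoImplicit false

namespace Cfsg.Agent.Lib.Helper49.SU6

open Matrix Cfsg.Geo

variable {F : Type*} [Field F] [Fintype F]

/-- the fourth power map of `K` as an `F`-linear map -/
noncomputable def su6memgal_phi (hF : Fintype.card F = 2 ^ 2)
    (K : Subalgebra F (Matrix (Fin 6) (Fin 6) F)) (hK : IsFieldSubalgebra 3 K) : ↥K →ₗ[F] ↥K where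
  toFun k := ⟨k.1 ^ 4, K.pow_mem k.2 4⟩
  map_add' a b := by
    apply Subtype.ext
    have h := kit_add_pow hF K hK 2 a.1 a.2 b.1 b.2
    norm_num at h
    exact h
  map_smul' c k := by
    apply Subtype.ext
    show (c • k.1) ^ 4 = c • k.1 ^ 4
    rw [smul_pow, kit_F4 hF c]

theorem su6memgal_phi_apply (hF : Fintype.card F = 2 ^ 2)
    (K : Subalgebra F (Matrix (Fin 6) (Fin 6) F)) (hK : IsFieldSubalgebra 3 K) (k : ↥K) :
    (su6memgal_phi hF K hK k).1 = k.1 ^ 4 := rfl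

/-- MEMGAL: the Galois element `p u + r v ↦ p^4 u + r^4 v` lies in `Lgrp`. -/
theorem memgal (hF : Fintype.card F = 2 ^ 2) (K : Subalgebra F (Matrix (Fin 6) (Fin 6) F))
    (hK : IsFieldSubalgebra 3 K) (hadj : IsAdjointClosedFor (Cfsg.hermForm 6 F 2) K)
    (u v : Fin 6 → F) (hf : Frame K u v) :
    ∃ g ∈ Lgrp K u v, ∀ p ∈ K, ∀ r ∈ K,
      g.1 *ᵥ (p *ᵥ u + r *ᵥ v) = (p ^ 4) *ᵥ u + (r ^ 4) *ᵥ v := by
  have hco : ∀ x : Fin 6 → F, ∃ p ∈ K, ∃ r ∈ K, x = p *ᵥ u + r *ᵥ v :=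
    coord_ex hF K hK hadj u v hf
  obtain ⟨m, hm⟩ := exmap hF K hK hadj u v hf
    (LinearMap.prod ((su6memgal_phi hF K hK).comp (LinearMap.fst F ↥K ↥K))
      ((su6memgal_phi hF K hK).comp (LinearMap.snd F ↥K ↥K)))
  have hm2 : ∀ p ∈ K, ∀ r ∈ K, m *ᵥ (p *ᵥ u + r *ᵥ v) = (p ^ 4) *ᵥ u + (r ^ 4) *ᵥ v := by
    intro p hp r hr
    exact hm ⟨p, hp⟩ ⟨r, hr⟩
  have h64 : ∀ p ∈ K, ((p ^ 4) ^ 4) ^ 4 = p := by
    intro p hp
    rw [← pow_mul, ← pow_mul]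
    exact kit_pow64 hF K hK p hp
  have hm3 : m * m * m = 1 := by
    apply Matrix.mulVec_injective
    funext x
    obtain ⟨p, hp, r, hr, rfl⟩ := hco x
    rw [← Matrix.mulVec_mulVec, ← Matrix.mulVec_mulVec, hm2 p hp r hr,
      hm2 (p ^ 4) (K.pow_mem hp 4) (r ^ 4) (K.pow_mem hr 4),
      hm2 ((p ^ 4) ^ 4) (K.pow_mem (K.pow_mem hp 4) 4) ((r ^ 4) ^ 4)
        (K.pow_mem (K.pow_mem hr 4) 4),
      Matrix.one_mulVec, h64 p hp, h64 r hr]
  have hm3' : m * (m * m) = 1 := by rw [← mul_assoc]; exact hm3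
  have hGU : ∀ x y, Cfsg.hermForm 6 F 2 (m *ᵥ x) (m *ᵥ y) = Cfsg.hermForm 6 F 2 x y := by
    intro x y
    obtain ⟨p, hp, r, hr, rfl⟩ := hco x
    obtain ⟨c, hc, d, hd, rfl⟩ := hco y
    rw [hm2 p hp r hr, hm2 c hc d hd]
    have e1 := formula hF K hK hadj u v hf (p ^ 4) (K.pow_mem hp 4) (r ^ 4) (K.pow_mem hr 4)
      (c ^ 4) (K.pow_mem hc 4) (d ^ 4) (K.pow_mem hd 4)
    have e2 := formula hF K hK hadj u v hf p hp r hr c hc d hd
    have e3 : p ^ 4 * (d ^ 4) ^ 8 + r ^ 4 * (c ^ 4) ^ 8 = (p * d ^ 8 + r * c ^ 8) ^ 4 := by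
      have h4 := kit_add_pow hF K hK 2 (p * d ^ 8) (K.mul_mem hp (K.pow_mem hd 8))
        (r * c ^ 8) (K.mul_mem hr (K.pow_mem hc 8))
      norm_num at h4
      rw [h4, Commute.mul_pow (hK.comm p hp (d ^ 8) (K.pow_mem hd 8)) 4,
        Commute.mul_pow (hK.comm r hr (c ^ 8) (K.pow_mem hc 8)) 4,
        ← pow_mul, ← pow_mul, ← pow_mul, ← pow_mul]
    rw [e3, tr3_pow4 hF K hK _ (K.add_mem (K.mul_mem hp (K.pow_mem hd 8))
      (K.mul_mem hr (K.pow_mem hc 8)))] at e1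
    have e4 := e1.trans e2.symm
    have e5 := congrFun (congrFun e4 0) 0
    simpa using e5
  have hcomm : ∀ k ∈ K, m * k = k ^ 4 * m := by
    intro k hk
    apply Matrix.mulVec_injective
    funext x
    obtain ⟨p, hp, r, hr, rfl⟩ := hco x
    rw [← Matrix.mulVec_mulVec, ← Matrix.mulVec_mulVec, Matrix.mulVec_add, Matrix.mulVec_mulVec,
      Matrix.mulVec_mulVec, hm2 (k * p) (K.mul_mem hk hp) (k * r) (K.mul_mem hk hr),
      hm2 p hp r hr, Matrix.mulVec_add, Matrix.mulVec_mulVec, Matrix.mulVec_mulVec,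
      Commute.mul_pow (hK.comm k hk p hp) 4, Commute.mul_pow (hK.comm k hk r hr) 4]
  have hV : ∀ x, x ∈ V0 K u v → m *ᵥ x ∈ V0 K u v := by
    rintro x ⟨p, hp, r, hr, rfl⟩
    refine ⟨p ^ 4, ⟨K.pow_mem hp.1 4, ?_⟩, r ^ 4, ⟨K.pow_mem hr.1 4, ?_⟩, hm2 p hp.1 r hr.1⟩
    · rw [← pow_mul, show 4 * 8 = 8 * 4 from rfl, pow_mul, hp.2]
    · rw [← pow_mul, show 4 * 8 = 8 * 4 from rfl, pow_mul, hr.2]
  refine ⟨⟨m, m * m, hm3', hm3⟩, (mem_Lgrp K u v _).2 ⟨fun x y => hGU x y, ?_,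
    fun x => ⟨hV x, ?_⟩⟩, fun p hp r hr => hm2 p hp r hr⟩
  · intro k
    show k ∈ K ↔ m * k * (m * m) ∈ K
    constructor
    · intro hk
      rw [hcomm k hk, mul_assoc, hm3', mul_one]
      exact K.pow_mem hk 4
    · intro hk'
      -- k' := m k m m ∈ K and k = m m k' m = (k'^4)^4
      have h1 : m * m * (m * k * (m * m)) * m = k := by
        calc m * m * (m * k * (m * m)) * m = (m * m * m) * k * (m * m * m) := by
              simp only [mul_assoc]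
          _ = k := by rw [hm3, one_mul, mul_one]
      have h2 : m * m * (m * k * (m * m)) * m = ((m * k * (m * m)) ^ 4) ^ 4 := by
        rw [mul_assoc m m, hcomm _ hk', ← mul_assoc m, hcomm _ (K.pow_mem hk' 4), mul_assoc,
          mul_assoc, hm3', mul_one]
      rw [← h1, h2]
      exact K.pow_mem (K.pow_mem hk' 4) 4
  · intro h
    have h3 := hV _ (hV _ h)
    show x ∈ V0 K u v
    have h4 : m *ᵥ (m *ᵥ (m *ᵥ x)) = x := by
      rw [Matrix.mulVec_mulVec, Matrix.mulVec_mulVec, hm3, Matrix.one_mulVec]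
    have h5 : m *ᵥ (m *ᵥ ((⟨m, m * m, hm3', hm3⟩ : GL (Fin 6) F).1 *ᵥ x)) = x := h4
    rwa [h5] at h3

end Cfsg.Agent.Lib.Helper49.SU6
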