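import Mathlib
import Cfsg.Prelude.Def_GeometricClasses
import Cfsg.Prelude.Def_LieClassical
import Cfsg.Agent.Lib.Helper49.SU6Defs
import Cfsg.Agent.Lib.Helper71.SUP0
import Cfsg.Agent.Lib.Helper10.SPPUNIQ
import Cfsg.Agent.Lib.Helper49.SU6XKITA
import Cfsg.Agent.Lib.Helper49.SU6XKITC
import Cfsg.Agent.Lib.Helper49.SU6XHSYM
import Cfsg.Agent.Lib.Helper49.SU6XADJ8

/-!
# S5802 project SU6 (helper49), piece FORMULA

Filled by helper83: expansion by bi-additivity, `adj8` to move the `K`-coefficients to the left,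
the frame relations, and `tr3_pow8` for the mixed term.
-/

set_option autoImplicit false

namespace Cfsg.Agent.Lib.Helper49.SU6

open Matrix Cfsg.Geo

variable {F : Type*} [Field F] [Fintype F]

/-- FORMULA: the hermitian form in `K`-coordinates. -/
theorem formula (hF : Fintype.card F = 2 ^ 2) (K : Subalgebra F (Matrix (Fin 6) (Fin 6) F))
    (hK : IsFieldSubalgebra 3 K) (hadj : IsAdjointClosedFor (Cfsg.hermForm 6 F 2) K)
    (u v : Fin 6 → F) (hf : Frame K u v) :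
    ∀ a ∈ K, ∀ b ∈ K, ∀ c ∈ K, ∀ d ∈ K,
      Cfsg.hermForm 6 F 2 (a *ᵥ u + b *ᵥ v) (c *ᵥ u + d *ᵥ v) •
        (1 : Matrix (Fin 6) (Fin 6) F) = tr3 (a * d ^ 8 + b * c ^ 8) := by
  intro a ha b hb c hc d hd
  have h64 := kit_pow64 hF K hK
  have hA := adj8 hF K hK hadj
  have hmove : ∀ k ∈ K, ∀ m : Matrix (Fin 6) (Fin 6) F, ∀ x y : Fin 6 → F,
      Cfsg.hermForm 6 F 2 (m *ᵥ x) (k *ᵥ y) = Cfsg.hermForm 6 F 2 ((k ^ 8 * m) *ᵥ x) y := by
    intro k hk m x y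
    have h1 : (k ^ 8) ^ 8 = k := by
      rw [← pow_mul]
      exact h64 k hk
    rw [← Matrix.mulVec_mulVec, hA (k ^ 8) (pow_mem hk 8), h1]
  have hc8 : c ^ 8 ∈ K := pow_mem hc 8
  have hd8 : d ^ 8 ∈ K := pow_mem hd 8
  have hb8 : b ^ 8 ∈ K := pow_mem hb 8
  have t1 : Cfsg.hermForm 6 F 2 (a *ᵥ u) (c *ᵥ u) = 0 := by
    rw [hmove c hc a u u]
    exact hf.iso_u _ (mul_mem hc8 ha)
  have t4 : Cfsg.hermForm 6 F 2 (b *ᵥ v) (d *ᵥ v) = 0 := by
    rw [hmove d hd b v v]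
    exact hf.iso_v _ (mul_mem hd8 hb)
  have t2 : Cfsg.hermForm 6 F 2 (a *ᵥ u) (d *ᵥ v) • (1 : Matrix (Fin 6) (Fin 6) F) =
      tr3 (a * d ^ 8) := by
    rw [hmove d hd a u v, hf.pair _ (mul_mem hd8 ha), hK.comm _ hd8 _ ha]
  have t3 : Cfsg.hermForm 6 F 2 (b *ᵥ v) (c *ᵥ u) • (1 : Matrix (Fin 6) (Fin 6) F) =
      tr3 (b * c ^ 8) := by
    have h1 : (b ^ 8 * c) ^ 8 = b * c ^ 8 := by
      rw [(show Commute (b ^ 8) c from hK.comm _ hb8 _ hc).mul_pow, ← pow_mul]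
      rw [show b ^ (8 * 8) = b from h64 b hb]
    rw [hsym hF, hmove b hb c u v, ← h1, tr3_pow8 hF K hK _ (mul_mem hb8 hc),
      ← hf.pair _ (mul_mem hb8 hc), smul_pow, one_pow]
  rw [hadd_left, hadd_right hF, hadd_right hF, t1, t4, zero_add, add_zero, add_smul, t2, t3,
    ← tr3_add hF K hK _ (mul_mem ha hd8) _ (mul_mem hb hc8)]

end Cfsg.Agent.Lib.Helper49.SU6
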