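import Mathlib
import Cfsg.Prelude.Def_GeometricClasses
import Cfsg.Prelude.Def_LieClassical
import Cfsg.Agent.Lib.Helper49.SU6Defs
import Cfsg.Agent.Lib.Helper71.SUP0
import Cfsg.Agent.Lib.Helper10.SPPUNIQ
import Cfsg.Agent.Lib.Helper49.SU6XKITA
import Cfsg.Agent.Lib.Helper49.SU6XKITB
import Cfsg.Agent.Lib.Helper49.SU6XKITC
import Cfsg.Agent.Lib.Helper49.SU6XCOORD
import Cfsg.Agent.Lib.Helper49.SU6XCOORDU
import Cfsg.Agent.Lib.Helper49.SU6XFORMULA
import Cfsg.Agent.Lib.Helper49.SU6XEXMAP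

/-!
# S5802 project SU6 (helper49), piece MEMLIN

Filled by helper65.
-/

set_option autoImplicit false

namespace Cfsg.Agent.Lib.Helper49.SU6

open Matrix Cfsg.Geo

variable {F : Type*} [Field F] [Fintype F]

/-- MEMLIN: the `K`-linear elements `u ↦ u, v ↦ a u + v` (`a ∈ K0`) lie in `Lgrp`. -/
theorem memlin (hF : Fintype.card F = 2 ^ 2) (K : Subalgebra F (Matrix (Fin 6) (Fin 6) F))
    (hK : IsFieldSubalgebra 3 K) (hadj : IsAdjointClosedFor (Cfsg.hermForm 6 F 2) K)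
    (u v : Fin 6 → F) (hf : Frame K u v) :
    ∀ a ∈ K0 K, ∃ g ∈ Lgrp K u v, ∀ p ∈ K, ∀ r ∈ K,
      g.1 *ᵥ (p *ᵥ u + r *ᵥ v) = (p + a * r) *ᵥ u + r *ᵥ v := by
  intro a ha
  have haK : a ∈ K := ha.1
  have ha8 : a ^ 8 = a := ha.2
  have hco : ∀ x : Fin 6 → F, ∃ p ∈ K, ∃ r ∈ K, x = p *ᵥ u + r *ᵥ v :=
    coord_ex hF K hK hadj u v hf
  obtain ⟨m, hm⟩ := exmap hF K hK hadj u v hf
    (LinearMap.prod (LinearMap.fst F ↥K ↥K +
      (LinearMap.mulLeft F (⟨a, haK⟩ : ↥K)).comp (LinearMap.snd F ↥K ↥K))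
      (LinearMap.snd F ↥K ↥K))
  have hm2 : ∀ p ∈ K, ∀ r ∈ K, m *ᵥ (p *ᵥ u + r *ᵥ v) = (p + a * r) *ᵥ u + r *ᵥ v := by
    intro p hp r hr
    exact hm ⟨p, hp⟩ ⟨r, hr⟩
  have hmm : m * m = 1 := by
    apply Matrix.mulVec_injective
    funext x
    obtain ⟨p, hp, r, hr, rfl⟩ := hco x
    rw [← Matrix.mulVec_mulVec, hm2 p hp r hr, hm2 (p + a * r) (K.add_mem hp (K.mul_mem haK hr)) r hr,
      Matrix.one_mulVec, add_assoc p, kit_add_self hF (a * r), add_zero]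
  have hGU : ∀ x y, Cfsg.hermForm 6 F 2 (m *ᵥ x) (m *ᵥ y) = Cfsg.hermForm 6 F 2 x y := by
    intro x y
    obtain ⟨p, hp, r, hr, rfl⟩ := hco x
    obtain ⟨c, hc, d, hd, rfl⟩ := hco y
    rw [hm2 p hp r hr, hm2 c hc d hd]
    have e1 := formula hF K hK hadj u v hf (p + a * r) (K.add_mem hp (K.mul_mem haK hr)) r hr
      (c + a * d) (K.add_mem hc (K.mul_mem haK hd)) d hd
    have e2 := formula hF K hK hadj u v hf p hp r hr c hc d hd
    have e3 : (p + a * r) * d ^ 8 + r * (c + a * d) ^ 8 = p * d ^ 8 + r * c ^ 8 := by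
      have h8 := kit_add_pow hF K hK 3 c hc (a * d) (K.mul_mem haK hd)
      norm_num at h8
      have h9 : (a * d) ^ 8 = a ^ 8 * d ^ 8 := Commute.mul_pow (hK.comm a haK d hd) 8
      rw [h8, h9, ha8]
      have hra : r * a = a * r := hK.comm r hr a haK
      have h0 := kit_add_self hF (a * r * d ^ 8)
      calc (p + a * r) * d ^ 8 + r * (c ^ 8 + a * d ^ 8)
          = p * d ^ 8 + r * c ^ 8 + (a * r * d ^ 8 + a * r * d ^ 8) := by
            rw [add_mul, mul_add, ← mul_assoc r a, hra]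
            abel
        _ = p * d ^ 8 + r * c ^ 8 := by rw [h0, add_zero]
    rw [e3] at e1
    have e4 := e1.trans e2.symm
    have e5 := congrFun (congrFun e4 0) 0
    simpa using e5
  have hcomm : ∀ k ∈ K, m * k = k * m := by
    intro k hk
    apply Matrix.mulVec_injective
    funext x
    obtain ⟨p, hp, r, hr, rfl⟩ := hco x
    rw [← Matrix.mulVec_mulVec, ← Matrix.mulVec_mulVec, Matrix.mulVec_add, Matrix.mulVec_mulVec,
      Matrix.mulVec_mulVec, hm2 (k * p) (K.mul_mem hk hp) (k * r) (K.mul_mem hk hr),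
      hm2 p hp r hr, Matrix.mulVec_add, Matrix.mulVec_mulVec, Matrix.mulVec_mulVec]
    have e : k * p + a * (k * r) = k * (p + a * r) := by
      rw [mul_add, ← mul_assoc, ← mul_assoc, hK.comm a haK k hk]
    rw [e]
  have hV : ∀ x, x ∈ V0 K u v → m *ᵥ x ∈ V0 K u v := by
    rintro x ⟨p, hp, r, hr, rfl⟩
    exact ⟨p + a * r, k0_add hF K hK p hp (a * r) (k0_mul K hK a ha r hr), r, hr,
      hm2 p hp.1 r hr.1⟩
  refine ⟨⟨m, m, hmm, hmm⟩, (mem_Lgrp K u v _).2 ⟨fun x y => hGU x y, ?_, fun x => ⟨hV x, ?_⟩⟩,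
    fun p hp r hr => hm2 p hp r hr⟩
  · intro k
    show k ∈ K ↔ m * k * m ∈ K
    constructor
    · intro hk
      rw [hcomm k hk, mul_assoc, hmm, mul_one]
      exact hk
    · intro hk'
      have h1 : m * (m * k * m) * m = k := by
        calc m * (m * k * m) * m = (m * m) * k * (m * m) := by simp only [mul_assoc]
          _ = k := by rw [hmm, one_mul, mul_one]
      have h2 : m * (m * k * m) * m = m * k * m := by
        rw [hcomm _ hk', mul_assoc, hmm, mul_one]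
      rw [← h1, h2]
      exact hk'
  · intro h
    have h3 := hV _ h
    show x ∈ V0 K u v
    have h4 : m *ᵥ (m *ᵥ x) = x := by rw [Matrix.mulVec_mulVec, hmm, Matrix.one_mulVec]
    have h5 : m *ᵥ ((⟨m, m, hmm, hmm⟩ : GL (Fin 6) F).1 *ᵥ x) = x := h4
    rwa [h5] at h3

end Cfsg.Agent.Lib.Helper49.SU6
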