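import Mathlib
import Cfsg.Prelude.Def_GeometricClasses
import Cfsg.Prelude.Def_LieClassical
import Cfsg.Agent.Lib.Helper49.SU6Defs
import Cfsg.Agent.Lib.Helper71.SUP0
import Cfsg.Agent.Lib.Helper10.SPPUNIQ
import Cfsg.Agent.Lib.Helper49.SU6XKITA
import Cfsg.Agent.Lib.Helper49.SU6XKITB
import Cfsg.Agent.Lib.Helper49.SU6XCOORD
import Cfsg.Agent.Lib.Helper49.SU6XCOORDU
import Cfsg.Agent.Lib.Helper49.SU6XMEMLIN
import Cfsg.Agent.Lib.Helper49.SU6XMEMLIN2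
import Cfsg.Agent.Lib.Helper49.SU6XMEMGAL

/-!
# S5802 project SU6 (helper49), piece COMM (filled by helper97)

The commutant of `Lgrp` consists of scalars.
-/

set_option autoImplicit false

namespace Cfsg.Agent.Lib.Helper49.SU6

open Matrix Cfsg.Geo

variable {F : Type*} [Field F] [Fintype F]

/-- from `K0` to `K` for an `F`-linear identity. -/
theorem su6comm_ext (hF : Fintype.card F = 2 ^ 2) (K : Subalgebra F (Matrix (Fin 6) (Fin 6) F))
    (hK : IsFieldSubalgebra 3 K) (M α : Matrix (Fin 6) (Fin 6) F) (y : Fin 6 → F)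
    (h : ∀ a ∈ K0 K, M *ᵥ (a *ᵥ y) = (a * α) *ᵥ y) :
    ∀ k ∈ K, M *ᵥ (k *ᵥ y) = (k * α) *ᵥ y := by
  obtain ⟨ω, hω⟩ := kit_omega hF
  intro k hk
  obtain ⟨a, ha, b, hb, rfl⟩ := k0_decomp hF K hK ω hω k hk
  rw [Matrix.add_mulVec, Matrix.smul_mulVec, Matrix.mulVec_add, Matrix.mulVec_smul, h a ha,
    h b hb, Matrix.add_mul, Matrix.add_mulVec, Matrix.smul_mul, Matrix.smul_mulVec]

/-- COMM: the commutant of `Lgrp` consists of scalars. -/
theorem comm (hF : Fintype.card F = 2 ^ 2) (K : Subalgebra F (Matrix (Fin 6) (Fin 6) F))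
    (hK : IsFieldSubalgebra 3 K) (hadj : IsAdjointClosedFor (Cfsg.hermForm 6 F 2) K)
    (u v : Fin 6 → F) (hf : Frame K u v) :
    ∀ M : Matrix (Fin 6) (Fin 6) F, (∀ s ∈ matrixSet (Lgrp K u v), M * s = s * M) →
      ∃ c : F, M = c • (1 : Matrix (Fin 6) (Fin 6) F) := by
  intro M hM
  -- commutation on vectors
  have hcomm : ∀ g ∈ Lgrp K u v, ∀ y : Fin 6 → F, M *ᵥ (g.1 *ᵥ y) = g.1 *ᵥ (M *ᵥ y) := by
    intro g hg y
    rw [Matrix.mulVec_mulVec, Matrix.mulVec_mulVec, hM g.1 ⟨g, hg, rfl⟩]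
  have h1K : (1 : Matrix (Fin 6) (Fin 6) F) ∈ K := K.one_mem
  have h0K : (0 : Matrix (Fin 6) (Fin 6) F) ∈ K := K.zero_mem
  -- uniqueness of coordinates
  have huniq : ∀ a ∈ K, ∀ b ∈ K, ∀ c ∈ K, ∀ d ∈ K, a *ᵥ u + b *ᵥ v = c *ᵥ u + d *ᵥ v →
      a = c ∧ b = d := by
    intro a ha b hb c hc d hd h
    have h1 : (a - c) *ᵥ u + (b - d) *ᵥ v = 0 := by
      rw [Matrix.sub_mulVec, Matrix.sub_mulVec]
      have h2 : a *ᵥ u - c *ᵥ u + (b *ᵥ v - d *ᵥ v) =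
          (a *ᵥ u + b *ᵥ v) - (c *ᵥ u + d *ᵥ v) := by abel
      rw [h2, h, sub_self]
    obtain ⟨h3, h4⟩ := coord_unique hF K hK hadj u v hf (a - c) (K.sub_mem ha hc) (b - d)
      (K.sub_mem hb hd) h1
    exact ⟨sub_eq_zero.mp h3, sub_eq_zero.mp h4⟩
  obtain ⟨α, hα, β, hβ, hMu⟩ := coord_ex hF K hK hadj u v hf (M *ᵥ u)
  obtain ⟨γ, hγ, δ, hδ, hMv⟩ := coord_ex hF K hK hadj u v hf (M *ᵥ v)
  -- the element `g_1`
  obtain ⟨g1, hg1, hg1x⟩ := memlin hF K hK hadj u v hf 1 (k0_one K)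
  obtain ⟨g2, hg2, hg2x⟩ := memlin2 hF K hK hadj u v hf 1 (k0_one K)
  -- `g_1 v = u + v`
  have e1 : g1.1 *ᵥ v = u + v := by
    have h := hg1x 0 h0K 1 h1K
    rwa [Matrix.zero_mulVec, Matrix.one_mulVec, zero_add, zero_add, mul_one,
      Matrix.one_mulVec] at h
  have e2 : g2.1 *ᵥ u = u + v := by
    have h := hg2x 1 h1K 0 h0K
    rwa [Matrix.zero_mulVec, Matrix.one_mulVec, add_zero, zero_add, mul_one,
      Matrix.one_mulVec] at h
  -- `M (u + v)` in two ways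
  have hMuv : M *ᵥ (u + v) = (α + γ) *ᵥ u + (β + δ) *ᵥ v := by
    rw [Matrix.mulVec_add, hMu, hMv, Matrix.add_mulVec, Matrix.add_mulVec]
    abel
  have c1 := hcomm g1 hg1 v
  rw [e1, hMuv, hMv, hg1x γ hγ δ hδ, one_mul] at c1
  obtain ⟨c1a, c1b⟩ := huniq (α + γ) (K.add_mem hα hγ) (β + δ) (K.add_mem hβ hδ)
    (γ + δ) (K.add_mem hγ hδ) δ hδ c1
  have c2 := hcomm g2 hg2 u
  rw [e2, hMuv, hMu, hg2x α hα β hβ, one_mul] at c2
  obtain ⟨c2a, c2b⟩ := huniq (α + γ) (K.add_mem hα hγ) (β + δ) (K.add_mem hβ hδ)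
    α hα (β + α) (K.add_mem hβ hα) c2
  have hβ0 : β = 0 := by
    have : β + δ = 0 + δ := by rw [zero_add]; exact c1b
    exact add_right_cancel this
  have hγ0 : γ = 0 := by
    have : α + γ = α + 0 := by rw [add_zero]; exact c2a
    exact add_left_cancel this
  have hδα : δ = α := by
    have : β + δ = β + α := c2b
    exact add_left_cancel this
  have hMu' : M *ᵥ u = α *ᵥ u := by
    rw [hMu, hβ0, Matrix.zero_mulVec, add_zero]
  have hMv' : M *ᵥ v = α *ᵥ v := by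
    rw [hMv, hγ0, hδα, Matrix.zero_mulVec, zero_add]
  -- `M (a u) = (a α) u` for `a ∈ K0`
  have hMau : ∀ a ∈ K0 K, M *ᵥ (a *ᵥ u) = (a * α) *ᵥ u := by
    intro a ha
    obtain ⟨g, hg, hgx⟩ := memlin hF K hK hadj u v hf a ha
    have e : g.1 *ᵥ v = a *ᵥ u + v := by
      have h := hgx 0 h0K 1 h1K
      rwa [Matrix.zero_mulVec, Matrix.one_mulVec, zero_add, zero_add, mul_one] at h
    have c := hcomm g hg v
    rw [e, Matrix.mulVec_add, hMv'] at c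
    have e' : g.1 *ᵥ (α *ᵥ v) = (a * α) *ᵥ u + α *ᵥ v := by
      have h := hgx 0 h0K α hα
      rwa [Matrix.zero_mulVec, zero_add, zero_add] at h
    rw [e'] at c
    exact add_right_cancel c
  have hMav : ∀ a ∈ K0 K, M *ᵥ (a *ᵥ v) = (a * α) *ᵥ v := by
    intro a ha
    obtain ⟨g, hg, hgx⟩ := memlin2 hF K hK hadj u v hf a ha
    have e : g.1 *ᵥ u = u + a *ᵥ v := by
      have h := hgx 1 h1K 0 h0K
      rwa [Matrix.zero_mulVec, Matrix.one_mulVec, add_zero, zero_add, mul_one] at h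
    have c := hcomm g hg u
    rw [e, Matrix.mulVec_add, hMu'] at c
    have e' : g.1 *ᵥ (α *ᵥ u) = α *ᵥ u + (a * α) *ᵥ v := by
      have h := hgx α hα 0 h0K
      rwa [Matrix.zero_mulVec, add_zero, zero_add] at h
    rw [e'] at c
    exact add_left_cancel c
  have hMku := su6comm_ext hF K hK M α u hMau
  have hMkv := su6comm_ext hF K hK M α v hMav
  -- `M = α`
  have hMα : M = α := by
    apply Matrix.toLin'.injective
    apply LinearMap.ext
    intro x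
    rw [Matrix.toLin'_apply, Matrix.toLin'_apply]
    obtain ⟨p, hp, r, hr, rfl⟩ := coord_ex hF K hK hadj u v hf x
    rw [Matrix.mulVec_add, hMku p hp, hMkv r hr, Matrix.mulVec_add, Matrix.mulVec_mulVec,
      Matrix.mulVec_mulVec, hK.comm p hp α hα, hK.comm r hr α hα]
  -- the Galois element
  obtain ⟨g3, hg3, hg3x⟩ := memgal hF K hK hadj u v hf
  have e3 : g3.1 *ᵥ u = u := by
    have h := hg3x 1 h1K 0 h0K
    rwa [Matrix.zero_mulVec, Matrix.one_mulVec, add_zero, one_pow, Matrix.one_mulVec,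
      zero_pow (n := 4) (by norm_num), Matrix.zero_mulVec, add_zero] at h
  have c3 := hcomm g3 hg3 u
  rw [e3, hMu'] at c3
  have e3' : g3.1 *ᵥ (α *ᵥ u) = (α ^ 4) *ᵥ u := by
    have h := hg3x α hα 0 h0K
    rwa [Matrix.zero_mulVec, add_zero, zero_pow (n := 4) (by norm_num), Matrix.zero_mulVec,
      add_zero] at h
  rw [e3'] at c3
  have hα4 : α ^ 4 = α := by
    have h : α *ᵥ u + (0 : Matrix (Fin 6) (Fin 6) F) *ᵥ v = (α ^ 4) *ᵥ u +
        (0 : Matrix (Fin 6) (Fin 6) F) *ᵥ v := by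
      rw [c3]
    exact (huniq α hα 0 h0K (α ^ 4) (K.pow_mem hα 4) 0 h0K h).1.symm
  obtain ⟨c, hc⟩ := kit_fix4 hF K hK α hα hα4
  exact ⟨c, by rw [hMα, hc]⟩

end Cfsg.Agent.Lib.Helper49.SU6
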