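import Mathlib
import Cfsg.Prelude.Def_GeometricClasses
import Cfsg.Prelude.Def_LieClassical
import Cfsg.Agent.Lib.Helper49.SU6Defs
import Cfsg.Agent.Lib.Helper71.SUP0
import Cfsg.Agent.Lib.Helper10.SPPUNIQ

/-!
# S5802 project SU6 (helper49), piece F1

The subfield of order two of the field of order four, as the fixed field of the Frobenius map.
-/

set_option autoImplicit false

namespace Cfsg.Agent.Lib.Helper49.SU6

open Matrix Cfsg.Geo

variable {F : Type*} [Field F] [Fintype F]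

theorem su6f1_char (hF : Fintype.card F = 2 ^ 2) : CharP F 2 := by
  obtain ⟨p, hp⟩ := CharP.exists F
  haveI := hp
  obtain ⟨n, hprime, hn⟩ := FiniteField.card F p
  rw [hF] at hn
  have hdvd : p ∣ 2 ^ 2 := by
    rw [hn]
    exact dvd_pow_self p n.ne_zero
  have h2 : p ∣ 2 := hprime.dvd_of_dvd_pow hdvd
  have : p = 2 := (Nat.prime_dvd_prime_iff_eq hprime Nat.prime_two).1 h2
  rw [← this]
  exact hp

/-- the subfield fixed by the squaring map -/
def su6f1_sub (h2 : CharP F 2) : Subfield F where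
  carrier := {x | x ^ 2 = x}
  mul_mem' := by
    intro a b ha hb
    simp only [Set.mem_setOf_eq] at ha hb ⊢
    rw [mul_pow, ha, hb]
  one_mem' := by
    simp only [Set.mem_setOf_eq]
    exact one_pow 2
  add_mem' := by
    intro a b ha hb
    simp only [Set.mem_setOf_eq] at ha hb ⊢
    rw [CharTwo.add_sq, ha, hb]
  zero_mem' := by
    simp only [Set.mem_setOf_eq]
    exact zero_pow (by norm_num)
  neg_mem' := by
    intro a ha
    simp only [Set.mem_setOf_eq] at ha ⊢
    rw [neg_sq, ha, CharTwo.neg_eq]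
  inv_mem' := by
    intro a ha
    simp only [Set.mem_setOf_eq] at ha ⊢
    rw [inv_pow, ha]

theorem su6f1_mem (h2 : CharP F 2) (x : F) : x ∈ su6f1_sub h2 ↔ x ^ 2 = x := Iff.rfl

theorem su6f1_card (h2 : CharP F 2) : Nat.card (su6f1_sub h2) = 2 := by
  rw [Nat.card_eq_two_iff]
  refine ⟨⟨0, (su6f1_sub h2).zero_mem⟩, ⟨1, (su6f1_sub h2).one_mem⟩, ?_, ?_⟩
  · intro h
    have : (0 : F) = 1 := congrArg Subtype.val h
    exact zero_ne_one this
  · apply Set.eq_univ_of_forall
    rintro ⟨a, ha⟩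
    have ha' : a ^ 2 = a := (su6f1_mem h2 a).1 ha
    have h0 : a * (a - 1) = 0 := by
      rw [mul_sub, mul_one, ← pow_two, ha', sub_self]
    rcases mul_eq_zero.1 h0 with h | h
    · left
      exact Subtype.ext h
    · right
      exact Subtype.ext (sub_eq_zero.1 h)

/-- F1: the subfield of order 2. -/
theorem f1 (hF : Fintype.card F = 2 ^ 2) :
    ∃ (F₁ : Subfield F) (τ : F ≃+* F), Fintype.card F = Nat.card F₁ ^ 2 ∧
      (∀ x : F, x ∈ F₁ ↔ τ x = x) ∧ (∀ x : F, x ∈ F₁ ↔ x ^ 2 = x) := by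
  have h2 : CharP F 2 := su6f1_char hF
  haveI := h2
  refine ⟨su6f1_sub h2, frobeniusEquiv F 2, ?_, ?_, ?_⟩
  · rw [hF, su6f1_card h2]
  · intro x
    rw [su6f1_mem, frobeniusEquiv_def]
  · intro x
    exact su6f1_mem h2 x

end Cfsg.Agent.Lib.Helper49.SU6
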