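import Mathlib
import Cfsg.Prelude.Def_GeometricClasses
import Cfsg.Prelude.Def_LieClassical
import Cfsg.Agent.Lib.Helper49.SU6Defs
import Cfsg.Agent.Lib.Helper71.SUP0
import Cfsg.Agent.Lib.Helper10.SPPUNIQ
import Cfsg.Agent.Lib.Helper49.SU6XKITA
import Cfsg.Agent.Lib.Helper49.SU6XKITC
import Cfsg.Agent.Lib.Helper49.SU6XHSYM

/-!
# S5802 project SU6 (helper49), piece DUALV (filled by helper11)

A vector `y` with `h (k u) y = tr3 k`: extend the trace functional from `K u` to the whole space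
and represent it by the non-degenerate hermitian form.
-/

set_option autoImplicit false

namespace Cfsg.Agent.Lib.Helper49.SU6

open Matrix Cfsg.Geo

variable {F : Type*} [Field F] [Fintype F]

/-- DUALV: a vector pairing with `K u` as the trace. -/
theorem dualv (hF : Fintype.card F = 2 ^ 2) (K : Subalgebra F (Matrix (Fin 6) (Fin 6) F))
    (hK : IsFieldSubalgebra 3 K) (u : Fin 6 → F) (hu : u ≠ 0) :
    ∃ y : Fin 6 → F, ∀ k ∈ K,
      Cfsg.hermForm 6 F 2 (k *ᵥ u) y • (1 : Matrix (Fin 6) (Fin 6) F) = tr3 k := by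
  classical
  -- the trace as a linear functional on `K`
  let lam : K →ₗ[F] F :=
    { toFun := fun k => tr3 (k : Matrix (Fin 6) (Fin 6) F) 0 0
      map_add' := by
        intro a b
        show tr3 ((a : Matrix (Fin 6) (Fin 6) F) + (b : Matrix (Fin 6) (Fin 6) F)) 0 0 = _
        rw [tr3_add hF K hK a.1 a.2 b.1 b.2]
        rfl
      map_smul' := by
        intro c a
        show tr3 (c • (a : Matrix (Fin 6) (Fin 6) F)) 0 0 = _
        rw [tr3_smul hF]
        rfl }
  -- the orbit map `k ↦ k u`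
  let iota : K →ₗ[F] (Fin 6 → F) :=
    { toFun := fun k => (k : Matrix (Fin 6) (Fin 6) F) *ᵥ u
      map_add' := by
        intro a b
        show ((a : Matrix (Fin 6) (Fin 6) F) + (b : Matrix (Fin 6) (Fin 6) F)) *ᵥ u = _
        rw [Matrix.add_mulVec]
      map_smul' := by
        intro c a
        show (c • (a : Matrix (Fin 6) (Fin 6) F)) *ᵥ u = _
        rw [Matrix.smul_mulVec]
        rfl }
  have hinj : LinearMap.ker iota = ⊥ := by
    rw [LinearMap.ker_eq_bot']
    intro k hk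
    by_contra hk0
    have hk0' : (k : Matrix (Fin 6) (Fin 6) F) ≠ 0 := fun h => hk0 (Subtype.ext h)
    obtain ⟨k', -, -, hk'⟩ := kit_inv K hK k.1 k.2 hk0'
    have hk2 : (k : Matrix (Fin 6) (Fin 6) F) *ᵥ u = 0 := hk
    apply hu
    calc u = (1 : Matrix (Fin 6) (Fin 6) F) *ᵥ u := (Matrix.one_mulVec u).symm
      _ = (k' * (k : Matrix (Fin 6) (Fin 6) F)) *ᵥ u := by rw [hk']
      _ = k' *ᵥ ((k : Matrix (Fin 6) (Fin 6) F) *ᵥ u) := (Matrix.mulVec_mulVec u k' k.1).symm
      _ = 0 := by rw [hk2, Matrix.mulVec_zero]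
  obtain ⟨g, hg⟩ := LinearMap.exists_leftInverse_of_injective iota hinj
  obtain ⟨y, hy⟩ := hrep hF (lam.comp g)
  refine ⟨y, fun k hk => ?_⟩
  have h1 : (lam.comp g) (k *ᵥ u) = tr3 k 0 0 := by
    have h2 : g (iota ⟨k, hk⟩) = ⟨k, hk⟩ := by
      have h3 := congrArg (fun f : K →ₗ[F] K => f ⟨k, hk⟩) hg
      simpa using h3
    show lam (g (k *ᵥ u)) = tr3 k 0 0
    have h4 : k *ᵥ u = iota ⟨k, hk⟩ := rfl
    rw [h4, h2]
    rfl
  rw [← hy, h1]
  obtain ⟨c, hc⟩ := tr3_scalar hF K hK k hk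
  rw [hc]
  simp

end Cfsg.Agent.Lib.Helper49.SU6
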