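import Mathlib
import Cfsg.Prelude.Def_GeometricClasses
import Cfsg.Prelude.Def_LieClassical
import Cfsg.Agent.Lib.Helper49.SU6Defs
import Cfsg.Agent.Lib.Helper71.SUP0
import Cfsg.Agent.Lib.Helper10.SPPUNIQ
import Cfsg.Agent.Lib.Helper49.SU6XKITA
import Cfsg.Agent.Lib.Helper49.SU6XKITB
import Cfsg.Agent.Lib.Helper49.SU6XKITC
import Cfsg.Agent.Lib.Helper49.SU6XHSYM
import Cfsg.Agent.Lib.Helper49.SU6XADJ8
import Cfsg.Agent.Lib.Helper49.SU6XREPSELF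
import Cfsg.Agent.Lib.Helper49.SU6XDUALV

/-!
# S5802 project SU6 (helper49), piece HYP

Proved by helper36 (job 4017): `v = y + (ω • w) u` with `y` from DUALV and `w` from REPSELF.
-/

set_option autoImplicit false

namespace Cfsg.Agent.Lib.Helper49.SU6

open Matrix Cfsg.Geo

variable {F : Type*} [Field F] [Fintype F]

/-- HYP: an isotropic vector is part of a hyperbolic pair. -/
theorem hyp (hF : Fintype.card F = 2 ^ 2) (K : Subalgebra F (Matrix (Fin 6) (Fin 6) F))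
    (hK : IsFieldSubalgebra 3 K) (hadj : IsAdjointClosedFor (Cfsg.hermForm 6 F 2) K)
    (u : Fin 6 → F) (hu : u ≠ 0) (hiso : ∀ k ∈ K, Cfsg.hermForm 6 F 2 (k *ᵥ u) u = 0) :
    ∃ v : Fin 6 → F, Frame K u v := by
  obtain ⟨y, hy⟩ := dualv hF K hK u hu
  obtain ⟨w, hw0, hw⟩ := repself hF K hK hadj y
  obtain ⟨ω, hω⟩ := kit_omega hF
  have hwK : w ∈ K := hw0.1
  have hw8 : w ^ 8 = w := hw0.2
  obtain ⟨c, hcdef⟩ : ∃ c : Matrix (Fin 6) (Fin 6) F, c = ω • w := ⟨_, rfl⟩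
  have hcK : c ∈ K := hcdef ▸ K.smul_mem hwK ω
  have hc64 : c ^ (8 * 8) = c := by
    norm_num
    exact kit_pow64 hF K hK c hcK
  have hc8K : c ^ 8 ∈ K := K.pow_mem hcK 8
  have hc8 : c ^ 8 = ω ^ 2 • w := by
    rw [hcdef, smul_pow, hw8]
    congr 1
    have h4 := kit_F4 hF ω
    calc ω ^ 8 = (ω ^ 4) ^ 2 := by ring
      _ = ω ^ 2 := by rw [h4]
  -- `h (m u) (c u) = 0` for `m ∈ K`
  have hzero : ∀ m ∈ K, Cfsg.hermForm 6 F 2 (m *ᵥ u) (c *ᵥ u) = 0 := by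
    intro m hm
    have h1 := adj8 hF K hK hadj (c ^ 8) hc8K (m *ᵥ u) u
    rw [← pow_mul, hc64, Matrix.mulVec_mulVec] at h1
    rw [← h1]
    exact hiso _ (K.mul_mem hc8K hm)
  refine ⟨y + c *ᵥ u, ⟨hiso, ?_, ?_⟩⟩
  · intro k hk
    have hk8K : k ^ 8 ∈ K := K.pow_mem hk 8
    have hk64 : k ^ (8 * 8) = k := by
      norm_num
      exact kit_pow64 hF K hK k hk
    have hkcK : k * c ∈ K := K.mul_mem hk hcK
    have e0 : k *ᵥ (y + c *ᵥ u) = k *ᵥ y + (k * c) *ᵥ u := by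
      rw [Matrix.mulVec_add, Matrix.mulVec_mulVec]
    rw [e0, hadd_left, hadd_right hF, hadd_right hF, hzero (k * c) hkcK, add_zero]
    have t1 : Cfsg.hermForm 6 F 2 (k *ᵥ y) y • (1 : Matrix (Fin 6) (Fin 6) F) = tr3 (k * w) :=
      hw k hk
    have t3 : Cfsg.hermForm 6 F 2 ((k * c) *ᵥ u) y • (1 : Matrix (Fin 6) (Fin 6) F) =
        ω • tr3 (k * w) := by
      rw [hy (k * c) hkcK, hcdef, mul_smul_comm, tr3_smul hF]
    have t2 : Cfsg.hermForm 6 F 2 (k *ᵥ y) (c *ᵥ u) • (1 : Matrix (Fin 6) (Fin 6) F) =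
        ω ^ 2 • tr3 (k * w) := by
      have h1 := adj8 hF K hK hadj (k ^ 8) hk8K (c *ᵥ u) y
      rw [← pow_mul, hk64, Matrix.mulVec_mulVec] at h1
      have h2 := hy (k ^ 8 * c) (K.mul_mem hk8K hcK)
      rw [hsym hF, ← h1]
      have h3 : (Cfsg.hermForm 6 F 2 ((k ^ 8 * c) *ᵥ u) y) ^ 2 •
            (1 : Matrix (Fin 6) (Fin 6) F)
          = (Cfsg.hermForm 6 F 2 ((k ^ 8 * c) *ᵥ u) y •
            (1 : Matrix (Fin 6) (Fin 6) F)) ^ 2 := by
        rw [smul_pow, one_pow]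
      rw [h3, h2, ← tr3_pow8 hF K hK (k ^ 8 * c) (K.mul_mem hk8K hcK)]
      have hcomm : Commute (k ^ 8) c := hK.comm (k ^ 8) hk8K c hcK
      rw [hcomm.mul_pow, ← pow_mul, hk64, hc8, mul_smul_comm, tr3_smul hF]
    have hone : (1 : Matrix (Fin 6) (Fin 6) F) ≠ 0 := one_ne_zero
    have hsum : (Cfsg.hermForm 6 F 2 (k *ᵥ y) y + Cfsg.hermForm 6 F 2 (k *ᵥ y) (c *ᵥ u) +
        Cfsg.hermForm 6 F 2 ((k * c) *ᵥ u) y) • (1 : Matrix (Fin 6) (Fin 6) F) = 0 := by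
      rw [add_smul, add_smul, t1, t2, t3]
      have e : tr3 (k * w) + ω ^ 2 • tr3 (k * w) + ω • tr3 (k * w) =
          (ω ^ 2 + ω + 1) • tr3 (k * w) := by
        rw [add_smul, add_smul, one_smul]
        abel
      rw [e, hω, zero_smul]
    rcases smul_eq_zero.1 hsum with h | h
    · exact h
    · exact absurd h hone
  · intro k hk
    rw [hadd_right hF, hzero k hk, add_zero]
    exact hy k hk

end Cfsg.Agent.Lib.Helper49.SU6
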