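import Mathlib
import Cfsg.Prelude.Def_GeometricClasses
import Cfsg.Prelude.Def_LieClassical
import Cfsg.Agent.Lib.Helper49.SU6Defs
import Cfsg.Agent.Lib.Helper71.SUP0
import Cfsg.Agent.Lib.Helper10.SPPUNIQ
import Cfsg.Agent.Lib.Helper49.SU6XKITA
import Cfsg.Agent.Lib.Helper49.SU6XKITB

/-!
# S5802 project SU6 (helper49), piece NORM9

Proved by helper5: for `w` in `K0` (i.e. `w ^ 8 = w`) take `c = w ^ 4`; then
`c ^ 9 = w ^ 36 = (w ^ 8) ^ 4 * w ^ 4 = w ^ 8 = w`.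
-/

set_option autoImplicit false

namespace Cfsg.Agent.Lib.Helper49.SU6

open Matrix Cfsg.Geo

variable {F : Type*} [Field F] [Fintype F]

/-- NORM9: the norm `c ↦ c ^ 9` maps `K` onto `K0`. -/
theorem norm9 (hF : Fintype.card F = 2 ^ 2) (K : Subalgebra F (Matrix (Fin 6) (Fin 6) F))
    (hK : IsFieldSubalgebra 3 K) : ∀ w ∈ K0 K, ∃ c ∈ K, c ^ 9 = w := by
  intro w hw
  refine ⟨w ^ 4, K.pow_mem hw.1 4, ?_⟩
  have h8 : w ^ 8 = w := hw.2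
  calc (w ^ 4) ^ 9 = (w ^ 8) ^ 4 * w ^ 4 := by rw [← pow_mul, ← pow_mul, ← pow_add]
    _ = w ^ 4 * w ^ 4 := by rw [h8]
    _ = w ^ 8 := by rw [← pow_add]
    _ = w := h8

end Cfsg.Agent.Lib.Helper49.SU6
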