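import Mathlib
import Cfsg.Prelude.Def_GeometricClasses
import Cfsg.Prelude.Def_LieClassical
import Cfsg.Agent.Lib.Helper49.SU6Defs
import Cfsg.Agent.Lib.Helper71.SUP0
import Cfsg.Agent.Lib.Helper10.SPPUNIQ
import Cfsg.Agent.Lib.Helper49.SU6XKITA
import Cfsg.Agent.Lib.Helper49.SU6XHSYM

/-!
# S5802 project SU6 (helper49), piece PERP

PLACEHOLDER: replace every `sorry` in this file (keep the statements and the namespace exactly;
auxiliary lemmas with fresh names prefixed `su6perp_` are fine; you may add imports of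
landed libraries).  Paper proof: see the job note.
-/

set_option autoImplicit false

namespace Cfsg.Agent.Lib.Helper49.SU6

open Matrix Cfsg.Geo

variable {F : Type*} [Field F] [Fintype F]

/-- PERP: a non-zero vector orthogonal to `K x`. -/
theorem perp (hF : Fintype.card F = 2 ^ 2) (K : Subalgebra F (Matrix (Fin 6) (Fin 6) F))
    (hK : IsFieldSubalgebra 3 K) (x : Fin 6 → F) :
    ∃ y : Fin 6 → F, y ≠ 0 ∧ ∀ k ∈ K, Cfsg.hermForm 6 F 2 (k *ᵥ x) y = 0 := by
  classical
  haveI : Module.Finite F ↥K :=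
    Module.finite_of_finrank_pos (by rw [hK.finrank_eq]; norm_num)
  let B : ↥K →ₗ[F] (Fin 6 → F) →ₗ[F] F :=
    LinearMap.mk₂ F (fun k y' => ((k : Matrix (Fin 6) (Fin 6) F) *ᵥ x) ⬝ᵥ y')
      (by intro a b y'; simp [Matrix.add_mulVec, add_dotProduct])
      (by intro c a y'; simp [Matrix.smul_mulVec, smul_dotProduct])
      (by intro a y₁ y₂; simp [dotProduct_add])
      (by intro c a y'; simp [dotProduct_smul])
  have hlt : Module.finrank F (↥K →ₗ[F] F) < Module.finrank F (Fin 6 → F) := by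
    rw [Module.finrank_fin_fun]
    have h1 := Subspace.dual_finrank_eq (K := F) (V := ↥K)
    have h2 : Module.finrank F (↥K →ₗ[F] F) = Module.finrank F (Module.Dual F ↥K) := rfl
    rw [h2, h1, hK.finrank_eq]
    norm_num
  have hker := LinearMap.ker_ne_bot_of_finrank_lt (f := B.flip) hlt
  obtain ⟨y', hy'ker, hy'0⟩ := (Submodule.ne_bot_iff _).mp hker
  have hy' : ∀ k ∈ K, (k *ᵥ x) ⬝ᵥ y' = 0 := by
    intro k hk
    have h1 := LinearMap.mem_ker.mp hy'ker
    have h2 := congrArg (fun φ : ↥K →ₗ[F] F => φ ⟨k, hk⟩) h1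
    simpa [B] using h2
  have hc4 : ∀ c : F, c ^ 4 = c := by
    intro c
    have h1 := FiniteField.pow_card c
    rw [hF] at h1
    norm_num at h1
    exact h1
  refine ⟨fun i => (y' i) ^ 2, ?_, ?_⟩
  · intro h0
    apply hy'0
    funext i
    have h1 := congrFun h0 i
    simp only [Pi.zero_apply] at h1
    exact (pow_eq_zero_iff (by norm_num)).mp h1
  · intro k hk
    have h1 : Cfsg.hermForm 6 F 2 (k *ᵥ x) (fun i => (y' i) ^ 2) = (k *ᵥ x) ⬝ᵥ y' := by
      unfold Cfsg.hermForm dotProduct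
      apply Finset.sum_congr rfl
      intro i _
      have h3 : ((y' i) ^ 2) ^ 2 = y' i := by
        rw [← pow_mul]
        exact hc4 _
      show (k *ᵥ x) i * ((y' i) ^ 2) ^ 2 = (k *ᵥ x) i * y' i
      rw [h3]
    rw [h1, hy' k hk]

end Cfsg.Agent.Lib.Helper49.SU6
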