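import Mathlib
import Cfsg.Prelude.Def_GeometricClasses
import Cfsg.Prelude.Def_LieClassical
import Cfsg.Agent.Lib.Helper49.SU6Defs
import Cfsg.Agent.Lib.Helper71.SUP0
import Cfsg.Agent.Lib.Helper10.SPPUNIQ
import Cfsg.Agent.Lib.Helper49.SU6XKITA
import Cfsg.Agent.Lib.Helper49.SU6XKITC
import Cfsg.Agent.Lib.Helper49.SU6XHSYM

/-!
# S5802 project SU6 (helper49), piece REP

Proof by helper16 (dimension count with the trace form).
-/

set_option autoImplicit false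

namespace Cfsg.Agent.Lib.Helper49.SU6

open Matrix Cfsg.Geo

variable {F : Type*} [Field F] [Fintype F]

theorem su6rep_scal {c c' : F}
    (h : c • (1 : Matrix (Fin 6) (Fin 6) F) = c' • (1 : Matrix (Fin 6) (Fin 6) F)) : c = c' := by
  have h1 := congrFun (congrFun h 0) 0
  simpa using h1

theorem su6rep_scal0 {c : F} (h : (c • (1 : Matrix (Fin 6) (Fin 6) F)) 0 0 = 0) : c = 0 := by
  simpa using h

/-- REP: every functional `k ↦ h (k x) y` on `K` is `k ↦ Tr (k w)` for some `w ∈ K`. -/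
theorem rep (hF : Fintype.card F = 2 ^ 2) (K : Subalgebra F (Matrix (Fin 6) (Fin 6) F))
    (hK : IsFieldSubalgebra 3 K) : ∀ x y : Fin 6 → F, ∃ w ∈ K, ∀ k ∈ K,
      Cfsg.hermForm 6 F 2 (k *ᵥ x) y • (1 : Matrix (Fin 6) (Fin 6) F) = tr3 (k * w) := by
  intro x y
  classical
  let Ψ : K →ₗ[F] K →ₗ[F] F := LinearMap.mk₂ F (fun (w k : K) => (tr3 (k.1 * w.1)) 0 0)
    (by
      intro w w' k
      show tr3 (k.1 * (w.1 + w'.1)) 0 0 = tr3 (k.1 * w.1) 0 0 + tr3 (k.1 * w'.1) 0 0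
      rw [mul_add, tr3_add hF K hK _ (K.mul_mem k.2 w.2) _ (K.mul_mem k.2 w'.2)]
      rfl)
    (by
      intro c w k
      show tr3 (k.1 * (c • w.1)) 0 0 = c • tr3 (k.1 * w.1) 0 0
      rw [mul_smul_comm, tr3_smul hF]
      rfl)
    (by
      intro w k k'
      show tr3 ((k.1 + k'.1) * w.1) 0 0 = tr3 (k.1 * w.1) 0 0 + tr3 (k'.1 * w.1) 0 0
      rw [add_mul, tr3_add hF K hK _ (K.mul_mem k.2 w.2) _ (K.mul_mem k'.2 w.2)]
      rfl)
    (by
      intro c w k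
      show tr3 ((c • k.1) * w.1) 0 0 = c • tr3 (k.1 * w.1) 0 0
      rw [smul_mul_assoc, tr3_smul hF]
      rfl)
  have hΨ : ∀ (w k : K), Ψ w k = (tr3 (k.1 * w.1)) 0 0 := fun w k => rfl
  have hΨinj : Function.Injective Ψ := by
    rw [injective_iff_map_eq_zero]
    intro w hw
    have h1 : ∀ k ∈ K, tr3 (k * w.1) = 0 := by
      intro k hk
      obtain ⟨c, hc⟩ := tr3_scalar hF K hK (k * w.1) (K.mul_mem hk w.2)
      have h3 : tr3 (k * w.1) 0 0 = 0 := by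
        rw [← hΨ w ⟨k, hk⟩, hw]
        rfl
      rw [hc] at h3 ⊢
      rw [su6rep_scal0 h3, zero_smul]
    exact Subtype.ext (tr3_nondeg hF K hK w.1 w.2 h1)
  haveI : FiniteDimensional F K := Module.finite_of_finrank_pos (by rw [hK.finrank_eq]; norm_num)
  have hfin : Module.finrank F K = Module.finrank F (K →ₗ[F] F) :=
    (Subspace.dual_finrank_eq).symm
  have hΨsurj : Function.Surjective Ψ :=
    (LinearMap.injective_iff_surjective_of_finrank_eq_finrank hfin).mp hΨinj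
  let φ : K →ₗ[F] F :=
    { toFun := fun k => Cfsg.hermForm 6 F 2 (k.1 *ᵥ x) y
      map_add' := by
        intro k k'
        show Cfsg.hermForm 6 F 2 ((k.1 + k'.1) *ᵥ x) y =
          Cfsg.hermForm 6 F 2 (k.1 *ᵥ x) y + Cfsg.hermForm 6 F 2 (k'.1 *ᵥ x) y
        rw [Matrix.add_mulVec]
        unfold Cfsg.hermForm
        simp only [Pi.add_apply, add_mul, Finset.sum_add_distrib]
      map_smul' := by
        intro c k
        show Cfsg.hermForm 6 F 2 ((c • k.1) *ᵥ x) y = c • Cfsg.hermForm 6 F 2 (k.1 *ᵥ x) y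
        rw [Matrix.smul_mulVec]
        unfold Cfsg.hermForm
        simp only [Pi.smul_apply, smul_eq_mul, Finset.mul_sum, mul_assoc] }
  have hφ : ∀ k : K, φ k = Cfsg.hermForm 6 F 2 (k.1 *ᵥ x) y := fun k => rfl
  obtain ⟨w, hw⟩ := hΨsurj φ
  refine ⟨w.1, w.2, ?_⟩
  intro k hk
  obtain ⟨c, hc⟩ := tr3_scalar hF K hK (k * w.1) (K.mul_mem hk w.2)
  have h2 : tr3 (k * w.1) 0 0 = Cfsg.hermForm 6 F 2 (k *ᵥ x) y := by
    rw [← hΨ w ⟨k, hk⟩, hw, hφ]
  rw [hc] at h2 ⊢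
  have h3 : c = Cfsg.hermForm 6 F 2 (k *ᵥ x) y := by simpa using h2
  rw [h3]

end Cfsg.Agent.Lib.Helper49.SU6
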