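import Mathlib
import Cfsg.Prelude.Def_GeometricClasses
import Cfsg.Prelude.Def_LieClassical
import Cfsg.Agent.Lib.Helper49.SU6Defs
import Cfsg.Agent.Lib.Helper71.SUP0
import Cfsg.Agent.Lib.Helper10.SPPUNIQ
import Cfsg.Agent.Lib.Helper49.SU6XKITA
import Cfsg.Agent.Lib.Helper49.SU6XKITB
import Cfsg.Agent.Lib.Helper49.SU6XKITC
import Cfsg.Agent.Lib.Helper49.SU6XHSYM
import Cfsg.Agent.Lib.Helper49.SU6XADJ8
import Cfsg.Agent.Lib.Helper49.SU6XREP

/-!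
# S5802 project SU6 (helper49), piece REPSELF

Proved by helper60 (job 4013); paper proof: see the job note.
-/

set_option autoImplicit false

namespace Cfsg.Agent.Lib.Helper49.SU6

open Matrix Cfsg.Geo

variable {F : Type*} [Field F] [Fintype F]

/-- REPSELF: the representing element of `k ↦ h (k x) x` lies in `K0`. -/
theorem repself (hF : Fintype.card F = 2 ^ 2) (K : Subalgebra F (Matrix (Fin 6) (Fin 6) F))
    (hK : IsFieldSubalgebra 3 K) (hadj : IsAdjointClosedFor (Cfsg.hermForm 6 F 2) K) :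
    ∀ x : Fin 6 → F, ∃ w ∈ K0 K, ∀ k ∈ K,
      Cfsg.hermForm 6 F 2 (k *ᵥ x) x • (1 : Matrix (Fin 6) (Fin 6) F) = tr3 (k * w) := by
  intro x
  obtain ⟨w, hwK, hw⟩ := rep hF K hK x x
  refine ⟨w, ⟨hwK, ?_⟩, hw⟩
  have hw8K : w ^ 8 ∈ K := K.pow_mem hwK 8
  -- the key identity
  have key : ∀ k ∈ K, tr3 (k ^ 8 * (w + w ^ 8)) = 0 := by
    intro k hk
    have hk8 : k ^ 8 ∈ K := K.pow_mem hk 8
    have h1 : Cfsg.hermForm 6 F 2 ((k ^ 8) *ᵥ x) x = Cfsg.hermForm 6 F 2 (k *ᵥ x) x ^ 2 := by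
      rw [adj8 hF K hK hadj (k ^ 8) hk8 x x, ← pow_mul, kit_pow64 hF K hK k hk]
      exact hsym hF x (k *ᵥ x)
    have h2 : tr3 (k ^ 8 * w) = tr3 (k * w) ^ 2 := by
      rw [← hw (k ^ 8) hk8, ← hw k hk, h1, smul_pow, one_pow]
    have h3 : tr3 (k * w) ^ 2 = tr3 (k ^ 8 * w ^ 8) := by
      rw [← tr3_pow8 hF K hK (k * w) (K.mul_mem hk hwK), Commute.mul_pow (hK.comm k hk w hwK)]
    rw [mul_add, tr3_add hF K hK _ (K.mul_mem hk8 hwK) _ (K.mul_mem hk8 hw8K), h2, h3]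
    exact kit_add_self hF _
  have hall : ∀ m ∈ K, tr3 (m * (w + w ^ 8)) = 0 := by
    intro m hm
    have h1 := key (m ^ 8) (K.pow_mem hm 8)
    rwa [← pow_mul, kit_pow64 hF K hK m hm] at h1
  have h0 : w + w ^ 8 = 0 := tr3_nondeg hF K hK _ (K.add_mem hwK hw8K) hall
  have h1 : w + w = 0 := kit_add_self hF w
  have h2 : w ^ 8 = (w + w ^ 8) - w := by abel
  rw [h2, h0, zero_sub]
  exact neg_eq_of_add_eq_zero_left h1

end Cfsg.Agent.Lib.Helper49.SU6
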