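import Mathlib
import Cfsg.Prelude.Def_GeometricClasses
import Cfsg.Prelude.Def_LieClassical
import Cfsg.Agent.Lib.Helper49.SU6Defs
import Cfsg.Agent.Lib.Helper71.SUP0
import Cfsg.Agent.Lib.Helper10.SPPUNIQ
import Cfsg.Agent.Lib.Helper49.SU6XKITA
import Cfsg.Agent.Lib.Helper49.SU6XKITB
import Cfsg.Agent.Lib.Helper49.SU6XKITC
import Cfsg.Agent.Lib.Helper49.SU6XHSYM
import Cfsg.Agent.Lib.Helper49.SU6XNORM9
import Cfsg.Agent.Lib.Helper49.SU6XADJ8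
import Cfsg.Agent.Lib.Helper49.SU6XREPSELF
import Cfsg.Agent.Lib.Helper49.SU6XPERP

/-!
# S5802 project SU6 (helper49), piece ISO (filled by helper51)

A non-zero `K`-isotropic vector exists: start from `x = e₀`; if it is not isotropic take `y ≠ 0`
with `h (K x) y = 0`; if `y` is not isotropic either, `u = x + c y` with `c ^ 9 = w w'⁻¹` works.
-/

set_option autoImplicit false

namespace Cfsg.Agent.Lib.Helper49.SU6

open Matrix Cfsg.Geo

variable {F : Type*} [Field F] [Fintype F]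

omit [Fintype F] in
theorem su6iso_scalar_zero {c : F} (h : c • (1 : Matrix (Fin 6) (Fin 6) F) = 0) : c = 0 := by
  have h1 := congrFun (congrFun h 0) 0
  simpa using h1

theorem su6iso_pow88 (hF : Fintype.card F = 2 ^ 2) (K : Subalgebra F (Matrix (Fin 6) (Fin 6) F))
    (hK : IsFieldSubalgebra 3 K) (c : Matrix (Fin 6) (Fin 6) F) (hc : c ∈ K) :
    (c ^ 8) ^ 8 = c := by
  rw [← pow_mul]
  exact kit_pow64 hF K hK c hc

theorem su6iso_right_zero (z : Fin 6 → F) : Cfsg.hermForm 6 F 2 z 0 = 0 := by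
  have h := hsmul_right (0 : F) z (0 : Fin 6 → F)
  rw [zero_smul] at h
  rw [h]
  ring

omit [Fintype F] in
theorem su6iso_tr3_zero : tr3 (0 : Matrix (Fin 6) (Fin 6) F) = 0 := by
  unfold tr3
  simp

/-- the combination `x + c y` is isotropic. -/
theorem su6iso_core (hF : Fintype.card F = 2 ^ 2) (K : Subalgebra F (Matrix (Fin 6) (Fin 6) F))
    (hK : IsFieldSubalgebra 3 K) (hadj : IsAdjointClosedFor (Cfsg.hermForm 6 F 2) K)
    (x y : Fin 6 → F) (w w' w'' c : Matrix (Fin 6) (Fin 6) F) (hcK : c ∈ K)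
    (hx : ∀ k ∈ K, Cfsg.hermForm 6 F 2 (k *ᵥ x) x • (1 : Matrix (Fin 6) (Fin 6) F) = tr3 (k * w))
    (hperp : ∀ k ∈ K, Cfsg.hermForm 6 F 2 (k *ᵥ x) y = 0)
    (hy : ∀ k ∈ K, Cfsg.hermForm 6 F 2 (k *ᵥ y) y • (1 : Matrix (Fin 6) (Fin 6) F)
      = tr3 (k * w'))
    (hc : c ^ 9 = w * w'') (hw'' : w'' * w' = 1) :
    ∀ k ∈ K, Cfsg.hermForm 6 F 2 (k *ᵥ (x + c *ᵥ y)) (x + c *ᵥ y) = 0 := by
  intro k hk
  have hc8 : c ^ 8 ∈ K := pow_mem hcK 8
  have hkc : k * c ∈ K := mul_mem hk hcK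
  have e1 : Cfsg.hermForm 6 F 2 (k *ᵥ x) (c *ᵥ y) = 0 := by
    have a := adj8 hF K hK hadj (c ^ 8) hc8 (k *ᵥ x) y
    rw [su6iso_pow88 hF K hK c hcK, Matrix.mulVec_mulVec] at a
    rw [← a]
    exact hperp _ (mul_mem hc8 hk)
  have e2 : Cfsg.hermForm 6 F 2 ((k * c) *ᵥ y) x = 0 := by
    have a := adj8 hF K hK hadj ((k * c) ^ 8) (pow_mem hkc 8) x y
    rw [su6iso_pow88 hF K hK (k * c) hkc] at a
    rw [hsym hF, ← a, hperp _ (pow_mem hkc 8)]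
    ring
  have e3 : Cfsg.hermForm 6 F 2 ((k * c) *ᵥ y) (c *ᵥ y) • (1 : Matrix (Fin 6) (Fin 6) F)
      = tr3 (k * w) := by
    have a := adj8 hF K hK hadj (c ^ 8) hc8 ((k * c) *ᵥ y) y
    rw [su6iso_pow88 hF K hK c hcK, Matrix.mulVec_mulVec] at a
    rw [← a, hy _ (mul_mem hc8 hkc)]
    have h1 : c ^ 8 * (k * c) = k * c ^ 9 := by
      rw [hK.comm (c ^ 8) hc8 (k * c) hkc, mul_assoc, ← pow_succ']
    rw [h1, hc, mul_assoc, mul_assoc, hw'', mul_one]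
  rw [Matrix.mulVec_add, Matrix.mulVec_mulVec, hadd_left, hadd_right hF, hadd_right hF, e1, e2,
    add_zero, zero_add]
  apply su6iso_scalar_zero
  rw [add_smul, hx k hk, e3, kit_add_self hF]

/-- ISO: a non-zero `K`-isotropic vector exists. -/
theorem iso_exists (hF : Fintype.card F = 2 ^ 2) (K : Subalgebra F (Matrix (Fin 6) (Fin 6) F))
    (hK : IsFieldSubalgebra 3 K) (hadj : IsAdjointClosedFor (Cfsg.hermForm 6 F 2) K) :
    ∃ u : Fin 6 → F, u ≠ 0 ∧ ∀ k ∈ K, Cfsg.hermForm 6 F 2 (k *ᵥ u) u = 0 := by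
  classical
  have hx0 : (Pi.single 0 1 : Fin 6 → F) ≠ 0 := by
    intro h
    have h1 := congrFun h 0
    simp at h1
  obtain ⟨w, hw, hx⟩ := repself hF K hK hadj (Pi.single 0 1 : Fin 6 → F)
  by_cases hw0 : w = 0
  · refine ⟨Pi.single 0 1, hx0, fun k hk => ?_⟩
    apply su6iso_scalar_zero
    rw [hx k hk, hw0, mul_zero, su6iso_tr3_zero]
  obtain ⟨y, hy0, hperp⟩ := perp hF K hK (Pi.single 0 1 : Fin 6 → F)
  obtain ⟨w', hw', hy⟩ := repself hF K hK hadj y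
  by_cases hw'0 : w' = 0
  · refine ⟨y, hy0, fun k hk => ?_⟩
    apply su6iso_scalar_zero
    rw [hy k hk, hw'0, mul_zero, su6iso_tr3_zero]
  obtain ⟨w'', hw''K, -, hw''⟩ := k0_inv K hK w' hw' hw'0
  obtain ⟨c, hcK, hc⟩ := norm9 hF K hK (w * w'') (k0_mul K hK w hw w'' hw''K)
  refine ⟨Pi.single 0 1 + c *ᵥ y, ?_, su6iso_core hF K hK hadj _ y w w' w'' c hcK hx hperp hy hc hw''⟩
  intro hu
  apply hw0
  refine tr3_nondeg hF K hK w hw.1 (fun k hk => ?_)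
  rw [← hx k hk]
  have h1 := hadd_right hF (k *ᵥ (Pi.single 0 1 : Fin 6 → F)) (Pi.single 0 1) (c *ᵥ y)
  rw [hu, su6iso_right_zero] at h1
  have e1 : Cfsg.hermForm 6 F 2 (k *ᵥ (Pi.single 0 1 : Fin 6 → F)) (c *ᵥ y) = 0 := by
    have a := adj8 hF K hK hadj (c ^ 8) (pow_mem hcK 8) (k *ᵥ (Pi.single 0 1 : Fin 6 → F)) y
    rw [su6iso_pow88 hF K hK c hcK, Matrix.mulVec_mulVec] at a
    rw [← a]
    exact hperp _ (mul_mem (pow_mem hcK 8) hk)
  rw [e1, add_zero] at h1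
  rw [← h1, zero_smul]

end Cfsg.Agent.Lib.Helper49.SU6
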