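import Mathlib
import Cfsg.Prelude.Def_GeometricClasses
import Cfsg.Prelude.Def_LieClassical
import Cfsg.Agent.Lib.Helper49.SU6Defs
import Cfsg.Agent.Lib.Helper71.SUP0
import Cfsg.Agent.Lib.Helper10.SPPUNIQ
import Cfsg.Agent.Lib.Helper49.SU6XKITA
import Cfsg.Agent.Lib.Helper49.SU6XKITB
import Cfsg.Agent.Lib.Helper49.SU6XKITC
import Cfsg.Agent.Lib.Helper49.SU6XHSYM

/-!
# S5802 project SU6 (helper49), piece V0KIT

Filled by helper87 (job 4023).
-/

set_option autoImplicit false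

namespace Cfsg.Agent.Lib.Helper49.SU6

open Matrix Cfsg.Geo

variable {F : Type*} [Field F] [Fintype F]

/-- `V0` is closed under addition. -/
theorem v0_add (hF : Fintype.card F = 2 ^ 2) (K : Subalgebra F (Matrix (Fin 6) (Fin 6) F))
    (hK : IsFieldSubalgebra 3 K) (u v : Fin 6 → F) :
    ∀ x ∈ V0 K u v, ∀ y ∈ V0 K u v, x + y ∈ V0 K u v := by
  rintro _ ⟨a, ha, b, hb, rfl⟩ _ ⟨a', ha', b', hb', rfl⟩
  refine ⟨a + a', k0_add hF K hK a ha a' ha', b + b', k0_add hF K hK b hb b' hb', ?_⟩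
  rw [Matrix.add_mulVec, Matrix.add_mulVec]
  abel

/-- `V0` is closed under `K0`. -/
theorem v0_smul (K : Subalgebra F (Matrix (Fin 6) (Fin 6) F))
    (hK : IsFieldSubalgebra 3 K) (u v : Fin 6 → F) :
    ∀ k ∈ K0 K, ∀ x ∈ V0 K u v, k *ᵥ x ∈ V0 K u v := by
  rintro k hk _ ⟨a, ha, b, hb, rfl⟩
  refine ⟨k * a, k0_mul K hK k hk a ha, k * b, k0_mul K hK k hk b hb, ?_⟩
  rw [Matrix.mulVec_add, Matrix.mulVec_mulVec, Matrix.mulVec_mulVec]

theorem v0_u (K : Subalgebra F (Matrix (Fin 6) (Fin 6) F)) (u v : Fin 6 → F) : u ∈ V0 K u v := by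
  refine ⟨1, k0_one K, 0, k0_zero K, ?_⟩
  rw [Matrix.one_mulVec, Matrix.zero_mulVec, add_zero]

theorem v0_v (K : Subalgebra F (Matrix (Fin 6) (Fin 6) F)) (u v : Fin 6 → F) : v ∈ V0 K u v := by
  refine ⟨0, k0_zero K, 1, k0_one K, ?_⟩
  rw [Matrix.one_mulVec, Matrix.zero_mulVec, zero_add]

theorem su6v0kit_h_zero_left (y : Fin 6 → F) : Cfsg.hermForm 6 F 2 0 y = 0 := by
  have h := hsmul_left (0 : F) (0 : Fin 6 → F) y
  rw [zero_smul, zero_mul] at h
  exact h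

theorem su6v0kit_h_zero_right (x : Fin 6 → F) : Cfsg.hermForm 6 F 2 x 0 = 0 := by
  have h := hsmul_right (0 : F) x (0 : Fin 6 → F)
  rw [zero_smul] at h
  rw [h]
  ring

/-- the pair is non-zero. -/
theorem frame_ne (hF : Fintype.card F = 2 ^ 2) (K : Subalgebra F (Matrix (Fin 6) (Fin 6) F))
    (hK : IsFieldSubalgebra 3 K) (u v : Fin 6 → F) (hf : Frame K u v) : u ≠ 0 ∧ v ≠ 0 := by
  have key : (∀ k ∈ K, tr3 k = 0) → False := by
    intro h0
    have h1 := tr3_nondeg hF K hK 1 (one_mem K) (fun k hk => by rw [mul_one]; exact h0 k hk)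
    exact one_ne_zero h1
  constructor
  · intro hu
    apply key
    intro k hk
    have h := hf.pair k hk
    rw [hu, Matrix.mulVec_zero, su6v0kit_h_zero_left, zero_smul] at h
    exact h.symm
  · intro hv
    apply key
    intro k hk
    have h := hf.pair k hk
    rw [hv, su6v0kit_h_zero_right, zero_smul] at h
    exact h.symm

end Cfsg.Agent.Lib.Helper49.SU6
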