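import Mathlib
import Cfsg.Prelude.Def_GeometricClasses
import Cfsg.Prelude.Def_LieClassical
import Cfsg.Agent.Lib.Helper49.SU6Defs
import Cfsg.Agent.Lib.Helper71.SUP0
import Cfsg.Agent.Lib.Helper10.SPPUNIQ
import Cfsg.Agent.Lib.Helper49.SU6XKITA
import Cfsg.Agent.Lib.Helper49.SU6XKITB
import Cfsg.Agent.Lib.Helper49.SU6XV0KIT
import Cfsg.Agent.Lib.Helper49.SU6XCOORD
import Cfsg.Agent.Lib.Helper49.SU6XCOORDU
import Cfsg.Agent.Lib.Helper49.SU6XSCAL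

/-!
# S5802 project SU6 (helper49), piece NORMAL (filled by helper75)

`N(K) ∩ SU` normalises the stabiliser `Lgrp` of the `F_8`-form `V0`: by `scal`, `g` and `g⁻¹`
map `V0` into scalar multiples `c • V0`, `c' • V0` with `c' * c = 1`.
-/

set_option autoImplicit false

namespace Cfsg.Agent.Lib.Helper49.SU6

open Matrix Cfsg.Geo

variable {F : Type*} [Field F] [Fintype F]

/-- NORMAL: `N(K) ∩ SU` normalises `Lgrp`. -/
theorem normal (hF : Fintype.card F = 2 ^ 2) (K : Subalgebra F (Matrix (Fin 6) (Fin 6) F))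
    (hK : IsFieldSubalgebra 3 K) (hadj : IsAdjointClosedFor (Cfsg.hermForm 6 F 2) K)
    (u v : Fin 6 → F) (hf : Frame K u v) (g : GL (Fin 6) F) (hgU : g ∈ Cfsg.GU 6 F 2)
    (hgN : g ∈ subalgebraNormalizer K) (hgS : g ∈ specialLinear (Fin 6) F) :
    ∀ s ∈ Lgrp K u v, g * s * g⁻¹ ∈ Lgrp K u v := by
  have hfwd : ∀ s ∈ Lgrp K u v, ∀ x ∈ V0 K u v, (g * s * g⁻¹).1 *ᵥ x ∈ V0 K u v := by
    obtain ⟨c, hc0, hc⟩ := scal hF K hK hadj u v hf g hgU hgN hgS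
    obtain ⟨c', hc'0, hc'⟩ := scal hF K hK hadj u v hf g⁻¹ (inv_mem hgU) (inv_mem hgN)
      (inv_mem hgS)
    have hggi : ∀ x : Fin 6 → F, g.1 *ᵥ ((g⁻¹ : GL (Fin 6) F).1 *ᵥ x) = x := by
      intro x
      rw [Matrix.mulVec_mulVec, ← Units.val_mul, mul_inv_cancel, Units.val_one,
        Matrix.one_mulVec]
    have hcc : c' * c = 1 := by
      obtain ⟨y₁, hy₁, h1⟩ := hc' u (v0_u K u v)
      obtain ⟨y₂, hy₂, h2⟩ := hc y₁ hy₁
      obtain ⟨e, he⟩ : ∃ e : F, e = c' * c := ⟨_, rfl⟩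
      rw [← he]
      have he0 : e ≠ 0 := by rw [he]; exact mul_ne_zero hc'0 hc0
      have hu : u = e • y₂ := by
        have h3 := hggi u
        rw [h1, Matrix.mulVec_smul, h2, smul_smul, ← he] at h3
        exact h3.symm
      obtain ⟨a, ha, b, hb, hy₂eq⟩ := hy₂
      have hu2 : u = e • (a *ᵥ u) + e • (b *ᵥ v) := by
        rw [← smul_add, ← hy₂eq]; exact hu
      have hzero : (1 - e • a) *ᵥ u + (-(e • b)) *ᵥ v = 0 := by
        rw [Matrix.sub_mulVec, Matrix.one_mulVec, Matrix.neg_mulVec, Matrix.smul_mulVec,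
          Matrix.smul_mulVec]
        have h3 : u - e • (a *ᵥ u) + -(e • (b *ᵥ v)) =
            (e • (a *ᵥ u) + e • (b *ᵥ v)) - e • (a *ᵥ u) + -(e • (b *ᵥ v)) := by
          rw [← hu2]
        rw [h3]
        abel
      obtain ⟨h4, -⟩ := coord_unique hF K hK hadj u v hf (1 - e • a)
        (K.sub_mem K.one_mem (K.smul_mem ha.1 e)) (-(e • b)) (K.neg_mem (K.smul_mem hb.1 e))
        hzero
      have ha1 : a = e⁻¹ • (1 : Matrix (Fin 6) (Fin 6) F) := by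
        have h6 : e • a = 1 := (sub_eq_zero.mp h4).symm
        rw [← h6, smul_smul, inv_mul_cancel₀ he0, one_smul]
      have h7 : (e⁻¹) ^ 2 = e⁻¹ := k0_scalar hF K e⁻¹ (by rw [← ha1]; exact ha)
      have h8 : e⁻¹ = 1 := by
        have hne : e⁻¹ ≠ 0 := inv_ne_zero he0
        have h9 : e⁻¹ * (e⁻¹ - 1) = 0 := by rw [mul_sub, mul_one, ← sq, h7, sub_self]
        rcases mul_eq_zero.mp h9 with h | h
        · exact absurd h hne
        · exact sub_eq_zero.mp h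
      exact inv_eq_one.mp h8
    intro s hs x hx
    obtain ⟨y, hy, h1⟩ := hc' x hx
    have hsy : s.1 *ᵥ y ∈ V0 K u v := (((mem_Lgrp K u v s).mp hs).2.2 y).mp hy
    obtain ⟨y'', hy'', h2⟩ := hc _ hsy
    have h3 : (g * s * g⁻¹).1 *ᵥ x = y'' := by
      rw [Units.val_mul, Units.val_mul, ← Matrix.mulVec_mulVec, ← Matrix.mulVec_mulVec, h1,
        Matrix.mulVec_smul, Matrix.mulVec_smul, h2, smul_smul, hcc, one_smul]
    rw [h3]
    exact hy''
  intro s hs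
  rw [mem_Lgrp]
  obtain ⟨hsU, hsN, -⟩ := (mem_Lgrp K u v s).mp hs
  refine ⟨mul_mem (mul_mem hgU hsU) (inv_mem hgU), mul_mem (mul_mem hgN hsN) (inv_mem hgN),
    fun x => ⟨hfwd s hs x, fun hx => ?_⟩⟩
  have h1 := hfwd s⁻¹ (inv_mem hs) _ hx
  have h2 : (g * s⁻¹ * g⁻¹).1 *ᵥ ((g * s * g⁻¹).1 *ᵥ x) = x := by
    rw [Matrix.mulVec_mulVec, ← Units.val_mul]
    have h4 : g * s⁻¹ * g⁻¹ * (g * s * g⁻¹) = 1 := by group
    rw [h4, Units.val_one, Matrix.one_mulVec]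
  rwa [h2] at h1

end Cfsg.Agent.Lib.Helper49.SU6
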