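import Mathlib
import Cfsg.Prelude.Def_GeometricClasses
import Cfsg.Prelude.Def_LieClassical
import Cfsg.Agent.Lib.Helper49.SU6Defs
import Cfsg.Agent.Lib.Helper71.SUP0
import Cfsg.Agent.Lib.Helper10.SPPUNIQ

/-!
# S5802 project SU6 (helper49), piece RAT

Filled by helper31: elements of `Lgrp` are `F₁`-rational in the basis `B`.
-/

set_option autoImplicit false

namespace Cfsg.Agent.Lib.Helper49.SU6

open Matrix Cfsg.Geo

variable {F : Type*} [Field F] [Fintype F]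

/-- RAT: the stabiliser of `V0` is rational in the basis of V0B. -/
theorem rat (K : Subalgebra F (Matrix (Fin 6) (Fin 6) F)) (u v : Fin 6 → F) (F₁ : Subfield F)
    (B : GL (Fin 6) F) (hB : ∀ x : Fin 6 → F, x ∈ V0 K u v ↔ ∀ i, (B.1 *ᵥ x) i ∈ F₁) :
    ∀ s ∈ matrixSet (Lgrp K u v), ∀ i j, (B.1 * s * (B⁻¹ : GL (Fin 6) F).1) i j ∈ F₁ := by
  rintro s ⟨g, hg, rfl⟩ i j
  have hg' : g ∈ Lgrp K u v := hg
  rw [mem_Lgrp] at hg'
  obtain ⟨-, -, hV⟩ := hg'
  have h1 : (B⁻¹ : GL (Fin 6) F).1 *ᵥ (Pi.single j (1 : F)) ∈ V0 K u v := by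
    rw [hB]
    intro i'
    rw [Matrix.mulVec_mulVec, ← Units.val_mul, mul_inv_cancel, Units.val_one, Matrix.one_mulVec]
    by_cases hij : i' = j
    · subst hij
      rw [Pi.single_eq_same]
      exact one_mem F₁
    · rw [Pi.single_eq_of_ne hij]
      exact zero_mem F₁
  have h2 := (hV _).1 h1
  rw [hB] at h2
  have h3 := h2 i
  rw [Matrix.mulVec_mulVec, Matrix.mulVec_mulVec, Matrix.mulVec_single_one] at h3
  exact h3

end Cfsg.Agent.Lib.Helper49.SU6
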