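import Mathlib
import Cfsg.Prelude.Def_GeometricClasses
import Cfsg.Prelude.Def_LieClassical
import Cfsg.Agent.Lib.Helper49.SU6Defs
import Cfsg.Agent.Lib.Helper71.SUP0
import Cfsg.Agent.Lib.Helper10.SPPUNIQ
import Cfsg.Agent.Lib.Helper49.SU6XKITA
import Cfsg.Agent.Lib.Helper49.SU6XKITB

/-!
# S5802 project SU6 (helper49), piece K0BASIS

PLACEHOLDER: replace every `sorry` in this file (keep the statements and the namespace exactly;
auxiliary lemmas with fresh names prefixed `su6k0basis_` are fine; you may add imports of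
landed libraries).  Paper proof: see the job note.
-/

set_option autoImplicit false
set_option linter.unusedSectionVars false

namespace Cfsg.Agent.Lib.Helper49.SU6

open Matrix Cfsg.Geo

variable {F : Type*} [Field F] [Fintype F]

/-- no zero divisors in `K`. -/
theorem su6k0basis_nzd (K : Subalgebra F (Matrix (Fin 6) (Fin 6) F)) (hK : IsFieldSubalgebra 3 K)
    {a b : Matrix (Fin 6) (Fin 6) F} (ha : a ∈ K) (hab : a * b = 0) : a = 0 ∨ b = 0 := by
  by_cases ha0 : a = 0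
  · exact Or.inl ha0
  · right
    obtain ⟨a', ha', h1, h2⟩ := kit_inv K hK a ha ha0
    calc b = (a' * a) * b := by rw [h2, one_mul]
      _ = a' * (a * b) := mul_assoc _ _ _
      _ = 0 := by rw [hab, mul_zero]

/-- `K0` has an element different from `0` and `1`. -/
theorem su6k0basis_exists (hF : Fintype.card F = 2 ^ 2)
    (K : Subalgebra F (Matrix (Fin 6) (Fin 6) F)) (hK : IsFieldSubalgebra 3 K) :
    ∃ κ ∈ K0 K, κ ≠ 0 ∧ κ ≠ 1 := by
  by_contra hcon
  push Not at hcon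
  obtain ⟨ω, hω⟩ := kit_omega hF
  have h01 : ∀ a ∈ K0 K, a = 0 ∨ a = 1 := by
    intro a ha
    by_cases h : a = 0
    · exact Or.inl h
    · exact Or.inr (hcon a ha h)
  have hsc : ∀ k ∈ K, ∃ c : F, k = c • (1 : Matrix (Fin 6) (Fin 6) F) := by
    intro k hk
    obtain ⟨a, ha, b, hb, rfl⟩ := k0_decomp hF K hK ω hω k hk
    rcases h01 a ha with rfl | rfl <;> rcases h01 b hb with rfl | rfl
    · exact ⟨0, by simp⟩
    · exact ⟨ω, by simp⟩
    · exact ⟨1, by simp⟩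
    · exact ⟨1 + ω, by rw [add_smul, one_smul]⟩
  have hcard := Cfsg.Agent.Lib.Helper10.SPPUNIQ.card_sub 3 K hK
  rw [hF] at hcard
  have hsurj : Function.Surjective
      (fun c : F => (⟨c • (1 : Matrix (Fin 6) (Fin 6) F), K.smul_mem K.one_mem c⟩ : ↥K)) := by
    rintro ⟨k, hk⟩
    obtain ⟨c, rfl⟩ := hsc k hk
    exact ⟨c, rfl⟩
  have hle := Nat.card_le_card_of_surjective _ hsurj
  rw [hcard, Nat.card_eq_fintype_card, hF] at hle
  norm_num at hle

/-- a non-trivial element of `K0` is not a scalar. -/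
theorem su6k0basis_nonscalar (hF : Fintype.card F = 2 ^ 2)
    (K : Subalgebra F (Matrix (Fin 6) (Fin 6) F)) {κ : Matrix (Fin 6) (Fin 6) F}
    (hκ : κ ∈ K0 K) (h0 : κ ≠ 0) (h1 : κ ≠ 1) (c : F) :
    κ ≠ c • (1 : Matrix (Fin 6) (Fin 6) F) := by
  rintro rfl
  have hc := k0_scalar hF K c hκ
  have h : c * (c - 1) = 0 := by
    have e : c * (c - 1) = c ^ 2 - c := by ring
    rw [e, hc, sub_self]
  rcases mul_eq_zero.mp h with h | h
  · apply h0
    rw [h, zero_smul]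
  · apply h1
    rw [sub_eq_zero.mp h, one_smul]

theorem su6k0basis_two_terms {κ : Matrix (Fin 6) (Fin 6) F}
    (hns : ∀ c : F, κ ≠ c • (1 : Matrix (Fin 6) (Fin 6) F)) (c0 c1 : F)
    (h : c0 • (1 : Matrix (Fin 6) (Fin 6) F) + c1 • κ = 0) : c0 = 0 ∧ c1 = 0 := by
  have hc1 : c1 = 0 := by
    by_contra hc1
    apply hns (-(c1⁻¹ * c0))
    have h2 : c1 • κ = -(c0 • (1 : Matrix (Fin 6) (Fin 6) F)) := eq_neg_of_add_eq_zero_right h
    calc κ = c1⁻¹ • (c1 • κ) := by rw [smul_smul, inv_mul_cancel₀ hc1, one_smul]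
      _ = c1⁻¹ • (-(c0 • (1 : Matrix (Fin 6) (Fin 6) F))) := by rw [h2]
      _ = (-(c1⁻¹ * c0)) • (1 : Matrix (Fin 6) (Fin 6) F) := by rw [smul_neg, smul_smul, neg_smul]
  refine ⟨?_, hc1⟩
  rw [hc1, zero_smul, add_zero] at h
  rcases smul_eq_zero.mp h with h | h
  · exact h
  · exact absurd h one_ne_zero

/-- the 8-th power map on combinations of `1, κ, κ²`. -/
theorem su6k0basis_frob (hF : Fintype.card F = 2 ^ 2)
    (K : Subalgebra F (Matrix (Fin 6) (Fin 6) F)) (hK : IsFieldSubalgebra 3 K)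
    {κ : Matrix (Fin 6) (Fin 6) F} (hκ : κ ∈ K0 K) (c0 c1 c2 : F) :
    (c0 • (1 : Matrix (Fin 6) (Fin 6) F) + c1 • κ + c2 • κ ^ 2) ^ 8
      = (c0 ^ 2) • (1 : Matrix (Fin 6) (Fin 6) F) + (c1 ^ 2) • κ + (c2 ^ 2) • κ ^ 2 := by
  have hκ' : κ ∈ K ∧ κ ^ 8 = κ := hκ
  have hκK : κ ∈ K := hκ'.1
  have hκ8 : κ ^ 8 = κ := hκ'.2
  have hc8 : ∀ c : F, c ^ 8 = c ^ 2 := fun c => by
    have h4 := kit_F4 hF c
    calc c ^ 8 = (c ^ 4) ^ 2 := by ring
      _ = c ^ 2 := by rw [h4]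
  have hκ28 : (κ ^ 2) ^ 8 = κ ^ 2 := by
    rw [← pow_mul, show 2 * 8 = 8 * 2 from rfl, pow_mul, hκ8]
  have hm0 : c0 • (1 : Matrix (Fin 6) (Fin 6) F) ∈ K := K.smul_mem K.one_mem c0
  have hm1 : c1 • κ ∈ K := K.smul_mem hκK c1
  have hm2 : c2 • κ ^ 2 ∈ K := K.smul_mem (K.pow_mem hκK 2) c2
  have e := kit_add_pow hF K hK 3
  have e8 : (2 : ℕ) ^ 3 = 8 := by norm_num
  rw [e8] at e
  rw [e _ (K.add_mem hm0 hm1) _ hm2, e _ hm0 _ hm1, smul_pow, smul_pow, smul_pow, one_pow, hκ8,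
    hκ28, hc8, hc8, hc8]

/-- linear independence of `1, κ, κ²`. -/
theorem su6k0basis_indep3 (hF : Fintype.card F = 2 ^ 2)
    (K : Subalgebra F (Matrix (Fin 6) (Fin 6) F)) (hK : IsFieldSubalgebra 3 K)
    {κ : Matrix (Fin 6) (Fin 6) F} (hκ : κ ∈ K0 K) (h0 : κ ≠ 0) (h1 : κ ≠ 1) (c0 c1 c2 : F)
    (h : c0 • (1 : Matrix (Fin 6) (Fin 6) F) + c1 • κ + c2 • κ ^ 2 = 0) :
    c0 = 0 ∧ c1 = 0 ∧ c2 = 0 := by
  have hns := su6k0basis_nonscalar hF K hκ h0 h1
  have hκ' : κ ∈ K ∧ κ ^ 8 = κ := hκ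
  have hκK : κ ∈ K := hκ'.1
  have hdbl : ∀ m : Matrix (Fin 6) (Fin 6) F, m + m = 0 := kit_add_self hF
  have heq : ∀ a b : Matrix (Fin 6) (Fin 6) F, a + b = 0 → a = b := by
    intro a b hab
    calc a = a + (b + b) := by rw [hdbl, add_zero]
      _ = (a + b) + b := by abel
      _ = b := by rw [hab, zero_add]
  by_cases hc2 : c2 = 0
  · rw [hc2, zero_smul, add_zero] at h
    obtain ⟨a, b⟩ := su6k0basis_two_terms hns c0 c1 h
    exact ⟨a, b, hc2⟩
  · exfalso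
    have h8 := su6k0basis_frob hF K hK hκ c0 c1 c2
    rw [h, zero_pow (by norm_num)] at h8
    have hcomb : (c2 * c0 ^ 2 - c2 ^ 2 * c0) • (1 : Matrix (Fin 6) (Fin 6) F)
        + (c2 * c1 ^ 2 - c2 ^ 2 * c1) • κ = 0 := by
      have e1 : (c2 * c0 ^ 2 - c2 ^ 2 * c0) • (1 : Matrix (Fin 6) (Fin 6) F)
          + (c2 * c1 ^ 2 - c2 ^ 2 * c1) • κ
          = c2 • (c0 ^ 2 • (1 : Matrix (Fin 6) (Fin 6) F) + c1 ^ 2 • κ + c2 ^ 2 • κ ^ 2)
            - c2 ^ 2 • (c0 • (1 : Matrix (Fin 6) (Fin 6) F) + c1 • κ + c2 • κ ^ 2) := by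
        simp only [smul_add, smul_smul, sub_smul]
        have e2 : (c2 * c2 ^ 2) • κ ^ 2 = (c2 ^ 2 * c2) • κ ^ 2 := by rw [mul_comm]
        rw [e2]
        abel
      rw [e1, ← h8, h, smul_zero, smul_zero, sub_zero]
    obtain ⟨ha, hb⟩ := su6k0basis_two_terms hns _ _ hcomb
    have hc0 : c0 = 0 ∨ c0 = c2 := by
      have e : c2 * (c0 * (c0 - c2)) = 0 := by linear_combination ha
      rcases mul_eq_zero.mp e with e | e
      · exact absurd e hc2
      · rcases mul_eq_zero.mp e with e | e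
        · exact Or.inl e
        · exact Or.inr (sub_eq_zero.mp e)
    have hc1 : c1 = 0 ∨ c1 = c2 := by
      have e : c2 * (c1 * (c1 - c2)) = 0 := by linear_combination hb
      rcases mul_eq_zero.mp e with e | e
      · exact absurd e hc2
      · rcases mul_eq_zero.mp e with e | e
        · exact Or.inl e
        · exact Or.inr (sub_eq_zero.mp e)
    have hscale : ∀ m : Matrix (Fin 6) (Fin 6) F, c2 • m = 0 → m = 0 := by
      intro m hm
      rcases smul_eq_zero.mp hm with hm | hm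
      · exact absurd hm hc2
      · exact hm
    have hk1 : κ + 1 = 0 → False := by
      intro hk
      exact h1 (heq _ _ hk)
    rcases hc0 with rfl | rfl <;> rcases hc1 with rfl | rfl
    · -- κ² = 0
      rw [zero_smul, zero_smul, zero_add, zero_add] at h
      have h2 : κ * κ = 0 := by rw [← pow_two]; exact hscale _ h
      rcases su6k0basis_nzd K hK hκK h2 with h3 | h3 <;> exact h0 h3
    · -- κ + κ² = 0
      rw [zero_smul, zero_add, ← smul_add] at h
      have h2 : κ * (1 + κ) = 0 := by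
        rw [mul_add, mul_one, ← pow_two]
        exact hscale _ h
      rcases su6k0basis_nzd K hK hκK h2 with h3 | h3
      · exact h0 h3
      · exact hk1 (by rw [add_comm]; exact h3)
    · -- 1 + κ² = 0
      rw [zero_smul, add_zero, ← smul_add] at h
      have h3 : (1 : Matrix (Fin 6) (Fin 6) F) + κ ^ 2 = 0 := hscale _ h
      have h2 : (κ + 1) * (κ + 1) = 0 := by
        have e : (κ + 1) * (κ + 1) = (1 + κ ^ 2) + (κ + κ) := by
          rw [mul_add, add_mul, add_mul, mul_one, one_mul, one_mul, ← pow_two]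
          abel
        rw [e, h3, hdbl, add_zero]
      rcases su6k0basis_nzd K hK (K.add_mem hκK K.one_mem) h2 with h4 | h4 <;> exact hk1 h4
    · -- 1 + κ + κ² = 0
      rw [← smul_add, ← smul_add] at h
      have h3 : (1 : Matrix (Fin 6) (Fin 6) F) + κ + κ ^ 2 = 0 := hscale _ h
      have h4 : κ ^ 2 = 1 + κ := (heq _ _ h3).symm
      have h5 : κ ^ 4 = κ := by
        calc κ ^ 4 = (κ ^ 2) * (κ ^ 2) := by rw [← pow_add]
          _ = (1 + κ) * (1 + κ) := by rw [h4]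
          _ = (1 + κ ^ 2) + (κ + κ) := by
            rw [mul_add, add_mul, add_mul]
            simp only [mul_one, one_mul]
            rw [← pow_two]
            abel
          _ = 1 + (1 + κ) := by rw [hdbl, add_zero, h4]
          _ = (1 + 1) + κ := by abel
          _ = κ := by rw [hdbl, zero_add]
      obtain ⟨c, hc⟩ := kit_fix4 hF K hK κ hκK h5
      exact hns c hc

/-- K0BASIS: a power basis `1, κ, κ²` of `K` over `F` which is an `F_2`-basis of `K0`. -/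
theorem k0basis (hF : Fintype.card F = 2 ^ 2) (K : Subalgebra F (Matrix (Fin 6) (Fin 6) F))
    (hK : IsFieldSubalgebra 3 K) :
    ∃ κ ∈ K0 K, (∀ k ∈ K, ∃ c : Fin 3 → F, k = ∑ i, c i • κ ^ (i : ℕ)) ∧
      (∀ c : Fin 3 → F, ∑ i, c i • κ ^ (i : ℕ) = 0 → c = 0) ∧
      (∀ c : Fin 3 → F, ∑ i, c i • κ ^ (i : ℕ) ∈ K0 K ↔ ∀ i, c i ^ 2 = c i) := by
  obtain ⟨κ, hκ, h0, h1⟩ := su6k0basis_exists hF K hK
  have hκ' : κ ∈ K ∧ κ ^ 8 = κ := hκ
  have hκK : κ ∈ K := hκ'.1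
  have hsum : ∀ c : Fin 3 → F, ∑ i, c i • κ ^ (i : ℕ)
      = c 0 • (1 : Matrix (Fin 6) (Fin 6) F) + c 1 • κ + c 2 • κ ^ 2 := by
    intro c
    rw [Fin.sum_univ_three]
    simp
  have hmem : ∀ c : Fin 3 → F, ∑ i, c i • κ ^ (i : ℕ) ∈ K := fun c =>
    K.sum_mem (fun i _ => K.smul_mem (K.pow_mem hκK _) _)
  have hind : ∀ c : Fin 3 → F, ∑ i, c i • κ ^ (i : ℕ) = 0 → c = 0 := by
    intro c hc
    rw [hsum] at hc
    obtain ⟨a, b, d⟩ := su6k0basis_indep3 hF K hK hκ h0 h1 _ _ _ hc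
    funext i
    fin_cases i
    · exact a
    · exact b
    · exact d
  have hfrob : ∀ c : Fin 3 → F, (∑ i, c i • κ ^ (i : ℕ)) ^ 8 = ∑ i, (c i ^ 2) • κ ^ (i : ℕ) := by
    intro c
    rw [hsum, hsum (fun i => c i ^ 2)]
    exact su6k0basis_frob hF K hK hκ _ _ _
  refine ⟨κ, hκ, ?_, hind, ?_⟩
  · have hinj : Function.Injective
        (fun c : Fin 3 → F => (⟨∑ i, c i • κ ^ (i : ℕ), hmem c⟩ : ↥K)) := by
      intro c c' hcc
      have h2 : ∑ i, c i • κ ^ (i : ℕ) = ∑ i, c' i • κ ^ (i : ℕ) := congrArg Subtype.val hcc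
      have h3 : ∑ i, (c - c') i • κ ^ (i : ℕ) = 0 := by
        simp only [Pi.sub_apply, sub_smul, Finset.sum_sub_distrib]
        rw [h2, sub_self]
      exact sub_eq_zero.mp (hind _ h3)
    have hcard : Nat.card ↥K ≤ Nat.card (Fin 3 → F) := by
      rw [Cfsg.Agent.Lib.Helper10.SPPUNIQ.card_sub 3 K hK, Nat.card_eq_fintype_card,
        Fintype.card_fun, Fintype.card_fin]
    have hbij := hinj.bijective_of_nat_card_le hcard
    intro k hk
    obtain ⟨c, hc⟩ := hbij.2 ⟨k, hk⟩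
    exact ⟨c, (congrArg Subtype.val hc).symm⟩
  · intro c
    constructor
    · intro hm
      have hm' : ∑ i, c i • κ ^ (i : ℕ) ∈ K ∧
          (∑ i, c i • κ ^ (i : ℕ)) ^ 8 = ∑ i, c i • κ ^ (i : ℕ) := hm
      have h8 := hm'.2
      rw [hfrob] at h8
      have h3 : ∑ i, (fun i => c i ^ 2 - c i) i • κ ^ (i : ℕ) = 0 := by
        simp only [sub_smul, Finset.sum_sub_distrib]
        rw [h8, sub_self]
      have h4 := hind _ h3
      intro i
      exact sub_eq_zero.mp (congrFun h4 i)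
    · intro hc
      refine ⟨hmem c, ?_⟩
      rw [hfrob]
      exact Finset.sum_congr rfl (fun i _ => by rw [hc i])

end Cfsg.Agent.Lib.Helper49.SU6
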