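import Mathlib
import Cfsg.Prelude.Def_GeometricClasses
import Cfsg.Prelude.Def_LieClassical
import Cfsg.Agent.Lib.Helper49.SU6Defs
import Cfsg.Agent.Lib.Helper71.SUP0
import Cfsg.Agent.Lib.Helper10.SPPUNIQ
import Cfsg.Agent.Lib.Helper49.SU6XKITA
import Cfsg.Agent.Lib.Helper49.SU6XKITB
import Cfsg.Agent.Lib.Helper49.SU6XCOORD
import Cfsg.Agent.Lib.Helper49.SU6XCOORDU
import Cfsg.Agent.Lib.Helper49.SU6XK0BASIS

/-!
# S5802 project SU6 (helper49), piece V0B (helper61)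

`V0` is the set of `F_2`-rational vectors in the basis `κ^i u`, `κ^i v` (`i < 3`), where
`1, κ, κ²` is the power basis of `K` over `F` given by `k0basis`.
-/

set_option autoImplicit false

namespace Cfsg.Agent.Lib.Helper49.SU6

open Matrix Cfsg.Geo

variable {F : Type*} [Field F] [Fintype F]

/-- V0B: `V0` is the set of `F_2`-rational vectors in a suitable basis. -/
theorem v0b (hF : Fintype.card F = 2 ^ 2) (K : Subalgebra F (Matrix (Fin 6) (Fin 6) F))
    (hK : IsFieldSubalgebra 3 K) (hadj : IsAdjointClosedFor (Cfsg.hermForm 6 F 2) K)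
    (u v : Fin 6 → F) (hf : Frame K u v) (F₁ : Subfield F)
    (hF₁ : ∀ x : F, x ∈ F₁ ↔ x ^ 2 = x) :
    ∃ B : GL (Fin 6) F, ∀ x : Fin 6 → F, x ∈ V0 K u v ↔ ∀ i, (B.1 *ᵥ x) i ∈ F₁ := by
  classical
  obtain ⟨κ, hκ0, hspan, hind, hK0⟩ := k0basis hF K hK
  have hκK : κ ∈ K := hκ0.1
  -- the combinations `∑ p i • κ ^ i`
  obtain ⟨A, hA⟩ : ∃ A : (Fin 3 → F) → Matrix (Fin 6) (Fin 6) F,
      ∀ p, A p = ∑ i : Fin 3, p i • κ ^ (i : ℕ) := ⟨_, fun _ => rfl⟩
  have hAK : ∀ p, A p ∈ K := by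
    intro p
    rw [hA]
    exact Subalgebra.sum_mem K (fun i _ => Subalgebra.smul_mem K (Subalgebra.pow_mem K hκK _) _)
  have hA3 : ∀ p, A p = p 0 • 1 + p 1 • κ + p 2 • κ ^ 2 := by
    intro p
    rw [hA, Fin.sum_univ_three]
    simp
  -- the basis and its matrix
  obtain ⟨w, hw⟩ : ∃ w : Fin 6 → (Fin 6 → F),
      w = ![u, κ *ᵥ u, (κ ^ 2) *ᵥ u, v, κ *ᵥ v, (κ ^ 2) *ᵥ v] := ⟨_, rfl⟩
  obtain ⟨P, hPdef⟩ : ∃ P : Matrix (Fin 6) (Fin 6) F, P = (Matrix.of w)ᵀ := ⟨_, rfl⟩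
  have hPc : ∀ c : Fin 6 → F, P *ᵥ c = ∑ j, c j • w j := by
    intro c
    ext a
    simp only [hPdef, Matrix.mulVec, dotProduct, Matrix.transpose_apply, Matrix.of_apply,
      Finset.sum_apply, Pi.smul_apply, smul_eq_mul]
    exact Finset.sum_congr rfl (fun j _ => mul_comm _ _)
  have hform : ∀ c : Fin 6 → F,
      P *ᵥ c = A ![c 0, c 1, c 2] *ᵥ u + A ![c 3, c 4, c 5] *ᵥ v := by
    intro c
    rw [hPc, Fin.sum_univ_six, hA3, hA3, hw]
    simp [Matrix.add_mulVec, Matrix.smul_mulVec]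
    abel
  -- injectivity
  have hinj0 : ∀ c : Fin 6 → F, P *ᵥ c = 0 → c = 0 := by
    intro c hc
    rw [hform] at hc
    obtain ⟨h1, h2⟩ := coord_unique hF K hK hadj u v hf _ (hAK _) _ (hAK _) hc
    rw [hA] at h1 h2
    have e1 := hind _ h1
    have e2 := hind _ h2
    funext j
    fin_cases j
    · simpa using congrFun e1 0
    · simpa using congrFun e1 1
    · simpa using congrFun e1 2
    · simpa using congrFun e2 0
    · simpa using congrFun e2 1
    · simpa using congrFun e2 2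
  have hinj : Function.Injective P.mulVec := by
    intro c c' h
    have h1 : P *ᵥ (c - c') = 0 := by
      rw [Matrix.mulVec_sub]
      exact sub_eq_zero.mpr h
    exact sub_eq_zero.mp (hinj0 _ h1)
  have hu : IsUnit P := Matrix.mulVec_injective_iff_isUnit.mp hinj
  obtain ⟨Pu, hPu⟩ := hu
  refine ⟨Pu⁻¹, fun x => ?_⟩
  obtain ⟨c, hcdef⟩ : ∃ c : Fin 6 → F, c = (Pu⁻¹ : GL (Fin 6) F).1 *ᵥ x := ⟨_, rfl⟩
  rw [← hcdef]
  have hx : P *ᵥ c = x := by
    rw [hcdef, ← hPu, Matrix.mulVec_mulVec, ← Units.val_mul, mul_inv_cancel, Units.val_one,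
      Matrix.one_mulVec]
  constructor
  · rintro ⟨a, ha, b, hb, hxab⟩
    obtain ⟨p', hp'⟩ := hspan a ha.1
    obtain ⟨q', hq'⟩ := hspan b hb.1
    rw [← hA] at hp' hq'
    obtain ⟨c', hc'⟩ : ∃ c' : Fin 6 → F, c' = ![p' 0, p' 1, p' 2, q' 0, q' 1, q' 2] := ⟨_, rfl⟩
    have hl : ![c' 0, c' 1, c' 2] = p' := by
      rw [hc']
      funext i
      fin_cases i <;> rfl
    have hr : ![c' 3, c' 4, c' 5] = q' := by
      rw [hc']
      funext i
      fin_cases i <;> rfl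
    have hx' : P *ᵥ c' = x := by
      rw [hform, hl, hr, ← hp', ← hq']
      exact hxab.symm
    have hcc : c = c' := hinj (hx.trans hx'.symm)
    have hp2 : ∀ i, p' i ^ 2 = p' i := by
      apply (hK0 p').mp
      rw [← hA, ← hp']
      exact ha
    have hq2 : ∀ i, q' i ^ 2 = q' i := by
      apply (hK0 q').mp
      rw [← hA, ← hq']
      exact hb
    intro i
    rw [hF₁, hcc, hc']
    fin_cases i
    · exact hp2 0
    · exact hp2 1
    · exact hp2 2
    · exact hq2 0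
    · exact hq2 1
    · exact hq2 2
  · intro h
    have h2 : ∀ i, c i ^ 2 = c i := fun i => (hF₁ _).mp (h i)
    have hp : A ![c 0, c 1, c 2] ∈ K0 K := by
      rw [hA]
      apply (hK0 _).mpr
      intro i
      fin_cases i
      · exact h2 0
      · exact h2 1
      · exact h2 2
    have hq : A ![c 3, c 4, c 5] ∈ K0 K := by
      rw [hA]
      apply (hK0 _).mpr
      intro i
      fin_cases i
      · exact h2 3
      · exact h2 4
      · exact h2 5
    exact ⟨_, hp, _, hq, hx.symm.trans (hform c)⟩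

end Cfsg.Agent.Lib.Helper49.SU6
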