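import Mathlib
import Cfsg.Prelude.Def_GeometricClasses
import Cfsg.Prelude.Def_LieClassical
import Cfsg.Agent.Lib.Helper49.SU6Defs
import Cfsg.Agent.Lib.Helper67.ASNL
import Cfsg.Agent.Lib.Helper89.SUPU8a
import Cfsg.Agent.Lib.Helper2.SUQU8E
import Cfsg.Agent.Lib.Helper49.SU6XISO
import Cfsg.Agent.Lib.Helper49.SU6XHYP
import Cfsg.Agent.Lib.Helper49.SU6XF1
import Cfsg.Agent.Lib.Helper49.SU6XV0B
import Cfsg.Agent.Lib.Helper49.SU6XRAT
import Cfsg.Agent.Lib.Helper49.SU6XIRR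
import Cfsg.Agent.Lib.Helper49.SU6XCOMM
import Cfsg.Agent.Lib.Helper49.SU6XNORMAL

/-!
# Project SU6 (helper49): E2 - for `q = 2` the normaliser of a field subalgebra of degree 3 in
`SU_6(2)` lies in a subfield group of symplectic type.
-/

set_option autoImplicit false

namespace Cfsg.Agent.Lib.Helper49.SU6

open Matrix Cfsg.Geo

variable {F : Type*} [Field F] [Fintype F]

/-- E2: a subgroup of `SU_6(2)` normalising an adjoint-closed field subalgebra of degree 3 lies in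
a subfield group of symplectic type (`3 × Sp_6(2)`). -/
theorem E2 (hF : Fintype.card F = 2 ^ 2) (H : Subgroup (GL (Fin 6) F))
    (hH : H ≤ Cfsg.GU 6 F 2 ⊓ specialLinear (Fin 6) F)
    (K : Subalgebra F (Matrix (Fin 6) (Fin 6) F)) (hK : IsFieldSubalgebra 3 K)
    (hadj : IsAdjointClosedFor (Cfsg.hermForm 6 F 2) K) (hHK : H ≤ subalgebraNormalizer K) :
    ∃ (F₀ : Subfield F) (P : GL (Fin 6) F) (ζ : F), Fintype.card F = Nat.card F₀ ^ 2 ∧ ζ ≠ 0 ∧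
      ζ + ζ ^ 2 = 0 ∧ IsFormRationalStructure (Cfsg.hermForm 6 F 2) F₀ ζ P ∧
      (∀ u : Fin 6 → F, (∀ i, u i ∈ F₀) →
        Cfsg.hermForm 6 F 2 ((P : Matrix (Fin 6) (Fin 6) F) *ᵥ u)
          ((P : Matrix (Fin 6) (Fin 6) F) *ᵥ u) = 0) ∧
      H ≤ subfieldSubgroup F₀ P := by
  classical
  obtain ⟨u, hu, hiso⟩ := iso_exists hF K hK hadj
  obtain ⟨v, hf⟩ := hyp hF K hK hadj u hu hiso
  obtain ⟨F₁, τ, hcard, hfix, hF₁⟩ := f1 hF
  obtain ⟨B, hB⟩ := v0b hF K hK hadj u v hf F₁ hF₁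
  have hLGU : Lgrp K u v ≤ Cfsg.GU 6 F 2 := fun g hg => hg.1
  have hLa : ActsAbsolutelyIrreducibly (matrixSet (Lgrp K u v)) :=
    ⟨irr hF K hK hadj u v hf, comm hF K hK hadj u v hf⟩
  have hB₁ := rat K u v F₁ B hB
  have hHle : H ≤ subfieldSubgroup F₁ B⁻¹ := by
    intro h hh
    have key := Cfsg.Agent.Lib.Helper67.ASNL.NL_core (Lgrp K u v) hLa F₁ τ hfix B hB₁ h
      (fun x hx => normal hF K hK hadj u v hf h (hH hh).1 (hHK hh) (hH hh).2 x hx)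
    unfold subfieldSubgroup
    refine ⟨B * h * B⁻¹, key, ?_⟩
    show B⁻¹ * (B * h * B⁻¹) * B⁻¹⁻¹ = h
    group
  obtain ⟨ζ, hζ, hrat⟩ := Cfsg.Agent.Lib.Helper89.SUPU8a.U8a hF (by norm_num) (Lgrp K u v)
    hLGU hLa F₁ τ hfix B hB₁
  rcases Cfsg.Agent.Lib.Helper2.SUQU8E.U8E hF (by norm_num) (Lgrp K u v) hLGU hLa F₁ hcard B
    hB₁ ζ hζ hrat with ⟨ζ', hζ', htr, hrat', hiso'⟩ | ⟨hqo, _⟩
  · exact ⟨F₁, B⁻¹, ζ', hcard, hζ', htr, hrat', hiso', hHle⟩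
  · exact absurd hqo (by decide)

end Cfsg.Agent.Lib.Helper49.SU6
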