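import Mathlib
import Cfsg.Prelude.Def_GeometricClasses
import Cfsg.Prelude.Def_LieClassical
import Cfsg.Agent.Lib.Helper50.SUQMain
import Cfsg.Agent.Lib.Helper65.SU6E1
import Cfsg.Agent.Lib.Helper49.SU6E2

/-!
# Project SU6 (helper49): the maximal subgroups of `SU_6(q)` (statement S5802)

Assembly: helper50's `genUQ` at `p = 3`, helper65's `E1` (the frame stabiliser is not maximal in
`SU_6(2)`) and `E2` (the degree-3 field normaliser lies in a symplectic subfield group for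
`q = 2`).
-/

set_option autoImplicit false

namespace Cfsg.Agent.Lib.Helper49.SU6

open Matrix Cfsg.Geo
open Cfsg.Agent.Lib.Helper50.SUQMain (genUQ GenUQ eq_inf_of_max not_ts_top)
open Cfsg.Agent.Lib.Helper39.SUPNU1 (NU1)
open Cfsg.Agent.Lib.Helper39.SUPNU2 (NU2)
open Cfsg.Agent.Lib.Helper28.SUPNU3 (NU3)
open Cfsg.Agent.Lib.Helper79.SUPNU5 (NU5)
open Cfsg.Agent.Lib.Helper34.SUQNU2Q (NU2Q)
open Cfsg.Agent.Lib.Helper3.SUQNU4Q (NU4Q)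

variable {F : Type*} [Field F] [Fintype F] {q : ℕ}

/-- The maximal subgroups of `SU_6(q)`: the S5802 disjunction. -/
theorem finalUQ6 (hF : Fintype.card F = q ^ 2) (H : Subgroup (GL (Fin 6) F))
    (hH : IsMaximalIn (Cfsg.GU 6 F q ⊓ specialLinear (Fin 6) F) H) :
    (∃ W : Submodule F (Fin 6 → F), W ≠ ⊥ ∧ IsTotallySingularFor (Cfsg.hermForm 6 F q) W ∧ H = subspaceStabilizer W ⊓ (Cfsg.GU 6 F q ⊓ specialLinear (Fin 6) F)) ∨
    (∃ W : Submodule F (Fin 6 → F), W ≠ ⊥ ∧ IsNondegenerateOn (Cfsg.hermForm 6 F q) W ∧ 2 * Module.finrank F W < 6 ∧ H = subspaceStabilizer W ⊓ (Cfsg.GU 6 F q ⊓ specialLinear (Fin 6) F)) ∨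
    (3 ≤ q ∧ ∃ D : Fin 6 → Submodule F (Fin 6 → F), IsNondegenerateMDecomposition (Cfsg.hermForm 6 F q) 1 D ∧ H = decompositionStabilizer D ⊓ (Cfsg.GU 6 F q ⊓ specialLinear (Fin 6) F)) ∨
    (3 ≤ q ∧ ∃ D : Fin 3 → Submodule F (Fin 6 → F), IsNondegenerateMDecomposition (Cfsg.hermForm 6 F q) 2 D ∧ H = decompositionStabilizer D ⊓ (Cfsg.GU 6 F q ⊓ specialLinear (Fin 6) F)) ∨
    (∃ D : Fin 2 → Submodule F (Fin 6 → F), IsNondegenerateMDecomposition (Cfsg.hermForm 6 F q) 3 D ∧ H = decompositionStabilizer D ⊓ (Cfsg.GU 6 F q ⊓ specialLinear (Fin 6) F)) ∨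
    (∃ D : Fin 2 → Submodule F (Fin 6 → F), IsMDecomposition 3 D ∧ (∀ i, IsTotallySingularFor (Cfsg.hermForm 6 F q) (D i)) ∧ H = decompositionStabilizer D ⊓ (Cfsg.GU 6 F q ⊓ specialLinear (Fin 6) F)) ∨
    (3 ≤ q ∧ ∃ K : Subalgebra F (Matrix (Fin 6) (Fin 6) F), IsFieldSubalgebra 3 K ∧ IsAdjointClosedFor (Cfsg.hermForm 6 F q) K ∧ H = subalgebraNormalizer K ⊓ (Cfsg.GU 6 F q ⊓ specialLinear (Fin 6) F)) ∨
    (3 ≤ q ∧ ∃ (e : Fin 6 ≃ Fin 2 × Fin 3) (P : GL (Fin 6) F) (f₁ : (Fin 2 → F) → (Fin 2 → F) → F) (f₂ : (Fin 3 → F) → (Fin 3 → F) → F), IsUnitaryFormPow q f₁ ∧ IsUnitaryFormPow q f₂ ∧ IsTensorFormStructure (fun x : F => x ^ q) (Cfsg.hermForm 6 F q) f₁ f₂ e P ∧ H = tensorProductSubgroup 2 3 e P ⊓ (Cfsg.GU 6 F q ⊓ specialLinear (Fin 6) F)) ∨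
    (∃ (F₀ : Subfield F) (r : ℕ) (P : GL (Fin 6) F), r.Prime ∧ Odd r ∧ Fintype.card F = Nat.card F₀ ^ r ∧ IsFormRationalStructure (Cfsg.hermForm 6 F q) F₀ 1 P ∧ H = subfieldSubgroup F₀ P ⊓ (Cfsg.GU 6 F q ⊓ specialLinear (Fin 6) F)) ∨
    (∃ (F₀ : Subfield F) (P : GL (Fin 6) F) (ζ : F), Fintype.card F = Nat.card F₀ ^ 2 ∧ ζ ≠ 0 ∧ ζ + ζ ^ q = 0 ∧ IsFormRationalStructure (Cfsg.hermForm 6 F q) F₀ ζ P ∧ (∀ u : Fin 6 → F, (∀ i, u i ∈ F₀) → (Cfsg.hermForm 6 F q) (Matrix.mulVec (P : Matrix (Fin 6) (Fin 6) F) u) (Matrix.mulVec (P : Matrix (Fin 6) (Fin 6) F) u) = 0) ∧ H = subfieldSubgroup F₀ P ⊓ (Cfsg.GU 6 F q ⊓ specialLinear (Fin 6) F)) ∨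
    (Odd q ∧ ∃ (F₀ : Subfield F) (P : GL (Fin 6) F), Fintype.card F = Nat.card F₀ ^ 2 ∧ IsFormRationalStructure (Cfsg.hermForm 6 F q) F₀ 1 P ∧ H = subfieldSubgroup F₀ P ⊓ (Cfsg.GU 6 F q ⊓ specialLinear (Fin 6) F)) ∨
    InUnitaryResidualClass H := by
  classical
  have hHS : H ≤ Cfsg.GU 6 F q ⊓ specialLinear (Fin 6) F := hH.1.le
  have hHGU : H ≤ Cfsg.GU 6 F q := hHS.trans inf_le_left
  have hq2 : 2 ≤ q := by
    have h1 : 1 < Fintype.card F := Fintype.one_lt_card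
    rw [hF] at h1
    by_contra hlt
    have h01 : q = 0 ∨ q = 1 := by omega
    rcases h01 with rfl | rfl <;> simp at h1
  have hne : ∀ (F₀ : Subfield F) (r : ℕ), r.Prime → Fintype.card F = Nat.card F₀ ^ r →
      F₀ ≠ ⊤ := by
    intro F₁ r hr hcard htop
    rw [htop] at hcard
    have h1 : Nat.card (⊤ : Subfield F) = Fintype.card F := by
      rw [← Nat.card_eq_fintype_card]
      exact Nat.card_congr Subfield.topEquiv.toEquiv
    rw [h1] at hcard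
    have h2 : 1 < Fintype.card F := Fintype.one_lt_card
    have h3 : Fintype.card F ^ 1 < Fintype.card F ^ r :=
      Nat.pow_lt_pow_right h2 hr.one_lt
    rw [pow_one] at h3
    omega
  have hg := genUQ (n := 6) hF 3 (by norm_num) (by norm_num) rfl H hHGU
  unfold GenUQ at hg
  rcases hg with ⟨W, h0, hts, hle⟩ | ⟨W, h0, hnd, hdim, hle⟩ | ⟨D, hD, hle⟩ | ⟨hq, D, hD, hle⟩ |
    ⟨D, hD, hle⟩ | ⟨D, hD, hts, hle⟩ | ⟨K, hK, hadj, hle⟩ |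
    ⟨hq, e, P, f₁, f₂, hf₁, hf₂, ht, hle⟩ | ⟨F₀, r, P, hr, hro, hcard, hrat, hle⟩ |
    ⟨F₀, P, ζ, hcard, hζ, htr, hrat, hiso, hle⟩ | ⟨hqo, F₀, P, hcard, hrat, hle⟩ | hres
  · have htop : W ≠ ⊤ := by
      rintro rfl
      exact not_ts_top (by norm_num) hts
    exact Or.inl ⟨W, h0, hts, eq_inf_of_max hH hle (NU1 hF (by norm_num) W h0 htop)⟩
  · have htop : W ≠ ⊤ := by
      rintro rfl
      rw [finrank_top, Module.finrank_fin_fun] at hdim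
      omega
    exact Or.inr (Or.inl ⟨W, h0, hnd, hdim,
      eq_inf_of_max hH hle (NU1 hF (by norm_num) W h0 htop)⟩)
  · by_cases hq : 3 ≤ q
    · exact Or.inr (Or.inr (Or.inl ⟨hq, D, hD,
        eq_inf_of_max hH hle (NU2 hF (by norm_num) D hD)⟩))
    · have hq' : q = 2 := by omega
      exact (Cfsg.Agent.Lib.Helper65.SU6E1.E1 hF hq' H hH D hD hle).elim
  · exact Or.inr (Or.inr (Or.inr (Or.inl ⟨hq, D, hD,
      eq_inf_of_max hH hle (NU2Q hF (by norm_num) D hD.decomp (by norm_num))⟩)))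
  · exact Or.inr (Or.inr (Or.inr (Or.inr (Or.inl ⟨D, hD,
      eq_inf_of_max hH hle (NU2Q hF (by norm_num) D hD.decomp (by norm_num))⟩))))
  · exact Or.inr (Or.inr (Or.inr (Or.inr (Or.inr (Or.inl ⟨D, hD, hts,
      eq_inf_of_max hH hle (NU2Q hF (by norm_num) D hD (by norm_num))⟩)))))
  · by_cases hq : 3 ≤ q
    · exact Or.inr (Or.inr (Or.inr (Or.inr (Or.inr (Or.inr (Or.inl ⟨hq, K, hK, hadj,
        eq_inf_of_max hH hle (NU3 hF (by norm_num) 3 (by norm_num) K hK)⟩))))))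
    · have hq' : q = 2 := by omega
      subst hq'
      obtain ⟨F₀, P, ζ, hcard, hζ, htr, hrat, hiso, hle'⟩ := E2 hF H hHS K hK hadj hle
      exact Or.inr (Or.inr (Or.inr (Or.inr (Or.inr (Or.inr (Or.inr (Or.inr (Or.inr (Or.inl
        ⟨F₀, P, ζ, hcard, hζ, htr, hrat, hiso,
          eq_inf_of_max hH hle'
            (NU5 hF (by norm_num) F₀ (hne F₀ 2 Nat.prime_two hcard) P)⟩)))))))))
  · exact Or.inr (Or.inr (Or.inr (Or.inr (Or.inr (Or.inr (Or.inr (Or.inl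
      ⟨hq, e, P, f₁, f₂, hf₁, hf₂, ht,
        eq_inf_of_max hH hle (NU4Q hF (by norm_num) (by norm_num) (by norm_num) e P)⟩)))))))
  · exact Or.inr (Or.inr (Or.inr (Or.inr (Or.inr (Or.inr (Or.inr (Or.inr (Or.inl
      ⟨F₀, r, P, hr, hro, hcard, hrat,
        eq_inf_of_max hH hle (NU5 hF (by norm_num) F₀ (hne F₀ r hr hcard) P)⟩))))))))
  · exact Or.inr (Or.inr (Or.inr (Or.inr (Or.inr (Or.inr (Or.inr (Or.inr (Or.inr (Or.inl
      ⟨F₀, P, ζ, hcard, hζ, htr, hrat, hiso,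
        eq_inf_of_max hH hle (NU5 hF (by norm_num) F₀ (hne F₀ 2 Nat.prime_two hcard) P)⟩)))))))))
  · exact Or.inr (Or.inr (Or.inr (Or.inr (Or.inr (Or.inr (Or.inr (Or.inr (Or.inr (Or.inr
      (Or.inl ⟨hqo, F₀, P, hcard, hrat,
        eq_inf_of_max hH hle (NU5 hF (by norm_num) F₀ (hne F₀ 2 Nat.prime_two hcard) P)⟩))))))))))
  · exact Or.inr (Or.inr (Or.inr (Or.inr (Or.inr (Or.inr (Or.inr (Or.inr (Or.inr (Or.inr
      (Or.inr hres))))))))))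

end Cfsg.Agent.Lib.Helper49.SU6
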