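import Mathlib
import Cfsg.Prelude.Def_GeometricClasses
import Cfsg.Prelude.Def_LieClassical
import Cfsg.Agent.Lib.Helper49.SU6Defs
import Cfsg.Agent.Lib.Helper71.SUP0
import Cfsg.Agent.Lib.Helper10.SPPUNIQ
import Cfsg.Agent.Lib.Helper49.SU6XHSYM
import Cfsg.Agent.Lib.Helper49.SU6XKITA

/-!
# S5802 project SU6 (helper49), piece BAD

PLACEHOLDER: replace every `sorry` in this file (keep the statements and the namespace exactly;
auxiliary lemmas with fresh names prefixed `su6bad_` are fine; you may add imports of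
landed libraries).  Paper proof: see the job note.
-/

set_option autoImplicit false

namespace Cfsg.Agent.Lib.Helper49.SU6

open Matrix Cfsg.Geo

variable {F : Type*} [Field F] [Fintype F]

/-- BAD: some element of `SU_6(2)` does not preserve the root set. -/
theorem bad (hF : Fintype.card F = 2 ^ 2) (D : Fin 6 → Submodule F (Fin 6 → F))
    (d : Fin 6 → Fin 6 → F) (hd : OFrame D d) :
    ∃ s : GL (Fin 6) F, s ∈ Cfsg.GU 6 F 2 ⊓ specialLinear (Fin 6) F ∧
      ∃ x : Fin 6 → F, InR d x ∧ ¬ InR d (s.1 *ᵥ x) := by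
  sorry

end Cfsg.Agent.Lib.Helper49.SU6
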