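import Mathlib
import Cfsg.Prelude.Def_GeometricClasses
import Cfsg.Prelude.Def_LieClassical
import Cfsg.Agent.Lib.Helper49.SU6Defs
import Cfsg.Agent.Lib.Helper71.SUP0
import Cfsg.Agent.Lib.Helper10.SPPUNIQ

/-!
# S5802 project SU6 (helper49), piece COMB2

PLACEHOLDER: replace every `sorry` in this file (keep the statements and the namespace exactly;
auxiliary lemmas with fresh names prefixed `su6comb2_` are fine; you may add imports of
landed libraries).  Paper proof: see the job note.
-/

set_option autoImplicit false

namespace Cfsg.Agent.Lib.Helper49.SU6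

open Matrix Cfsg.Geo

variable {F : Type*} [Field F] [Fintype F]

/-- COMB2: the transvection with centre `Σ d_i` maps a root of the second kind to a root. -/
theorem comb2 (hF : Fintype.card F = 2 ^ 2) (c : Fin 6 → F) (hc : ∏ i, c i = 1) :
    RC (fun i => c i + ∑ j, c j) := by
  sorry

end Cfsg.Agent.Lib.Helper49.SU6
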