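import Mathlib
import Cfsg.Prelude.Def_GeometricClasses
import Cfsg.Prelude.Def_LieClassical
import Cfsg.Agent.Lib.Helper49.SU6Defs
import Cfsg.Agent.Lib.Helper71.SUP0
import Cfsg.Agent.Lib.Helper10.SPPUNIQ
import Cfsg.Agent.Lib.Helper49.SU6XKITA
import Cfsg.Agent.Lib.Helper49.SU6XCOORD
import Cfsg.Agent.Lib.Helper49.SU6XCOORDU

/-!
# S5802 project SU6 (helper49), piece DET9 (filled by helper74)

A norm-one element `z` of `K` (`z ^ 9 = 1`) of determinant 1 is a scalar: otherwise
`z ^ 3 = c • 1` with `c ≠ 1`, the six vectors `z ^ i u`, `z ^ i v` form a basis in which `z` is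
block diagonal with two companion blocks of determinant `c`, so `det z = c ^ 2 ≠ 1`.
-/

set_option autoImplicit false

namespace Cfsg.Agent.Lib.Helper49.SU6

open Matrix Cfsg.Geo

variable {F : Type*} [Field F] [Fintype F]

/-- the companion block of `X ^ 3 - c`. -/
private def su6det9_C3 (c : F) : Matrix (Fin 3) (Fin 3) F := !![0, 0, c; 1, 0, 0; 0, 1, 0]

private theorem su6det9_detC3 (c : F) : (su6det9_C3 c).det = c := by
  simp [su6det9_C3, Matrix.det_fin_three]

/-- scalar matrices vanish only for the zero scalar. -/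
private theorem su6det9_smul_one_eq_zero (e : F)
    (h : e • (1 : Matrix (Fin 6) (Fin 6) F) = 0) : e = 0 := by
  have h3 := congrFun (congrFun h 0) 0
  simpa using h3

/-- DET9: a norm-one element of `K` of determinant 1 is a scalar. -/
theorem det9 (hF : Fintype.card F = 2 ^ 2) (K : Subalgebra F (Matrix (Fin 6) (Fin 6) F))
    (hK : IsFieldSubalgebra 3 K) (hadj : IsAdjointClosedFor (Cfsg.hermForm 6 F 2) K)
    (u v : Fin 6 → F) (hf : Frame K u v) (z : Matrix (Fin 6) (Fin 6) F) (hz : z ∈ K)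
    (h9 : z ^ 9 = 1) (hdet : z.det = 1) : ∃ c : F, z = c • 1 := by
  classical
  by_contra hns
  -- `z ^ 3 = c • 1`
  have hz3K : z ^ 3 ∈ K := K.pow_mem hz 3
  obtain ⟨c, hc⟩ := kit_fix4 hF K hK (z ^ 3) hz3K (by
    rw [← pow_mul]
    calc z ^ (3 * 4) = z ^ 9 * z ^ 3 := by rw [← pow_add]
      _ = z ^ 3 := by rw [h9, one_mul])
  have hc3 : c ^ 3 = 1 := by
    have h1 : (z ^ 3) ^ 3 = 1 := by rw [← pow_mul]; exact h9
    rw [hc] at h1
    have h2 : (c • (1 : Matrix (Fin 6) (Fin 6) F)) ^ 3 = (c ^ 3) • (1 : Matrix (Fin 6) (Fin 6) F) := by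
      rw [smul_pow, one_pow]
    rw [h2] at h1
    have h3 := congrFun (congrFun h1 0) 0
    simpa using h3
  have hc1 : c ≠ 1 := by
    intro h
    apply hns
    apply kit_fix4 hF K hK z hz
    calc z ^ 4 = z ^ 3 * z := by rw [pow_succ]
      _ = z := by rw [hc, h, one_smul, one_mul]
  have hc0 : c ≠ 0 := by
    intro h; rw [h] at hc3; simp at hc3
  have htwo : (2 : F) = 0 := kit_two hF
  have hneg : ∀ a : F, -a = a := by
    intro a
    have h1 : a + a = 0 := by rw [← two_mul, htwo, zero_mul]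
    exact neg_eq_of_add_eq_zero_left h1
  have hcube : ∀ b : F, b ≠ 0 → b ^ 3 = 1 := by
    intro b hb
    have h4 := kit_F4 hF b
    have h5 : b * b ^ 3 = b * 1 := by rw [mul_one, ← pow_succ', h4]
    exact mul_left_cancel₀ hb h5
  -- linear independence of `1, z, z ^ 2`
  have hind : ∀ a b d : F,
      a • (1 : Matrix (Fin 6) (Fin 6) F) + b • z + d • z ^ 2 = 0 → a = 0 ∧ b = 0 ∧ d = 0 := by
    intro a b d h
    have hd : d = 0 := by
      by_contra hd
      have hz2 : z ^ 2 = (-(d⁻¹ * a)) • (1 : Matrix (Fin 6) (Fin 6) F) + (-(d⁻¹ * b)) • z := by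
        have h1 : d • z ^ 2 = -(a • (1 : Matrix (Fin 6) (Fin 6) F) + b • z) := by
          rw [eq_neg_iff_add_eq_zero, add_comm]; exact h
        have h2 : z ^ 2 = d⁻¹ • (d • z ^ 2) := by rw [smul_smul, inv_mul_cancel₀ hd, one_smul]
        rw [h2, h1]
        simp only [smul_neg, smul_add, smul_smul, neg_smul, neg_add]
      set a' := -(d⁻¹ * a) with ha'
      set b' := -(d⁻¹ * b) with hb'
      have hz3 : z ^ 3 = (a' + b' ^ 2) • z + (a' * b') • (1 : Matrix (Fin 6) (Fin 6) F) := by
        calc z ^ 3 = z * z ^ 2 := by rw [pow_succ']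
          _ = z * (a' • (1 : Matrix (Fin 6) (Fin 6) F) + b' • z) := by rw [hz2]
          _ = a' • z + b' • z ^ 2 := by
              rw [mul_add, mul_smul_comm, mul_one, mul_smul_comm, ← pow_two]
          _ = a' • z + b' • (a' • (1 : Matrix (Fin 6) (Fin 6) F) + b' • z) := by rw [hz2]
          _ = (a' + b' ^ 2) • z + (a' * b') • (1 : Matrix (Fin 6) (Fin 6) F) := by
              rw [smul_add, smul_smul, smul_smul, add_smul, pow_two, mul_comm b' a']
              abel
      rw [hc] at hz3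
      -- `(a' + b'^2) • z = (c - a' b') • 1`
      have h5 : (a' + b' ^ 2) • z = (c - a' * b') • (1 : Matrix (Fin 6) (Fin 6) F) := by
        rw [sub_smul, hz3]; abel
      by_cases h6 : a' + b' ^ 2 = 0
      · rw [h6, zero_smul] at h5
        have h7 : c - a' * b' = 0 := su6det9_smul_one_eq_zero _ h5.symm
        have h8 : a' = -(b' ^ 2) := eq_neg_of_add_eq_zero_left h6
        have h9' : c = -(b' ^ 3) := by
          have : c = a' * b' := sub_eq_zero.mp h7
          rw [this, h8]; ring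
        rw [hneg] at h9'
        by_cases hb0 : b' = 0
        · rw [hb0] at h9'; simp at h9'; exact hc0 h9'
        · rw [hcube b' hb0] at h9'; exact hc1 h9'
      · apply hns
        refine ⟨(a' + b' ^ 2)⁻¹ * (c - a' * b'), ?_⟩
        calc z = (a' + b' ^ 2)⁻¹ • ((a' + b' ^ 2) • z) := by
              rw [smul_smul, inv_mul_cancel₀ h6, one_smul]
          _ = ((a' + b' ^ 2)⁻¹ * (c - a' * b')) • (1 : Matrix (Fin 6) (Fin 6) F) := by
              rw [h5, smul_smul]
    rw [hd, zero_smul, add_zero] at h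
    have hb : b = 0 := by
      by_contra hb
      apply hns
      refine ⟨-(b⁻¹ * a), ?_⟩
      have h1 : b • z = -(a • (1 : Matrix (Fin 6) (Fin 6) F)) := by
        rw [eq_neg_iff_add_eq_zero, add_comm]; exact h
      calc z = b⁻¹ • (b • z) := by rw [smul_smul, inv_mul_cancel₀ hb, one_smul]
        _ = (-(b⁻¹ * a)) • (1 : Matrix (Fin 6) (Fin 6) F) := by
            rw [h1, smul_neg, smul_smul, neg_smul]
    rw [hb, zero_smul, add_zero] at h
    exact ⟨su6det9_smul_one_eq_zero a h, hb, hd⟩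
  -- the basis
  let col : Fin 3 ⊕ Fin 3 → (Fin 6 → F) :=
    Sum.elim (fun k => z ^ (k : ℕ) *ᵥ u) (fun k => z ^ (k : ℕ) *ᵥ v)
  let C : Matrix (Fin 3 ⊕ Fin 3) (Fin 3 ⊕ Fin 3) F :=
    Matrix.fromBlocks (su6det9_C3 c) 0 0 (su6det9_C3 c)
  have hz3u : ∀ x : Fin 6 → F, z *ᵥ (z ^ 2 *ᵥ x) = c • x := by
    intro x
    rw [Matrix.mulVec_mulVec, ← pow_succ', hc, Matrix.smul_mulVec, Matrix.one_mulVec]
  have hcol : ∀ m, z *ᵥ col m = ∑ m', C m' m • col m' := by
    intro m
    rcases m with k | k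
    · fin_cases k
      · simp [col, C, su6det9_C3, Fintype.sum_sum_type, Fin.sum_univ_three]
      · simp [col, C, su6det9_C3, Fintype.sum_sum_type, Fin.sum_univ_three, Matrix.mulVec_mulVec,
          pow_two]
      · simp [col, C, su6det9_C3, Fintype.sum_sum_type, Fin.sum_univ_three, hz3u]
    · fin_cases k
      · simp [col, C, su6det9_C3, Fintype.sum_sum_type, Fin.sum_univ_three]
      · simp [col, C, su6det9_C3, Fintype.sum_sum_type, Fin.sum_univ_three, Matrix.mulVec_mulVec,
          pow_two]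
      · simp [col, C, su6det9_C3, Fintype.sum_sum_type, Fin.sum_univ_three, hz3u]
  let e : Fin 3 ⊕ Fin 3 ≃ Fin 6 := finSumFinEquiv
  let Q : Matrix (Fin 6) (Fin 6) F := Matrix.of fun i j => col (e.symm j) i
  let C' : Matrix (Fin 6) (Fin 6) F := Matrix.reindex e e C
  have hQC : z * Q = Q * C' := by
    ext i j
    have h1 := congrFun (hcol (e.symm j)) i
    rw [Matrix.mul_apply, Matrix.mul_apply]
    have h2 : (∑ l, z i l * Q l j) = (z *ᵥ col (e.symm j)) i := by
      simp [Q, Matrix.mulVec, dotProduct]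
    have h3 : (∑ l, Q i l * C' l j) = ∑ m', C m' (e.symm j) * col m' i := by
      rw [← Equiv.sum_comp e]
      apply Finset.sum_congr rfl
      intro m' _
      simp [Q, C', mul_comm]
    rw [h2, h3, h1]
    simp [Finset.sum_apply]
  have hdetC : C'.det = c * c := by
    simp only [C', Matrix.det_reindex_self]
    rw [Matrix.det_fromBlocks_zero₁₂, su6det9_detC3]
  -- `Q` is invertible
  have hQw : ∀ w : Fin 6 → F, Q *ᵥ w =
      (w (e (Sum.inl 0)) • (1 : Matrix (Fin 6) (Fin 6) F) + w (e (Sum.inl 1)) • z +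
        w (e (Sum.inl 2)) • z ^ 2) *ᵥ u +
      (w (e (Sum.inr 0)) • (1 : Matrix (Fin 6) (Fin 6) F) + w (e (Sum.inr 1)) • z +
        w (e (Sum.inr 2)) • z ^ 2) *ᵥ v := by
    intro w
    ext i
    have h1 : (Q *ᵥ w) i = ∑ m', col m' i * w (e m') := by
      simp only [Matrix.mulVec, dotProduct]
      rw [← Equiv.sum_comp e]
      apply Finset.sum_congr rfl
      intro m' _
      simp [Q]
    rw [h1]
    simp only [Fintype.sum_sum_type, Fin.sum_univ_three, col, Sum.elim_inl, Sum.elim_inr,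
      Matrix.add_mulVec, Matrix.smul_mulVec, Matrix.one_mulVec, Pi.add_apply, Pi.smul_apply,
      smul_eq_mul, Fin.val_zero, Fin.val_one, Fin.val_two, pow_zero, pow_one]
    ring
  have hQinj : Function.Injective Q.mulVec := by
    intro w1 w2 h
    have h0 : Q *ᵥ (w1 - w2) = 0 := by rw [Matrix.mulVec_sub, h, sub_self]
    rw [hQw] at h0
    have hA : ∀ a b d : F, a • (1 : Matrix (Fin 6) (Fin 6) F) + b • z + d • z ^ 2 ∈ K :=
      fun a b d => K.add_mem (K.add_mem (K.smul_mem K.one_mem a) (K.smul_mem hz b))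
        (K.smul_mem (K.pow_mem hz 2) d)
    obtain ⟨hA0, hB0⟩ := coord_unique hF K hK hadj u v hf _ (hA _ _ _) _ (hA _ _ _) h0
    obtain ⟨h1, h2, h3⟩ := hind _ _ _ hA0
    obtain ⟨h4, h5, h6⟩ := hind _ _ _ hB0
    have hall : ∀ m', (w1 - w2) (e m') = 0 := by
      intro m'
      rcases m' with k | k
      · fin_cases k
        · exact h1
        · exact h2
        · exact h3
      · fin_cases k
        · exact h4
        · exact h5
        · exact h6
    have hzero : w1 - w2 = 0 := by
      ext j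
      have := hall (e.symm j)
      simpa using this
    exact sub_eq_zero.mp hzero
  have hQunit : IsUnit Q.det := by
    rw [← Matrix.isUnit_iff_isUnit_det]
    exact Matrix.mulVec_injective_iff_isUnit.mp hQinj
  have hdz : z.det = c * c := by
    have h1 : z.det * Q.det = Q.det * C'.det := by
      rw [← Matrix.det_mul, hQC, Matrix.det_mul]
    rw [hdetC, mul_comm] at h1
    exact mul_left_cancel₀ hQunit.ne_zero h1
  rw [hdet] at hdz
  apply hc1
  calc c = c * (c * c) := by rw [← hdz, mul_one]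
    _ = c ^ 3 := by ring
    _ = 1 := hc3

end Cfsg.Agent.Lib.Helper49.SU6
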