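import Mathlib
import Cfsg.Prelude.Def_GeometricClasses
import Cfsg.Prelude.Def_LieClassical
import Cfsg.Agent.Lib.Helper49.SU6Defs
import Cfsg.Agent.Lib.Helper71.SUP0
import Cfsg.Agent.Lib.Helper10.SPPUNIQ

/-!
# S5802 project SU6 (helper49), piece DETRAT

Filled by helper28 (job 4026).
-/

set_option autoImplicit false

namespace Cfsg.Agent.Lib.Helper49.SU6

open Matrix Cfsg.Geo

variable {F : Type*} [Field F] [Fintype F]

/-- DETRAT: an invertible matrix mapping `V0` into itself has determinant 1. -/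
theorem detrat (hF : Fintype.card F = 2 ^ 2) (K : Subalgebra F (Matrix (Fin 6) (Fin 6) F))
    (u v : Fin 6 → F) (F₁ : Subfield F) (hF₁ : ∀ x : F, x ∈ F₁ ↔ x ^ 2 = x)
    (B : GL (Fin 6) F) (hB : ∀ x : Fin 6 → F, x ∈ V0 K u v ↔ ∀ i, (B.1 *ᵥ x) i ∈ F₁)
    (g : GL (Fin 6) F) (hg : ∀ x ∈ V0 K u v, g.1 *ᵥ x ∈ V0 K u v) : g.1.det = 1 := by
  classical
  have hBB : B.1 * (B⁻¹ : GL (Fin 6) F).1 = 1 := by
    rw [← Units.val_mul, mul_inv_cancel, Units.val_one]
  have hBB' : (B⁻¹ : GL (Fin 6) F).1 * B.1 = 1 := by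
    rw [← Units.val_mul, inv_mul_cancel, Units.val_one]
  set M : Matrix (Fin 6) (Fin 6) F := B.1 * g.1 * (B⁻¹ : GL (Fin 6) F).1 with hM
  have hMent : ∀ i j, M i j ∈ F₁ := by
    intro i j
    have h1 : (B⁻¹ : GL (Fin 6) F).1 *ᵥ (Pi.single j 1) ∈ V0 K u v := by
      rw [hB]
      intro i'
      rw [Matrix.mulVec_mulVec, hBB, Matrix.one_mulVec]
      by_cases h : i' = j
      · subst h
        rw [Pi.single_eq_same]
        exact one_mem _
      · rw [Pi.single_eq_of_ne h]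
        exact zero_mem _
    have h2 := hg _ h1
    rw [hB] at h2
    have h3 := h2 i
    have h4 : M i j = (B.1 *ᵥ g.1 *ᵥ (B⁻¹ : GL (Fin 6) F).1 *ᵥ Pi.single j 1) i := by
      rw [Matrix.mulVec_mulVec, Matrix.mulVec_mulVec, Matrix.mulVec_single_one]
      rfl
    rw [h4]
    exact h3
  let M₀ : Matrix (Fin 6) (Fin 6) F₁ := fun i j => ⟨M i j, hMent i j⟩
  have hM₀ : M = M₀.map F₁.subtype := by
    ext i j
    rfl
  have hdet : M.det ∈ F₁ := by
    have h7 : (M₀.map F₁.subtype).det = F₁.subtype M₀.det :=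
      (RingHom.map_det F₁.subtype M₀).symm
    rw [hM₀, h7]
    exact (M₀.det).2
  have hdetg : M.det = g.1.det := by
    rw [hM, Matrix.det_mul, Matrix.det_mul, mul_comm, ← mul_assoc, ← Matrix.det_mul, hBB',
      Matrix.det_one, one_mul]
  rw [hdetg, hF₁] at hdet
  have hne : g.1.det ≠ 0 := by
    have h5 : IsUnit (g.1.det) := (Matrix.isUnit_iff_isUnit_det _).1 g.isUnit
    exact h5.ne_zero
  have h6 : g.1.det * (g.1.det - 1) = 0 := by
    rw [mul_sub, mul_one, ← sq, hdet, sub_self]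
  rcases mul_eq_zero.1 h6 with h | h
  · exact absurd h hne
  · exact sub_eq_zero.1 h

end Cfsg.Agent.Lib.Helper49.SU6
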