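import Mathlib
import Cfsg.Prelude.Def_GeometricClasses
import Cfsg.Prelude.Def_LieClassical
import Cfsg.Agent.Lib.Helper49.SU6Defs
import Cfsg.Agent.Lib.Helper71.SUP0
import Cfsg.Agent.Lib.Helper10.SPPUNIQ
import Cfsg.Agent.Lib.Helper49.SU6XHSYM

/-!
# S5802 project SU6 (helper49), piece FRAME

PLACEHOLDER: replace every `sorry` in this file (keep the statements and the namespace exactly;
auxiliary lemmas with fresh names prefixed `su6frame_` are fine; you may add imports of
landed libraries).  Paper proof: see the job note.
-/

set_option autoImplicit false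

namespace Cfsg.Agent.Lib.Helper49.SU6

open Matrix Cfsg.Geo

variable {F : Type*} [Field F] [Fintype F]

/-- FRAME: a non-degenerate decomposition into lines has an orthonormal frame (`q = 2`). -/
theorem frame_exists (hF : Fintype.card F = 2 ^ 2) (D : Fin 6 → Submodule F (Fin 6 → F))
    (hD : IsNondegenerateMDecomposition (Cfsg.hermForm 6 F 2) 1 D) :
    ∃ d : Fin 6 → Fin 6 → F, OFrame D d := by
  sorry

end Cfsg.Agent.Lib.Helper49.SU6
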