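import Mathlib
import Cfsg.Prelude.Def_GeometricClasses
import Cfsg.Prelude.Def_LieClassical
import Cfsg.Agent.Lib.Helper49.SU6Defs
import Cfsg.Agent.Lib.Helper71.SUP0
import Cfsg.Agent.Lib.Helper10.SPPUNIQ
import Cfsg.Agent.Lib.Helper49.SU6XKITA
import Cfsg.Agent.Lib.Helper49.SU6XKITC
import Cfsg.Agent.Lib.Helper49.SU6XHSYM
import Cfsg.Agent.Lib.Helper49.SU6XADJ8

/-!
# S5802 project SU6 (helper49), piece FSYM

Filled by helper87 (job 4018).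
-/

set_option autoImplicit false

namespace Cfsg.Agent.Lib.Helper49.SU6

open Matrix Cfsg.Geo

variable {F : Type*} [Field F] [Fintype F]

/-- FSYM: a hyperbolic pair is symmetric. -/
theorem frame_symm (hF : Fintype.card F = 2 ^ 2) (K : Subalgebra F (Matrix (Fin 6) (Fin 6) F))
    (hK : IsFieldSubalgebra 3 K) (hadj : IsAdjointClosedFor (Cfsg.hermForm 6 F 2) K)
    (u v : Fin 6 → F) (hf : Frame K u v) : Frame K v u := by
  refine ⟨hf.iso_v, hf.iso_u, ?_⟩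
  intro k hk
  have hk8 : k ^ 8 ∈ K := pow_mem hk 8
  -- `h u (k v) = h (k^8 u) v`
  have h1 : Cfsg.hermForm 6 F 2 ((k ^ 8) *ᵥ u) v = Cfsg.hermForm 6 F 2 u (k *ᵥ v) := by
    rw [adj8 hF K hK hadj (k ^ 8) hk8 u v, ← pow_mul]
    have e : k ^ (8 * 8) = k := kit_pow64 hF K hK k hk
    rw [e]
  have h2 : Cfsg.hermForm 6 F 2 (k *ᵥ v) u = Cfsg.hermForm 6 F 2 ((k ^ 8) *ᵥ u) v ^ 2 := by
    rw [hsym hF (k *ᵥ v) u, h1]
  obtain ⟨e, he⟩ := tr3_scalar hF K hK k hk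
  have h3 := hf.pair (k ^ 8) hk8
  rw [tr3_pow8 hF K hK k hk, he, smul_pow, one_pow] at h3
  -- h3 : c • 1 = e^2 • 1
  rw [h2, he]
  have h4 : (Cfsg.hermForm 6 F 2 ((k ^ 8) *ᵥ u) v ^ 2) • (1 : Matrix (Fin 6) (Fin 6) F) =
      (Cfsg.hermForm 6 F 2 ((k ^ 8) *ᵥ u) v • (1 : Matrix (Fin 6) (Fin 6) F)) ^ 2 := by
    rw [smul_pow, one_pow]
  rw [h4, h3, smul_pow, one_pow, ← pow_mul]
  have h5 : e ^ (2 * 2) = e := kit_F4 hF e
  rw [h5]

/-- the `F_8`-form does not depend on the order of the pair. -/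
theorem V0_symm (hF : Fintype.card F = 2 ^ 2) (K : Subalgebra F (Matrix (Fin 6) (Fin 6) F))
    (u v : Fin 6 → F) : V0 K v u = V0 K u v := by
  ext x
  constructor
  · rintro ⟨a, ha, b, hb, rfl⟩
    exact ⟨b, hb, a, ha, add_comm _ _⟩
  · rintro ⟨a, ha, b, hb, rfl⟩
    exact ⟨b, hb, a, ha, add_comm _ _⟩

/-- the stabiliser does not depend on the order of the pair. -/
theorem Lgrp_symm (hF : Fintype.card F = 2 ^ 2) (K : Subalgebra F (Matrix (Fin 6) (Fin 6) F))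
    (u v : Fin 6 → F) : Lgrp K v u = Lgrp K u v := by
  ext g
  rw [mem_Lgrp, mem_Lgrp, V0_symm hF K u v]

end Cfsg.Agent.Lib.Helper49.SU6
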