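import Mathlib
import Cfsg.Prelude.Def_GeometricClasses
import Cfsg.Prelude.Def_LieClassical
import Cfsg.Agent.Lib.Helper49.SU6Defs
import Cfsg.Agent.Lib.Helper71.SUP0
import Cfsg.Agent.Lib.Helper10.SPPUNIQ

/-!
# S5802 project SU6 (helper49), piece MONO

PLACEHOLDER: replace every `sorry` in this file (keep the statements and the namespace exactly;
auxiliary lemmas with fresh names prefixed `su6mono_` are fine; you may add imports of
landed libraries).  Paper proof: see the job note.
-/

set_option autoImplicit false

namespace Cfsg.Agent.Lib.Helper49.SU6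

open Matrix Cfsg.Geo

variable {F : Type*} [Field F] [Fintype F]

/-- MONO: an element of determinant 1 stabilising the decomposition is monomial in the frame,
with product of the coefficients equal to 1. -/
theorem mono (hF : Fintype.card F = 2 ^ 2) (D : Fin 6 → Submodule F (Fin 6 → F))
    (d : Fin 6 → Fin 6 → F) (hd : OFrame D d) (g : GL (Fin 6) F)
    (hg : g ∈ decompositionStabilizer D) (hdet : g ∈ specialLinear (Fin 6) F) :
    ∃ (σ : Equiv.Perm (Fin 6)) (l : Fin 6 → F),
      (∀ i, g.1 *ᵥ d i = l i • d (σ i)) ∧ ∏ i, l i = 1 := by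
  sorry

end Cfsg.Agent.Lib.Helper49.SU6
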