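import Mathlib
import Cfsg.Prelude.Def_GeometricClasses
import Cfsg.Prelude.Def_LieClassical
import Cfsg.Agent.Lib.Helper49.SU6Defs
import Cfsg.Agent.Lib.Helper71.SUP0
import Cfsg.Agent.Lib.Helper10.SPPUNIQ
import Cfsg.Agent.Lib.Helper49.SU6XMONO
import Cfsg.Agent.Lib.Helper49.SU6XHSYM

/-!
# S5802 project SU6 (helper49), piece HINV

PLACEHOLDER: replace every `sorry` in this file (keep the statements and the namespace exactly;
auxiliary lemmas with fresh names prefixed `su6hinv_` are fine; you may add imports of
landed libraries).  Paper proof: see the job note.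
-/

set_option autoImplicit false

namespace Cfsg.Agent.Lib.Helper49.SU6

open Matrix Cfsg.Geo

variable {F : Type*} [Field F] [Fintype F]

/-- HINV: the frame stabiliser of determinant 1 preserves the root set. -/
theorem hinv (hF : Fintype.card F = 2 ^ 2) (D : Fin 6 → Submodule F (Fin 6 → F))
    (d : Fin 6 → Fin 6 → F) (hd : OFrame D d) (g : GL (Fin 6) F)
    (hg : g ∈ decompositionStabilizer D) (hdet : g ∈ specialLinear (Fin 6) F) :
    ∀ x : Fin 6 → F, InR d x → InR d (g.1 *ᵥ x) := by
  sorry

end Cfsg.Agent.Lib.Helper49.SU6
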