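import Mathlib
import Cfsg.Prelude.Def_GeometricClasses
import Cfsg.Prelude.Def_LieClassical
import Cfsg.Agent.Lib.Helper49.SU6Defs
import Cfsg.Agent.Lib.Helper71.SUP0
import Cfsg.Agent.Lib.Helper10.SPPUNIQ
import Cfsg.Agent.Lib.Helper49.SU6XKITA
import Cfsg.Agent.Lib.Helper49.SU6XKITB
import Cfsg.Agent.Lib.Helper49.SU6XKITC
import Cfsg.Agent.Lib.Helper49.SU6XCOORD
import Cfsg.Agent.Lib.Helper49.SU6XCOORDU
import Cfsg.Agent.Lib.Helper49.SU6XFORMULA

/-!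
# S5802 project SU6 (helper49), piece ISOSTR

Filled by helper68.  Paper proof: job note 2327, section ISOSTR.
-/

set_option autoImplicit false

namespace Cfsg.Agent.Lib.Helper49.SU6

open Matrix Cfsg.Geo

variable {F : Type*} [Field F] [Fintype F]

/-- ISOSTR: every `K`-isotropic vector is a `K`-multiple of a vector of `V0`. -/
theorem isostr (hF : Fintype.card F = 2 ^ 2) (K : Subalgebra F (Matrix (Fin 6) (Fin 6) F))
    (hK : IsFieldSubalgebra 3 K) (hadj : IsAdjointClosedFor (Cfsg.hermForm 6 F 2) K)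
    (u v : Fin 6 → F) (hf : Frame K u v) :
    ∀ x : Fin 6 → F, (∀ k ∈ K, Cfsg.hermForm 6 F 2 (k *ᵥ x) x = 0) →
      ∃ z ∈ K, ∃ w ∈ V0 K u v, x = z *ᵥ w := by
  intro x hx
  obtain ⟨p, hp, r, hr, hxpr⟩ := coord_ex hF K hK hadj u v hf x
  subst hxpr
  have hcommK : ∀ a ∈ K, ∀ b ∈ K, a * b = b * a := hK.comm
  -- the `K`-hermitian norm of `x` vanishes
  have hw : p * r ^ 8 + r * p ^ 8 = 0 := by
    apply tr3_nondeg hF K hK _
      (K.add_mem (K.mul_mem hp (K.pow_mem hr 8)) (K.mul_mem hr (K.pow_mem hp 8)))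
    intro k hk
    have h1 := formula hF K hK hadj u v hf (k * p) (K.mul_mem hk hp) (k * r) (K.mul_mem hk hr)
      p hp r hr
    have h2 : (k * p) *ᵥ u + (k * r) *ᵥ v = k *ᵥ (p *ᵥ u + r *ᵥ v) := by
      rw [Matrix.mulVec_add, Matrix.mulVec_mulVec, Matrix.mulVec_mulVec]
    rw [h2, hx k hk, zero_smul] at h1
    have h3 : k * (p * r ^ 8 + r * p ^ 8) = k * p * r ^ 8 + k * r * p ^ 8 := by
      rw [mul_add, mul_assoc, mul_assoc]
    rw [h3]
    exact h1.symm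
  have hpr : p * r ^ 8 = r * p ^ 8 := by
    have h1 : p * r ^ 8 = p * r ^ 8 + (r * p ^ 8 + r * p ^ 8) := by
      rw [kit_add_self hF, add_zero]
    rw [h1, ← add_assoc, hw, zero_add]
  by_cases hr0 : r = 0
  · subst hr0
    refine ⟨p, hp, (1 : Matrix (Fin 6) (Fin 6) F) *ᵥ u + (0 : Matrix (Fin 6) (Fin 6) F) *ᵥ v,
      ⟨1, k0_one K, 0, k0_zero K, rfl⟩, ?_⟩
    simp
  · have hr9 : r ^ 9 ∈ K0 K := k0_of_pow9 hF K hK r hr
    have hr9ne : r ^ 9 ≠ 0 := by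
      intro h0
      obtain ⟨r', hr', h1, h2⟩ := kit_inv K hK r hr hr0
      have h3 : (r * r') ^ 9 = r ^ 9 * r' ^ 9 :=
        (show Commute r r' from hcommK r hr r' hr').mul_pow 9
      rw [h1, one_pow, h0, zero_mul] at h3
      exact one_ne_zero h3
    obtain ⟨q, hq, hq1, hq2⟩ := k0_inv K hK (r ^ 9) hr9 hr9ne
    have h64 : (r ^ 8) ^ 8 = r := by
      rw [← pow_mul]
      exact kit_pow64 hF K hK r hr
    have he0 : p * r ^ 8 ∈ K0 K := by
      refine ⟨K.mul_mem hp (K.pow_mem hr 8), ?_⟩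
      have hc : Commute p (r ^ 8) := hcommK p hp _ (K.pow_mem hr 8)
      rw [hc.mul_pow, h64, hcommK _ (K.pow_mem hp 8) r hr]
      exact hpr.symm
    have he : p * r ^ 8 * q ∈ K0 K := k0_mul K hK _ he0 q hq
    have hqK : q ∈ K := hq.1
    have hpe : r * (p * r ^ 8 * q) = p := by
      rw [hcommK r hr _ he.1]
      calc p * r ^ 8 * q * r = p * (r ^ 8 * (q * r)) := by simp only [mul_assoc]
        _ = p * (r ^ 8 * (r * q)) := by rw [hcommK q hqK r hr]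
        _ = p * (r ^ 9 * q) := by rw [← mul_assoc (r ^ 8), ← pow_succ]
        _ = p := by rw [hq1, mul_one]
    refine ⟨r, hr, (p * r ^ 8 * q) *ᵥ u + (1 : Matrix (Fin 6) (Fin 6) F) *ᵥ v,
      ⟨_, he, 1, k0_one K, rfl⟩, ?_⟩
    rw [Matrix.mulVec_add, Matrix.mulVec_mulVec, Matrix.mulVec_mulVec, hpe, mul_one]

end Cfsg.Agent.Lib.Helper49.SU6
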