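import Mathlib
import Cfsg.Prelude.Def_GeometricClasses
import Cfsg.Prelude.Def_LieClassical
import Cfsg.Agent.Lib.Helper49.SU6Defs
import Cfsg.Agent.Lib.Helper71.SUP0
import Cfsg.Agent.Lib.Helper10.SPPUNIQ
import Cfsg.Agent.Lib.Helper49.SU6XKITA
import Cfsg.Agent.Lib.Helper49.SU6XKITB
import Cfsg.Agent.Lib.Helper49.SU6XKITC
import Cfsg.Agent.Lib.Helper49.SU6XV0KIT
import Cfsg.Agent.Lib.Helper49.SU6XISOSTR
import Cfsg.Agent.Lib.Helper49.SU6XPAIRZ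

/-!
# S5802 project SU6 (helper49), piece IMAGE

Proved by helper32 (job board).  For `k ∈ K` the conjugate `g⁻¹ k g` lies in `K` (and in `K0`
when `k ∈ K0`), so `g u`, `g v` are `K`-isotropic; ISOSTR writes them as `z₁ w₁`, `z₂ w₂` and
PAIRZ gives `z₂ = e z₁` with `e ∈ K0`.
-/

set_option autoImplicit false

namespace Cfsg.Agent.Lib.Helper49.SU6

open Matrix Cfsg.Geo

variable {F : Type*} [Field F] [Fintype F]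

/-- IMAGE: an element of `N(K) ∩ GU` maps `V0` into a `K`-multiple of `V0`. -/
theorem image (hF : Fintype.card F = 2 ^ 2) (K : Subalgebra F (Matrix (Fin 6) (Fin 6) F))
    (hK : IsFieldSubalgebra 3 K) (hadj : IsAdjointClosedFor (Cfsg.hermForm 6 F 2) K)
    (u v : Fin 6 → F) (hf : Frame K u v) (g : GL (Fin 6) F) (hgU : g ∈ Cfsg.GU 6 F 2)
    (hgN : g ∈ subalgebraNormalizer K) :
    ∃ z ∈ K, z ≠ 0 ∧ ∀ x ∈ V0 K u v, ∃ y ∈ V0 K u v, g.1 *ᵥ x = z *ᵥ y := by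
  have hGGi : g.1 * (g⁻¹ : GL (Fin 6) F).1 = 1 := Units.mul_inv g
  have hGiG : (g⁻¹ : GL (Fin 6) F).1 * g.1 = 1 := Units.inv_mul g
  have hN : ∀ k : Matrix (Fin 6) (Fin 6) F,
      k ∈ K ↔ g.1 * k * (g⁻¹ : GL (Fin 6) F).1 ∈ K := hgN
  have hU : ∀ x y : Fin 6 → F, Cfsg.hermForm 6 F 2 (g.1 *ᵥ x) (g.1 *ᵥ y)
      = Cfsg.hermForm 6 F 2 x y := hgU
  have hconjK : ∀ k ∈ K, (g⁻¹ : GL (Fin 6) F).1 * k * g.1 ∈ K := by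
    intro k hk
    rw [hN ((g⁻¹ : GL (Fin 6) F).1 * k * g.1)]
    have h1 : g.1 * ((g⁻¹ : GL (Fin 6) F).1 * k * g.1) * (g⁻¹ : GL (Fin 6) F).1 = k := by
      calc g.1 * ((g⁻¹ : GL (Fin 6) F).1 * k * g.1) * (g⁻¹ : GL (Fin 6) F).1
          = (g.1 * (g⁻¹ : GL (Fin 6) F).1) * k * (g.1 * (g⁻¹ : GL (Fin 6) F).1) := by
            simp only [mul_assoc]
        _ = k := by rw [hGGi, one_mul, mul_one]
    rw [h1]
    exact hk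
  have hconjK' : ∀ k ∈ K, g.1 * k * (g⁻¹ : GL (Fin 6) F).1 ∈ K := fun k hk => (hN k).1 hk
  have hconj0 : ∀ k ∈ K0 K, (g⁻¹ : GL (Fin 6) F).1 * k * g.1 ∈ K0 K := by
    rintro k ⟨hk, hk8⟩
    refine ⟨hconjK k hk, ?_⟩
    rw [Units.conj_pow', hk8]
  have hconj0' : ∀ k ∈ K0 K, g.1 * k * (g⁻¹ : GL (Fin 6) F).1 ∈ K0 K := by
    rintro k ⟨hk, hk8⟩
    refine ⟨hconjK' k hk, ?_⟩
    rw [Units.conj_pow, hk8]
  have hA : ∀ (k : Matrix (Fin 6) (Fin 6) F) (x : Fin 6 → F),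
      k *ᵥ (g.1 *ᵥ x) = g.1 *ᵥ (((g⁻¹ : GL (Fin 6) F).1 * k * g.1) *ᵥ x) := by
    intro k x
    rw [Matrix.mulVec_mulVec, Matrix.mulVec_mulVec]
    have h1 : g.1 * ((g⁻¹ : GL (Fin 6) F).1 * k * g.1) = k * g.1 := by
      rw [← mul_assoc, ← mul_assoc, hGGi, one_mul]
    rw [h1]
  have hform : ∀ (k : Matrix (Fin 6) (Fin 6) F) (x y : Fin 6 → F),
      Cfsg.hermForm 6 F 2 (k *ᵥ (g.1 *ᵥ x)) (g.1 *ᵥ y)
        = Cfsg.hermForm 6 F 2 (((g⁻¹ : GL (Fin 6) F).1 * k * g.1) *ᵥ x) y := by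
    intro k x y
    rw [hA, hU]
  have hB : ∀ (a : Matrix (Fin 6) (Fin 6) F) (x : Fin 6 → F),
      g.1 *ᵥ (a *ᵥ x) = (g.1 * a * (g⁻¹ : GL (Fin 6) F).1) *ᵥ (g.1 *ᵥ x) := by
    intro a x
    rw [Matrix.mulVec_mulVec, Matrix.mulVec_mulVec]
    have h1 : g.1 * a * (g⁻¹ : GL (Fin 6) F).1 * g.1 = g.1 * a := by
      rw [mul_assoc, hGiG, mul_one]
    rw [h1]
  have hisoU : ∀ k ∈ K, Cfsg.hermForm 6 F 2 (k *ᵥ (g.1 *ᵥ u)) (g.1 *ᵥ u) = 0 := by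
    intro k hk
    rw [hform]
    exact hf.iso_u _ (hconjK k hk)
  have hisoV : ∀ k ∈ K, Cfsg.hermForm 6 F 2 (k *ᵥ (g.1 *ᵥ v)) (g.1 *ᵥ v) = 0 := by
    intro k hk
    rw [hform]
    exact hf.iso_v _ (hconjK k hk)
  obtain ⟨z1, hz1K, w1, hw1, hgu⟩ := isostr hF K hK hadj u v hf (g.1 *ᵥ u) hisoU
  obtain ⟨z2, hz2K, w2, hw2, hgv⟩ := isostr hF K hK hadj u v hf (g.1 *ᵥ v) hisoV
  obtain ⟨hu0, -⟩ := frame_ne hF K hK u v hf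
  have hz1 : z1 ≠ 0 := by
    intro hz
    rw [hz, Matrix.zero_mulVec] at hgu
    apply hu0
    have h1 : (g⁻¹ : GL (Fin 6) F).1 *ᵥ (g.1 *ᵥ u) = u := by
      rw [Matrix.mulVec_mulVec, hGiG, Matrix.one_mulVec]
    rw [← h1, hgu, Matrix.mulVec_zero]
  have hsc : ∀ c d : F, c • (1 : Matrix (Fin 6) (Fin 6) F) = d • 1 → c = d := by
    intro c d h
    have h1 := congrFun (congrFun h 0) 0
    simpa using h1
  have hp1 : ∀ k ∈ K0 K, Cfsg.hermForm 6 F 2 (k *ᵥ (z1 *ᵥ w1)) (z2 *ᵥ w2) ^ 2 =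
      Cfsg.hermForm 6 F 2 (k *ᵥ (z1 *ᵥ w1)) (z2 *ᵥ w2) := by
    intro k hk
    rw [← hgu, ← hgv, hform]
    have hk' := hconj0 k hk
    obtain ⟨c, hc2, hc⟩ := tr3_K0 hF K hK _ hk'
    have hpair := hf.pair _ hk'.1
    rw [hc] at hpair
    rw [hsc _ _ hpair, hc2]
  have hp2 : ∃ k ∈ K, Cfsg.hermForm 6 F 2 (k *ᵥ (z1 *ᵥ w1)) (z2 *ᵥ w2) ≠ 0 := by
    obtain ⟨k0, hk0K, hk0⟩ : ∃ k0 ∈ K, tr3 k0 ≠ 0 := by
      by_contra hcon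
      push Not at hcon
      have h1 := tr3_nondeg hF K hK 1 (one_mem K) (fun k hk => by rw [mul_one]; exact hcon k hk)
      exact one_ne_zero h1
    refine ⟨g.1 * k0 * (g⁻¹ : GL (Fin 6) F).1, hconjK' k0 hk0K, ?_⟩
    rw [← hgu, ← hgv, hform]
    have h2 : (g⁻¹ : GL (Fin 6) F).1 * (g.1 * k0 * (g⁻¹ : GL (Fin 6) F).1) * g.1 = k0 := by
      calc (g⁻¹ : GL (Fin 6) F).1 * (g.1 * k0 * (g⁻¹ : GL (Fin 6) F).1) * g.1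
          = ((g⁻¹ : GL (Fin 6) F).1 * g.1) * k0 * ((g⁻¹ : GL (Fin 6) F).1 * g.1) := by
            simp only [mul_assoc]
        _ = k0 := by rw [hGiG, one_mul, mul_one]
    rw [h2]
    intro h0
    have hpair := hf.pair k0 hk0K
    rw [h0, zero_smul] at hpair
    exact hk0 hpair.symm
  obtain ⟨e, he, hz2⟩ := pairz hF K hK hadj u v hf z1 hz1K z2 hz2K w1 hw1 w2 hw2 hz1 hp1 hp2
  refine ⟨z1, hz1K, hz1, ?_⟩
  rintro x ⟨a, ha, b, hb, rfl⟩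
  have ha' := hconj0' a ha
  have hb' := hconj0' b hb
  refine ⟨(g.1 * a * (g⁻¹ : GL (Fin 6) F).1) *ᵥ w1
    + ((g.1 * b * (g⁻¹ : GL (Fin 6) F).1) * e) *ᵥ w2, ?_, ?_⟩
  · exact v0_add hF K hK u v _ (v0_smul K hK u v _ ha' _ hw1) _
      (v0_smul K hK u v _ (k0_mul K hK _ hb' _ he) _ hw2)
  · have h1 : g.1 *ᵥ (a *ᵥ u) = z1 *ᵥ ((g.1 * a * (g⁻¹ : GL (Fin 6) F).1) *ᵥ w1) := by
      rw [hB, hgu, Matrix.mulVec_mulVec, Matrix.mulVec_mulVec, hK.comm _ ha'.1 _ hz1K]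
    have h2 : g.1 *ᵥ (b *ᵥ v)
        = z1 *ᵥ (((g.1 * b * (g⁻¹ : GL (Fin 6) F).1) * e) *ᵥ w2) := by
      rw [hB, hgv, hz2, Matrix.mulVec_mulVec, Matrix.mulVec_mulVec]
      have h3 : g.1 * b * (g⁻¹ : GL (Fin 6) F).1 * (e * z1)
          = z1 * (g.1 * b * (g⁻¹ : GL (Fin 6) F).1 * e) := by
        rw [← mul_assoc, hK.comm z1 hz1K _ (mul_mem hb'.1 he.1)]
      rw [h3]
    rw [Matrix.mulVec_add, h1, h2, Matrix.mulVec_add]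

end Cfsg.Agent.Lib.Helper49.SU6
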