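import Mathlib
import Cfsg.Prelude.Def_GeometricClasses
import Cfsg.Prelude.Def_LieClassical
import Cfsg.Agent.Lib.Helper49.SU6Defs
import Cfsg.Agent.Lib.Helper71.SUP0
import Cfsg.Agent.Lib.Helper10.SPPUNIQ
import Cfsg.Agent.Lib.Helper49.SU6XMEMLIN
import Cfsg.Agent.Lib.Helper49.SU6XFSYM

/-!
# S5802 project SU6 (helper49), piece MEMLIN2

Filled by helper82 (job 4029): `memlin` for the pair `(v, u)` (`frame_symm`), then `Lgrp_symm`.
-/

set_option autoImplicit false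

namespace Cfsg.Agent.Lib.Helper49.SU6

open Matrix Cfsg.Geo

variable {F : Type*} [Field F] [Fintype F]

/-- MEMLIN2: the `K`-linear elements `u ↦ u + a v, v ↦ v` (`a ∈ K0`) lie in `Lgrp`. -/
theorem memlin2 (hF : Fintype.card F = 2 ^ 2) (K : Subalgebra F (Matrix (Fin 6) (Fin 6) F))
    (hK : IsFieldSubalgebra 3 K) (hadj : IsAdjointClosedFor (Cfsg.hermForm 6 F 2) K)
    (u v : Fin 6 → F) (hf : Frame K u v) :
    ∀ a ∈ K0 K, ∃ g ∈ Lgrp K u v, ∀ p ∈ K, ∀ r ∈ K,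
      g.1 *ᵥ (p *ᵥ u + r *ᵥ v) = p *ᵥ u + (r + a * p) *ᵥ v := by
  intro a ha
  obtain ⟨g, hg, hgf⟩ := memlin hF K hK hadj v u (frame_symm hF K hK hadj u v hf) a ha
  refine ⟨g, ?_, fun p hp r hr => ?_⟩
  · rw [← Lgrp_symm hF K u v]
    exact hg
  · have h1 := hgf r hr p hp
    rw [add_comm (p *ᵥ u) (r *ᵥ v), h1, add_comm]

end Cfsg.Agent.Lib.Helper49.SU6
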