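import Mathlib
import Cfsg.Prelude.Def_GeometricClasses
import Cfsg.Prelude.Def_LieClassical
import Cfsg.Agent.Lib.Helper49.SU6Defs
import Cfsg.Agent.Lib.Helper71.SUP0
import Cfsg.Agent.Lib.Helper10.SPPUNIQ
import Cfsg.Agent.Lib.Helper49.SU6XKITA
import Cfsg.Agent.Lib.Helper49.SU6XKITB
import Cfsg.Agent.Lib.Helper49.SU6XCOORD
import Cfsg.Agent.Lib.Helper49.SU6XCOORDU
import Cfsg.Agent.Lib.Helper49.SU6XMEMLIN
import Cfsg.Agent.Lib.Helper49.SU6XMEMLIN2

/-!
# S5802 project SU6 (helper49), piece IRR (filled by helper97)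

`Lgrp` acts irreducibly on `F^6`.
-/

set_option autoImplicit false

namespace Cfsg.Agent.Lib.Helper49.SU6

open Matrix Cfsg.Geo

variable {F : Type*} [Field F] [Fintype F]

/-- from `K0` to `K`: a submodule containing `(a * m) y` for all `a ∈ K0` contains `(k * m) y`
for all `k ∈ K`. -/
theorem su6irr_ext (hF : Fintype.card F = 2 ^ 2) (K : Subalgebra F (Matrix (Fin 6) (Fin 6) F))
    (hK : IsFieldSubalgebra 3 K) (W : Submodule F (Fin 6 → F))
    (m : Matrix (Fin 6) (Fin 6) F) (y : Fin 6 → F)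
    (h : ∀ a ∈ K0 K, (a * m) *ᵥ y ∈ W) : ∀ k ∈ K, (k * m) *ᵥ y ∈ W := by
  obtain ⟨ω, hω⟩ := kit_omega hF
  intro k hk
  obtain ⟨a, ha, b, hb, rfl⟩ := k0_decomp hF K hK ω hω k hk
  rw [Matrix.add_mul, Matrix.add_mulVec, Matrix.smul_mul, Matrix.smul_mulVec]
  exact W.add_mem (h a ha) (W.smul_mem ω (h b hb))

/-- IRR: `Lgrp` acts irreducibly. -/
theorem irr (hF : Fintype.card F = 2 ^ 2) (K : Subalgebra F (Matrix (Fin 6) (Fin 6) F))
    (hK : IsFieldSubalgebra 3 K) (hadj : IsAdjointClosedFor (Cfsg.hermForm 6 F 2) K)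
    (u v : Fin 6 → F) (hf : Frame K u v) : ActsIrreducibly (matrixSet (Lgrp K u v)) := by
  intro W hW
  by_cases hbot : W = ⊥
  · exact Or.inl hbot
  right
  -- invariance under the elements of `Lgrp`
  have hinv : ∀ g ∈ Lgrp K u v, ∀ y ∈ W, g.1 *ᵥ y ∈ W := by
    intro g hg y hy
    have h1 : Matrix.toLin' g.1 y ∈ W.map (Matrix.toLin' g.1) := Submodule.mem_map_of_mem hy
    have h2 := hW g.1 ⟨g, hg, rfl⟩ h1
    rwa [Matrix.toLin'_apply] at h2
  obtain ⟨x, hxW, hx0⟩ := Submodule.exists_mem_ne_zero_of_ne_bot hbot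
  obtain ⟨p, hp, r, hr, hx⟩ := coord_ex hF K hK hadj u v hf x
  -- the two families
  have hu : ∀ a ∈ K0 K, (a * r) *ᵥ u ∈ W := by
    intro a ha
    obtain ⟨g, hg, hgx⟩ := memlin hF K hK hadj u v hf a ha
    have h1 := hinv g hg x hxW
    rw [hx, hgx p hp r hr] at h1
    have h2 := W.sub_mem h1 (hx ▸ hxW)
    have h3 : (p + a * r) *ᵥ u + r *ᵥ v - (p *ᵥ u + r *ᵥ v) = (a * r) *ᵥ u := by
      rw [Matrix.add_mulVec]
      abel
    rwa [h3] at h2
  have hv : ∀ a ∈ K0 K, (a * p) *ᵥ v ∈ W := by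
    intro a ha
    obtain ⟨g, hg, hgx⟩ := memlin2 hF K hK hadj u v hf a ha
    have h1 := hinv g hg x hxW
    rw [hx, hgx p hp r hr] at h1
    have h2 := W.sub_mem h1 (hx ▸ hxW)
    have h3 : p *ᵥ u + (r + a * p) *ᵥ v - (p *ᵥ u + r *ᵥ v) = (a * p) *ᵥ v := by
      rw [Matrix.add_mulVec]
      abel
    rwa [h3] at h2
  have hu' := su6irr_ext hF K hK W r u hu
  have hv' := su6irr_ext hF K hK W p v hv
  -- from `K u ⊆ W` to `K v ⊆ W` and back
  have huv : (∀ k ∈ K, k *ᵥ u ∈ W) → ∀ k ∈ K, k *ᵥ v ∈ W := by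
    intro hKu
    have h1 : ∀ a ∈ K0 K, (a * 1) *ᵥ v ∈ W := by
      intro a ha
      obtain ⟨g, hg, hgx⟩ := memlin2 hF K hK hadj u v hf a ha
      have h2 := hgx 1 K.one_mem 0 K.zero_mem
      rw [Matrix.one_mulVec, Matrix.zero_mulVec, add_zero, zero_add] at h2
      have hu1 : u ∈ W := by
        have := hKu 1 K.one_mem
        rwa [Matrix.one_mulVec] at this
      have h3 := hinv g hg u hu1
      rw [h2] at h3
      have h4 := W.sub_mem h3 hu1
      rwa [add_sub_cancel_left] at h4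
    have h5 := su6irr_ext hF K hK W 1 v h1
    intro k hk
    have := h5 k hk
    rwa [mul_one] at this
  have hvu : (∀ k ∈ K, k *ᵥ v ∈ W) → ∀ k ∈ K, k *ᵥ u ∈ W := by
    intro hKv
    have h1 : ∀ a ∈ K0 K, (a * 1) *ᵥ u ∈ W := by
      intro a ha
      obtain ⟨g, hg, hgx⟩ := memlin hF K hK hadj u v hf a ha
      have h2 := hgx 0 K.zero_mem 1 K.one_mem
      rw [Matrix.one_mulVec, Matrix.zero_mulVec, zero_add, zero_add] at h2
      have hv1 : v ∈ W := by
        have := hKv 1 K.one_mem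
        rwa [Matrix.one_mulVec] at this
      have h3 := hinv g hg v hv1
      rw [h2] at h3
      have h4 := W.sub_mem h3 hv1
      rwa [add_sub_cancel_right] at h4
    have h5 := su6irr_ext hF K hK W 1 u h1
    intro k hk
    have := h5 k hk
    rwa [mul_one] at this
  -- one of the two holds
  have hone : (∀ k ∈ K, k *ᵥ u ∈ W) ∨ (∀ k ∈ K, k *ᵥ v ∈ W) := by
    by_cases hr0 : r = 0
    · right
      have hp0 : p ≠ 0 := by
        rintro rfl
        apply hx0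
        rw [hx, hr0, Matrix.zero_mulVec, Matrix.zero_mulVec, add_zero]
      obtain ⟨p', hp', hpp', hp'p⟩ := kit_inv K hK p hp hp0
      intro k hk
      have h1 := hv' (k * p') (K.mul_mem hk hp')
      rwa [mul_assoc, hp'p, mul_one] at h1
    · left
      obtain ⟨r', hr', hrr', hr'r⟩ := kit_inv K hK r hr hr0
      intro k hk
      have h1 := hu' (k * r') (K.mul_mem hk hr')
      rwa [mul_assoc, hr'r, mul_one] at h1
  have hboth : (∀ k ∈ K, k *ᵥ u ∈ W) ∧ (∀ k ∈ K, k *ᵥ v ∈ W) := by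
    rcases hone with h | h
    · exact ⟨h, huv h⟩
    · exact ⟨hvu h, h⟩
  rw [eq_top_iff]
  intro y _
  obtain ⟨a, ha, b, hb, rfl⟩ := coord_ex hF K hK hadj u v hf y
  exact W.add_mem (hboth.1 a ha) (hboth.2 b hb)

end Cfsg.Agent.Lib.Helper49.SU6
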