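import Mathlib
import Cfsg.Prelude.Def_GeometricClasses
import Cfsg.Prelude.Def_LieClassical
import Cfsg.Agent.Lib.Helper49.SU6Defs
import Cfsg.Agent.Lib.Helper71.SUP0
import Cfsg.Agent.Lib.Helper10.SPPUNIQ
import Cfsg.Agent.Lib.Helper49.SU6XKITA
import Cfsg.Agent.Lib.Helper49.SU6XKITB
import Cfsg.Agent.Lib.Helper49.SU6XKITC
import Cfsg.Agent.Lib.Helper49.SU6XCOORDU
import Cfsg.Agent.Lib.Helper49.SU6XFORMULA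

/-!
# S5802 project SU6 (helper49), piece PAIRZ

Filled by helper47 (job 4034).
-/

set_option autoImplicit false

namespace Cfsg.Agent.Lib.Helper49.SU6

open Matrix Cfsg.Geo

variable {F : Type*} [Field F] [Fintype F]

theorem su6pairz_id1 {R : Type*} [CommRing R] (k z1 a1 b1 z2 c2 d2 : R) (hd : d2 ^ 8 = d2)
    (hc : c2 ^ 8 = c2) :
    k * (z1 * a1) * (z2 * d2) ^ 8 + k * (z1 * b1) * (z2 * c2) ^ 8 =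
      k * (z1 * z2 ^ 8 * (a1 * d2 + b1 * c2)) := by
  rw [mul_pow, mul_pow, hd, hc]
  ring

theorem su6pairz_id2 {R : Type*} [CommRing R] (z1 z2 q' : R) (hq : z1 * z2 ^ 8 * q' = 1) :
    z2 = z2 ^ 9 * q' * z1 := by
  calc z2 = z2 * (z1 * z2 ^ 8 * q') := by rw [hq, mul_one]
    _ = z2 ^ 9 * q' * z1 := by ring

theorem su6pairz_smul_one_inj (c c' : F)
    (h : c • (1 : Matrix (Fin 6) (Fin 6) F) = c' • (1 : Matrix (Fin 6) (Fin 6) F)) : c = c' := by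
  have h0 := congrFun (congrFun h 0) 0
  simpa using h0

/-- PAIRZ: two `K`-multiples of vectors of `V0` whose pairing is `F_2`-valued on `K0` and
non-zero differ by an element of `K0`. -/
theorem pairz (hF : Fintype.card F = 2 ^ 2) (K : Subalgebra F (Matrix (Fin 6) (Fin 6) F))
    (hK : IsFieldSubalgebra 3 K) (hadj : IsAdjointClosedFor (Cfsg.hermForm 6 F 2) K)
    (u v : Fin 6 → F) (hf : Frame K u v) :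
    ∀ z₁ ∈ K, ∀ z₂ ∈ K, ∀ w₁ ∈ V0 K u v, ∀ w₂ ∈ V0 K u v, z₁ ≠ 0 →
      (∀ k ∈ K0 K, Cfsg.hermForm 6 F 2 (k *ᵥ (z₁ *ᵥ w₁)) (z₂ *ᵥ w₂) ^ 2 =
        Cfsg.hermForm 6 F 2 (k *ᵥ (z₁ *ᵥ w₁)) (z₂ *ᵥ w₂)) →
      (∃ k ∈ K, Cfsg.hermForm 6 F 2 (k *ᵥ (z₁ *ᵥ w₁)) (z₂ *ᵥ w₂) ≠ 0) →
      ∃ e ∈ K0 K, z₂ = e * z₁ := by
  intro z₁ hz₁ z₂ hz₂ w₁ hw₁ w₂ hw₂ hz₁0 h2 h3
  obtain ⟨a₁, ha₁, b₁, hb₁, rfl⟩ := hw₁
  obtain ⟨c₂, hc₂, d₂, hd₂, rfl⟩ := hw₂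
  obtain ⟨ha₁K, ha₁8⟩ := ha₁
  obtain ⟨hb₁K, hb₁8⟩ := hb₁
  obtain ⟨hc₂K, hc₂8⟩ := hc₂
  obtain ⟨hd₂K, hd₂8⟩ := hd₂
  letI iC : CommRing ↥K :=
    { (inferInstance : Ring ↥K) with
      mul_comm := fun a b => Subtype.ext (hK.comm a a.2 b b.2) }
  have hDK0 : a₁ * d₂ + b₁ * c₂ ∈ K0 K :=
    k0_add hF K hK _ (k0_mul K hK a₁ ⟨ha₁K, ha₁8⟩ d₂ ⟨hd₂K, hd₂8⟩) _
      (k0_mul K hK b₁ ⟨hb₁K, hb₁8⟩ c₂ ⟨hc₂K, hc₂8⟩)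
  obtain ⟨D, hDdef⟩ : ∃ D, D = a₁ * d₂ + b₁ * c₂ := ⟨_, rfl⟩
  rw [← hDdef] at hDK0
  have hDK : D ∈ K := hDK0.1
  have hz8 : z₂ ^ 8 ∈ K := K.pow_mem hz₂ 8
  obtain ⟨E, hEdef⟩ : ∃ E, E = z₁ * z₂ ^ 8 * D := ⟨_, rfl⟩
  have hEK : E ∈ K := by
    rw [hEdef]
    exact K.mul_mem (K.mul_mem hz₁ hz8) hDK
  have hform : ∀ k ∈ K, Cfsg.hermForm 6 F 2 (k *ᵥ (z₁ *ᵥ (a₁ *ᵥ u + b₁ *ᵥ v)))
      (z₂ *ᵥ (c₂ *ᵥ u + d₂ *ᵥ v)) • (1 : Matrix (Fin 6) (Fin 6) F) = tr3 (k * E) := by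
    intro k hk
    have e1 : k *ᵥ (z₁ *ᵥ (a₁ *ᵥ u + b₁ *ᵥ v)) =
        (k * (z₁ * a₁)) *ᵥ u + (k * (z₁ * b₁)) *ᵥ v := by
      simp only [Matrix.mulVec_add, Matrix.mulVec_mulVec, mul_assoc]
    have e2 : z₂ *ᵥ (c₂ *ᵥ u + d₂ *ᵥ v) = (z₂ * c₂) *ᵥ u + (z₂ * d₂) *ᵥ v := by
      simp only [Matrix.mulVec_add, Matrix.mulVec_mulVec]
    rw [e1, e2, formula hF K hK hadj u v hf _ (K.mul_mem hk (K.mul_mem hz₁ ha₁K)) _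
      (K.mul_mem hk (K.mul_mem hz₁ hb₁K)) _ (K.mul_mem hz₂ hc₂K) _ (K.mul_mem hz₂ hd₂K)]
    congr 1
    rw [hEdef, hDdef]
    exact congrArg Subtype.val (su6pairz_id1 (R := ↥K) ⟨k, hk⟩ ⟨z₁, hz₁⟩ ⟨a₁, ha₁K⟩ ⟨b₁, hb₁K⟩
      ⟨z₂, hz₂⟩ ⟨c₂, hc₂K⟩ ⟨d₂, hd₂K⟩ (Subtype.ext hd₂8) (Subtype.ext hc₂8))
  obtain ⟨ω, hω⟩ := kit_omega hF
  have h2F : (2 : F) = 0 := kit_two hF
  obtain ⟨E1, hE1, E2, hE2, hEdec⟩ := k0_decomp hF K hK ω hω E hEK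
  have htrK0 : ∀ k ∈ K0 K, tr3 (k * E2) = 0 := by
    intro k hk
    obtain ⟨c1, hc1, hc1'⟩ := tr3_K0 hF K hK (k * E1) (k0_mul K hK k hk E1 hE1)
    obtain ⟨c2', hc2, hc2'⟩ := tr3_K0 hF K hK (k * E2) (k0_mul K hK k hk E2 hE2)
    have h4 := hform k hk.1
    have h5 : tr3 (k * E) = (c1 + ω * c2') • (1 : Matrix (Fin 6) (Fin 6) F) := by
      rw [hEdec, mul_add, mul_smul_comm,
        tr3_add hF K hK _ (K.mul_mem hk.1 hE1.1) _ (K.smul_mem (K.mul_mem hk.1 hE2.1) ω),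
        tr3_smul hF, hc1', hc2', add_smul, mul_smul]
    rw [h5] at h4
    have h6 := su6pairz_smul_one_inj _ _ h4
    have h7 := h2 k hk
    rw [h6] at h7
    have hc20 : c2' = 0 := by
      linear_combination (-1 : F) * h7 + hc1 + ω ^ 2 * hc2 + c2' * hω +
        (c1 * ω * c2' - ω * c2') * h2F
    rw [hc2', hc20, zero_smul]
  have htrK : ∀ k ∈ K, tr3 (k * E2) = 0 := by
    intro k hk
    obtain ⟨k1, hk1, k2, hk2, rfl⟩ := k0_decomp hF K hK ω hω k hk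
    rw [add_mul, smul_mul_assoc,
      tr3_add hF K hK _ (K.mul_mem hk1.1 hE2.1) _ (K.smul_mem (K.mul_mem hk2.1 hE2.1) ω),
      tr3_smul hF, htrK0 k1 hk1, htrK0 k2 hk2, smul_zero, add_zero]
  have hE20 : E2 = 0 := tr3_nondeg hF K hK E2 hE2.1 htrK
  have hEK0 : E ∈ K0 K := by
    rw [hEdec, hE20, smul_zero, add_zero]
    exact hE1
  have hE0 : E ≠ 0 := by
    intro hE0
    obtain ⟨k, hk, hne⟩ := h3
    apply hne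
    have h4 := hform k hk
    rw [hE0, mul_zero] at h4
    have h5 : tr3 (0 : Matrix (Fin 6) (Fin 6) F) =
        (0 : F) • (1 : Matrix (Fin 6) (Fin 6) F) := by
      simp [tr3]
    rw [h5] at h4
    exact su6pairz_smul_one_inj _ _ h4
  have hD0 : D ≠ 0 := by
    intro h
    apply hE0
    rw [hEdef, h, mul_zero]
  obtain ⟨D', hD', hDD', -⟩ := k0_inv K hK D hDK0 hD0
  have hq : z₁ * z₂ ^ 8 = E * D' := by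
    rw [hEdef, mul_assoc (z₁ * z₂ ^ 8) D D', hDD', mul_one]
  have hqK0 : z₁ * z₂ ^ 8 ∈ K0 K := by
    rw [hq]
    exact k0_mul K hK E hEK0 D' hD'
  have hq0 : z₁ * z₂ ^ 8 ≠ 0 := by
    intro h
    apply hE0
    rw [hEdef, h, zero_mul]
  obtain ⟨q', hq', hqq', -⟩ := k0_inv K hK _ hqK0 hq0
  refine ⟨z₂ ^ 9 * q', k0_mul K hK _ (k0_of_pow9 hF K hK z₂ hz₂) q' hq', ?_⟩
  exact congrArg Subtype.val (su6pairz_id2 (R := ↥K) ⟨z₁, hz₁⟩ ⟨z₂, hz₂⟩ ⟨q', hq'.1⟩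
    (Subtype.ext hqq'))

end Cfsg.Agent.Lib.Helper49.SU6
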