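import Mathlib
import Cfsg.Prelude.Def_GeometricClasses
import Cfsg.Prelude.Def_LieClassical
import Cfsg.Agent.Lib.Helper49.SU6Defs
import Cfsg.Agent.Lib.Helper71.SUP0
import Cfsg.Agent.Lib.Helper10.SPPUNIQ
import Cfsg.Agent.Lib.Helper49.SU6XKITA
import Cfsg.Agent.Lib.Helper49.SU6XKITB
import Cfsg.Agent.Lib.Helper49.SU6XV0KIT
import Cfsg.Agent.Lib.Helper49.SU6XV0B
import Cfsg.Agent.Lib.Helper49.SU6XDETRAT
import Cfsg.Agent.Lib.Helper49.SU6XIMAGE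
import Cfsg.Agent.Lib.Helper49.SU6XDET9
import Cfsg.Agent.Lib.Helper49.SU6XF1

/-!
# S5802 project SU6 (helper49), piece SCAL (filled by helper39)

An element of `N(K) ∩ SU` maps `V0` into an `F`-multiple of `V0`.
-/

set_option autoImplicit false

namespace Cfsg.Agent.Lib.Helper49.SU6

open Matrix Cfsg.Geo

variable {F : Type*} [Field F] [Fintype F]

/-- SCAL: an element of `N(K) ∩ SU` maps `V0` into an `F`-multiple of `V0`. -/
theorem scal (hF : Fintype.card F = 2 ^ 2) (K : Subalgebra F (Matrix (Fin 6) (Fin 6) F))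
    (hK : IsFieldSubalgebra 3 K) (hadj : IsAdjointClosedFor (Cfsg.hermForm 6 F 2) K)
    (u v : Fin 6 → F) (hf : Frame K u v) (g : GL (Fin 6) F) (hgU : g ∈ Cfsg.GU 6 F 2)
    (hgN : g ∈ subalgebraNormalizer K) (hgS : g ∈ specialLinear (Fin 6) F) :
    ∃ c : F, c ≠ 0 ∧ ∀ x ∈ V0 K u v, ∃ y ∈ V0 K u v, g.1 *ᵥ x = c • y := by
  classical
  obtain ⟨z, hzK, hz0, hz⟩ := image hF K hK hadj u v hf g hgU hgN
  obtain ⟨zi, hziK, hzzi, hziz⟩ := kit_inv K hK z hzK hz0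
  have h64 : z ^ 64 = z := kit_pow64 hF K hK z hzK
  have h63 : z ^ 63 = 1 := by
    calc z ^ 63 = z ^ 63 * (z * zi) := by rw [hzzi, mul_one]
      _ = z ^ 64 * zi := by rw [← mul_assoc, ← pow_succ]
      _ = 1 := by rw [h64, hzzi]
  have heK0 : z ^ 27 ∈ K0 K := by
    refine ⟨pow_mem hzK 27, ?_⟩
    calc (z ^ 27) ^ 8 = (z ^ 63) ^ 3 * z ^ 27 := by rw [← pow_mul, ← pow_mul, ← pow_add]
      _ = z ^ 27 := by rw [h63, one_pow, one_mul]
  have he0 : z ^ 27 ≠ 0 := by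
    intro h
    have h' : z ^ 63 = 0 := by
      calc z ^ 63 = z ^ 27 * z ^ 36 := by rw [← pow_add]
        _ = 0 := by rw [h, zero_mul]
    rw [h63] at h'
    exact one_ne_zero h'
  obtain ⟨e', he'K0, hee', he'e⟩ := k0_inv K hK (z ^ 27) heK0 he0
  have hw9 : (z ^ 28) ^ 9 = 1 := by
    calc (z ^ 28) ^ 9 = (z ^ 63) ^ 4 := by rw [← pow_mul, ← pow_mul]
      _ = 1 := by rw [h63, one_pow]
  have hzw : z = z ^ 28 * e' := by
    calc z = z * (z ^ 27 * e') := by rw [hee', mul_one]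
      _ = z ^ 28 * e' := by rw [← mul_assoc, ← pow_succ']
  have hW1 : z ^ 28 * (z ^ 28) ^ 8 = 1 := by rw [← pow_succ', hw9]
  have hW2 : (z ^ 28) ^ 8 * z ^ 28 = 1 := by rw [← pow_succ, hw9]
  obtain ⟨W, hWval, hWinv⟩ : ∃ W : GL (Fin 6) F, W.1 = z ^ 28 ∧ (W⁻¹).1 = (z ^ 28) ^ 8 :=
    ⟨⟨z ^ 28, (z ^ 28) ^ 8, hW1, hW2⟩, rfl, rfl⟩
  have hval : (W⁻¹ * g).1 = (z ^ 28) ^ 8 * g.1 := by
    rw [Units.val_mul, hWinv]
  have hg' : ∀ x ∈ V0 K u v, (W⁻¹ * g).1 *ᵥ x ∈ V0 K u v := by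
    intro x hx
    obtain ⟨y, hy, hxy⟩ := hz x hx
    have h1 : (W⁻¹ * g).1 *ᵥ x = e' *ᵥ y := by
      have h2 : (z ^ 28) ^ 8 * z = e' := by
        calc (z ^ 28) ^ 8 * z = (z ^ 28) ^ 8 * (z ^ 28 * e') := by rw [← hzw]
          _ = e' := by rw [← mul_assoc, hW2, one_mul]
      rw [hval, ← Matrix.mulVec_mulVec, hxy, Matrix.mulVec_mulVec, h2]
    rw [h1]
    exact v0_smul K hK u v e' he'K0 y hy
  obtain ⟨F₁, τ, _, _, hF₁⟩ := f1 hF
  obtain ⟨B, hB⟩ := v0b hF K hK hadj u v hf F₁ hF₁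
  have hdet' : (W⁻¹ * g).1.det = 1 := detrat hF K u v F₁ hF₁ B hB (W⁻¹ * g) hg'
  have hdetg : g.1.det = 1 := by
    have h := hgS
    unfold specialLinear at h
    rw [MonoidHom.mem_ker] at h
    have h' := congrArg Units.val h
    rw [Matrix.GeneralLinearGroup.val_det_apply] at h'
    simpa using h'
  have hdetw8 : ((z ^ 28) ^ 8).det = 1 := by
    rw [hval, Matrix.det_mul, hdetg, mul_one] at hdet'
    exact hdet'
  have hdetw : (z ^ 28).det = 1 := by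
    have h9 : ((z ^ 28) ^ 9).det = 1 := by rw [hw9, Matrix.det_one]
    rw [pow_succ, Matrix.det_mul, hdetw8, one_mul] at h9
    exact h9
  obtain ⟨c, hc⟩ := det9 hF K hK hadj u v hf (z ^ 28) (pow_mem hzK 28) hw9 hdetw
  refine ⟨c, ?_, ?_⟩
  · rintro rfl
    rw [zero_smul] at hc
    rw [hc, zero_pow (by norm_num)] at hw9
    exact zero_ne_one hw9
  · intro x hx
    obtain ⟨y, hy, hxy⟩ := hz x hx
    refine ⟨e' *ᵥ y, v0_smul K hK u v e' he'K0 y hy, ?_⟩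
    calc g.1 *ᵥ x = z *ᵥ y := hxy
      _ = (z ^ 28 * e') *ᵥ y := by rw [← hzw]
      _ = (c • (1 : Matrix (Fin 6) (Fin 6) F)) *ᵥ (e' *ᵥ y) := by
          rw [Matrix.mulVec_mulVec, hc]
      _ = c • e' *ᵥ y := by rw [Matrix.smul_mulVec, Matrix.one_mulVec]

end Cfsg.Agent.Lib.Helper49.SU6
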