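import Mathlib
import Cfsg.Prelude.Def_GeometricClasses
import Cfsg.Prelude.Def_LieClassical
import Cfsg.Agent.Lib.Helper49.SU6Defs
import Cfsg.Agent.Lib.Helper71.SUP0
import Cfsg.Agent.Lib.Helper10.SPPUNIQ
import Cfsg.Agent.Lib.Helper49.SU6XCOMB1
import Cfsg.Agent.Lib.Helper49.SU6XCOMB2
import Cfsg.Agent.Lib.Helper49.SU6XHSYM

/-!
# S5802 project SU6 (helper49), piece TVR

PLACEHOLDER: replace every `sorry` in this file (keep the statements and the namespace exactly;
auxiliary lemmas with fresh names prefixed `su6tvr_` are fine; you may add imports of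
landed libraries).  Paper proof: see the job note.
-/

set_option autoImplicit false

namespace Cfsg.Agent.Lib.Helper49.SU6

open Matrix Cfsg.Geo

variable {F : Type*} [Field F] [Fintype F]

/-- TVR: a unitary transvection of `SU_6(2)` preserving the root set and moving `d 0` off the
frame. -/
theorem tvr (hF : Fintype.card F = 2 ^ 2) (D : Fin 6 → Submodule F (Fin 6 → F))
    (d : Fin 6 → Fin 6 → F) (hd : OFrame D d) :
    ∃ t : GL (Fin 6) F, t ∈ Cfsg.GU 6 F 2 ⊓ specialLinear (Fin 6) F ∧
      (∀ x : Fin 6 → F, InR d x → InR d (t.1 *ᵥ x)) ∧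
      (∀ x : Fin 6 → F, InR d x → InR d ((t⁻¹ : GL (Fin 6) F).1 *ᵥ x)) ∧
      t ∉ decompositionStabilizer D := by
  sorry

end Cfsg.Agent.Lib.Helper49.SU6
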