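import Mathlib
import Cfsg.Prelude.Def_GeometricClasses
import Cfsg.Prelude.Def_LieClassical
import Cfsg.Agent.Lib.Helper71.Asch0
import Cfsg.Agent.Lib.Helper71.Asch5
import Cfsg.Agent.Lib.Helper44.BADMain

/-!
# S5663 project SUG (helper49), piece BAD

The case `(q, n) = (2, 9)`, tensor decomposition `3 ⊗ 3`: sub-project BAD of helper44
(`Cfsg/Agent/Lib/Helper44/BADMain.lean`, pieces `Lib/*/BAD*.lean`).
-/

set_option autoImplicit false

namespace Cfsg.Agent.Lib.Helper49.SUG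

open Matrix Cfsg.Geo Cfsg.Agent.Lib.Helper71.Asch
open scoped Kronecker

variable {n : ℕ} {F : Type*} [Field F] [Fintype F] {q : ℕ}

/-- BAD: `(q, n) = (2, 9)`, `H ≤ GU_9(2)` inside a tensor product `3 ⊗ 3` (which is excluded from
the tensor-power class): `H` lies in a subgroup `H'` of `GU` having an absolutely irreducible
minimal non-scalar normal subgroup `E` of symplectic type (`E = 3^{1+4}`). -/
theorem bad (hF : Fintype.card F = q ^ 2) (hq : q = 2) (H : Subgroup (GL (Fin n) F))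
    (hH : H ≤ Cfsg.GU n F q) (e : Fin n ≃ Fin 3 × Fin 3) (P : GL (Fin n) F)
    (G₁ G₂ : Matrix (Fin 3) (Fin 3) F) (hd1 : G₁.det ≠ 0) (hd2 : G₂.det ≠ 0)
    (hh1 : ∀ a b, G₁ a b = (G₁ b a) ^ q) (hh2 : ∀ a b, G₂ a b = (G₂ b a) ^ q)
    (hid : ∀ x y : Fin 3 × Fin 3 → F,
      Cfsg.hermForm n F q (P.1 *ᵥ (x ∘ e)) (P.1 *ᵥ (y ∘ e)) =
        formOfGram (fun c : F => c ^ q) (G₁ ⊗ₖ G₂) x y)
    (hHT : H ≤ tensorProductSubgroup 3 3 e P) :
    ∃ H' E : Subgroup (GL (Fin n) F), H ≤ H' ∧ H' ≤ Cfsg.GU n F q ∧ SymT H' E :=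
  Cfsg.Agent.Lib.Helper44.BAD.bad_main hF hq H hH e P G₁ G₂ hd1 hd2 hh1 hh2 hid hHT

end Cfsg.Agent.Lib.Helper49.SUG
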