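import Mathlib
import Cfsg.Prelude.Def_GeometricClasses
import Cfsg.Prelude.Def_LieClassical
import Cfsg.Agent.Lib.Helper71.Asch0
import Cfsg.Agent.Lib.Helper82.O9TIR

/-!
# S5663 project SUG (helper49), piece T22AI

Filled by helper99 (job 4837): span of the `tmat e P A B` is everything, then
`Helper44.O9.TIR_absIrr_of_span`.
-/

set_option autoImplicit false

namespace Cfsg.Agent.Lib.Helper49.SUG

open Matrix Cfsg.Geo Cfsg.Agent.Lib.Helper71.Asch
open scoped Kronecker

variable {n : ℕ} {F : Type*} [Field F] [Fintype F] {q : ℕ}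

/-- The linear map `Y ↦ P (reindexed Y) P⁻¹`. -/
noncomputable def sugt22ai_phi {d k : ℕ} (e : Fin n ≃ Fin d × Fin k) (P : GL (Fin n) F) :
    Matrix (Fin d × Fin k) (Fin d × Fin k) F →ₗ[F] Matrix (Fin n) (Fin n) F where
  toFun Y := P.1 * Matrix.reindex e.symm e.symm Y * (P⁻¹ : GL (Fin n) F).1
  map_add' X Y := by
    have h : Matrix.reindex e.symm e.symm (X + Y) =
        Matrix.reindex e.symm e.symm X + Matrix.reindex e.symm e.symm Y := rfl
    show P.1 * Matrix.reindex e.symm e.symm (X + Y) * (P⁻¹ : GL (Fin n) F).1 =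
      P.1 * Matrix.reindex e.symm e.symm X * (P⁻¹ : GL (Fin n) F).1 +
        P.1 * Matrix.reindex e.symm e.symm Y * (P⁻¹ : GL (Fin n) F).1
    rw [h, Matrix.mul_add, Matrix.add_mul]
  map_smul' c X := by
    have h : Matrix.reindex e.symm e.symm (c • X) = c • Matrix.reindex e.symm e.symm X := rfl
    show P.1 * Matrix.reindex e.symm e.symm (c • X) * (P⁻¹ : GL (Fin n) F).1 =
      c • (P.1 * Matrix.reindex e.symm e.symm X * (P⁻¹ : GL (Fin n) F).1)
    rw [h, Matrix.mul_smul, Matrix.smul_mul]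

theorem sugt22ai_phi_kron {d k : ℕ} (e : Fin n ≃ Fin d × Fin k) (P : GL (Fin n) F)
    (A : Matrix (Fin d) (Fin d) F) (B : Matrix (Fin k) (Fin k) F) :
    sugt22ai_phi e P (A ⊗ₖ B) = tmat e P A B := rfl

/-- T22AI: a group containing all `P (A ⊗ B) P⁻¹`, `A ∈ S₁`, `B ∈ S₂`, where `S₁` and `S₂` span
the matrix algebras, is absolutely irreducible. -/
theorem t22ai {d k : ℕ} (e : Fin n ≃ Fin d × Fin k) (P : GL (Fin n) F)
    (S₁ : Set (Matrix (Fin d) (Fin d) F)) (S₂ : Set (Matrix (Fin k) (Fin k) F))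
    (h1 : Submodule.span F S₁ = ⊤) (h2 : Submodule.span F S₂ = ⊤)
    (M₀ : Subgroup (GL (Fin n) F))
    (hM : ∀ A ∈ S₁, ∀ B ∈ S₂, tmat e P A B ∈ matrixSet M₀) :
    ActsAbsolutelyIrreducibly (matrixSet M₀) := by
  apply Cfsg.Agent.Lib.Helper44.O9.TIR_absIrr_of_span
  have hA : ∀ A : Matrix (Fin d) (Fin d) F, ∀ B ∈ S₂,
      tmat e P A B ∈ Submodule.span F (matrixSet M₀) := by
    intro A
    have hAm : A ∈ Submodule.span F S₁ := by rw [h1]; trivial
    induction hAm using Submodule.span_induction with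
    | mem A hA => intro B hB; exact Submodule.subset_span (hM A hA B hB)
    | zero =>
      intro B hB
      rw [← sugt22ai_phi_kron, Matrix.zero_kronecker, map_zero]
      exact Submodule.zero_mem _
    | add A A' _ _ ih ih' =>
      intro B hB
      rw [← sugt22ai_phi_kron, Matrix.add_kronecker, map_add, sugt22ai_phi_kron,
        sugt22ai_phi_kron]
      exact Submodule.add_mem _ (ih B hB) (ih' B hB)
    | smul c A _ ih =>
      intro B hB
      rw [← sugt22ai_phi_kron, Matrix.smul_kronecker, map_smul, sugt22ai_phi_kron]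
      exact Submodule.smul_mem _ c (ih B hB)
  have hAB : ∀ (A : Matrix (Fin d) (Fin d) F) (B : Matrix (Fin k) (Fin k) F),
      tmat e P A B ∈ Submodule.span F (matrixSet M₀) := by
    intro A B
    have hBm : B ∈ Submodule.span F S₂ := by rw [h2]; trivial
    induction hBm using Submodule.span_induction with
    | mem B hB => exact hA A B hB
    | zero =>
      rw [← sugt22ai_phi_kron, Matrix.kronecker_zero, map_zero]
      exact Submodule.zero_mem _
    | add B B' _ _ ih ih' =>
      rw [← sugt22ai_phi_kron, Matrix.kronecker_add, map_add, sugt22ai_phi_kron,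
        sugt22ai_phi_kron]
      exact Submodule.add_mem _ ih ih'
    | smul c B _ ih =>
      rw [← sugt22ai_phi_kron, Matrix.kronecker_smul, map_smul, sugt22ai_phi_kron]
      exact Submodule.smul_mem _ c ih
  have hΦ : ∀ Y : Matrix (Fin d × Fin k) (Fin d × Fin k) F,
      sugt22ai_phi e P Y ∈ Submodule.span F (matrixSet M₀) := by
    intro Y
    have hY := Matrix.matrix_eq_sum_single Y
    rw [hY, map_sum]
    refine Submodule.sum_mem _ (fun p _ => ?_)
    rw [map_sum]
    refine Submodule.sum_mem _ (fun p' _ => ?_)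
    obtain ⟨i, j⟩ := p
    obtain ⟨i', j'⟩ := p'
    have hs : Matrix.single (i, j) (i', j') (Y (i, j) (i', j')) =
        Matrix.single i i' (Y (i, j) (i', j')) ⊗ₖ Matrix.single j j' (1 : F) := by
      rw [Matrix.single_kronecker_single, mul_one]
    rw [hs, sugt22ai_phi_kron]
    exact hAB _ _
  rw [eq_top_iff]
  intro X _
  have h4 : P.1 * (P⁻¹ : GL (Fin n) F).1 = 1 := by
    rw [← Units.val_mul, mul_inv_cancel, Units.val_one]
  have hX : X = sugt22ai_phi e P (Matrix.reindex e e ((P⁻¹ : GL (Fin n) F).1 * X * P.1)) := by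
    have h3 : Matrix.reindex e.symm e.symm
        (Matrix.reindex e e ((P⁻¹ : GL (Fin n) F).1 * X * P.1)) =
        (P⁻¹ : GL (Fin n) F).1 * X * P.1 := by
      simp [Matrix.reindex_apply]
    show X = P.1 * Matrix.reindex e.symm e.symm
      (Matrix.reindex e e ((P⁻¹ : GL (Fin n) F).1 * X * P.1)) * (P⁻¹ : GL (Fin n) F).1
    rw [h3]
    calc X = (P.1 * (P⁻¹ : GL (Fin n) F).1) * X * (P.1 * (P⁻¹ : GL (Fin n) F).1) := by
          rw [h4, Matrix.one_mul, Matrix.mul_one]
      _ = P.1 * ((P⁻¹ : GL (Fin n) F).1 * X * P.1) * (P⁻¹ : GL (Fin n) F).1 := by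
          simp only [Matrix.mul_assoc]
  rw [hX]
  exact hΦ _

end Cfsg.Agent.Lib.Helper49.SUG
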