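import Mathlib
import Cfsg.Prelude.Def_GeometricClasses
import Cfsg.Prelude.Def_LieClassical
import Cfsg.Agent.Lib.Helper71.Asch0

/-!
# S5663 project SUG (helper49), piece T22SIM

Filled in by helper34 (job 4833): the `2 × 2` identity `aᵀ * J * a = det a • J` and the
mixed-product property of the Kronecker product.
-/

set_option autoImplicit false

namespace Cfsg.Agent.Lib.Helper49.SUG

open Matrix Cfsg.Geo Cfsg.Agent.Lib.Helper71.Asch
open scoped Kronecker

variable {n : ℕ} {F : Type*} [Field F] [Fintype F] {q : ℕ}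

/-- the standard alternating `2 × 2` matrix -/
def sugJ (F : Type*) [Field F] : Matrix (Fin 2) (Fin 2) F := !![0, 1; -1, 0]

omit [Fintype F] in
private theorem sugt22sim_two (a : Matrix (Fin 2) (Fin 2) F) :
    aᵀ * sugJ F * a = a.det • sugJ F := by
  ext i j
  fin_cases i <;> fin_cases j <;>
    simp [sugJ, Matrix.det_fin_two, Matrix.mul_apply, Fin.sum_univ_two] <;> ring

/-- T22SIM: every Kronecker product `a ⊗ b` of `2 × 2` matrices is a similarity of the bilinear
form with Gram matrix `J ⊗ J`, with factor `det a * det b`. -/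
theorem t22sim (a b : Matrix (Fin 2) (Fin 2) F) :
    (a ⊗ₖ b)ᵀ * (sugJ F ⊗ₖ sugJ F) * (a ⊗ₖ b) = (a.det * b.det) • (sugJ F ⊗ₖ sugJ F) := by
  have h1 : (a ⊗ₖ b)ᵀ = aᵀ ⊗ₖ bᵀ := Matrix.kroneckerMap_transpose _ a b
  rw [h1, ← Matrix.mul_kronecker_mul, ← Matrix.mul_kronecker_mul, sugt22sim_two a,
    sugt22sim_two b, Matrix.smul_kronecker, Matrix.kronecker_smul, smul_smul]

end Cfsg.Agent.Lib.Helper49.SUG
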