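import Mathlib
import Cfsg.Prelude.Def_GeometricClasses
import Cfsg.Prelude.Def_LieClassical
import Cfsg.Agent.Lib.Helper71.Asch0
import Cfsg.Agent.Lib.Helper53.Hermitian
import Cfsg.Agent.Lib.Helper27.SU4T22N

/-!
# S5663 project SUG (helper49), piece T22SPAN

PLACEHOLDER: replace the `sorry` (keep the statements and the namespace exactly; auxiliary
lemmas with fresh names prefixed `sugt22span_` are fine; you may add imports of landed
libraries).  Paper proof: SUG master note.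
-/

set_option autoImplicit false

namespace Cfsg.Agent.Lib.Helper49.SUG

open Matrix Cfsg.Geo Cfsg.Agent.Lib.Helper71.Asch
open scoped Kronecker

variable {n : ℕ} {F : Type*} [Field F] [Fintype F] {q : ℕ}

/-- standard unitary `2 × 2` matrices of determinant one, in matrix form -/
def sugt22span_Un (φ : F →+* F) (s : Matrix (Fin 2) (Fin 2) F) : Prop :=
  sᵀ * s.map φ = 1 ∧ s.det = 1

theorem sugt22span_un_one (φ : F →+* F) : sugt22span_Un φ 1 := by
  refine ⟨?_, det_one⟩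
  rw [Matrix.transpose_one, Matrix.one_mul]
  ext i j
  simp [Matrix.map_apply, Matrix.one_apply]

theorem sugt22span_un_mul (φ : F →+* F) {s t : Matrix (Fin 2) (Fin 2) F}
    (hs : sugt22span_Un φ s) (ht : sugt22span_Un φ t) : sugt22span_Un φ (s * t) := by
  refine ⟨?_, by rw [det_mul, hs.2, ht.2, one_mul]⟩
  rw [Matrix.transpose_mul, Matrix.map_mul]
  calc tᵀ * sᵀ * (s.map φ * t.map φ) = tᵀ * (sᵀ * s.map φ) * t.map φ := by
        simp only [Matrix.mul_assoc]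
    _ = 1 := by rw [hs.1, Matrix.mul_one, ht.1]

theorem sugt22span_un_D (φ : F →+* F) (hφφ : ∀ x, φ (φ x) = x) (x : F) (hx : x * φ x = 1) :
    sugt22span_Un φ !![x, 0; 0, φ x] := by
  refine ⟨?_, ?_⟩
  · ext i j
    fin_cases i <;> fin_cases j <;>
      simp [Matrix.mul_apply, Fin.sum_univ_two, Matrix.map_apply, hφφ, hx, mul_comm (φ x) x]
  · rw [det_fin_two_of]
    linear_combination hx

theorem sugt22span_un_J (φ : F →+* F) : sugt22span_Un φ !![0, 1; -1, 0] := by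
  refine ⟨?_, ?_⟩
  · ext i j
    fin_cases i <;> fin_cases j <;>
      simp [Matrix.mul_apply, Fin.sum_univ_two, Matrix.map_apply]
  · rw [det_fin_two_of]
    ring

theorem sugt22span_mem (φ : F →+* F) (G : Matrix (Fin 2) (Fin 2) F) (y : GL (Fin 2) F)
    (hG : G = y.1ᵀ * y.1.map φ) {s : Matrix (Fin 2) (Fin 2) F} (hs : sugt22span_Un φ s) :
    ((y⁻¹ : GL (Fin 2) F).1 * s * y.1)ᵀ * G * ((y⁻¹ : GL (Fin 2) F).1 * s * y.1).map φ = G ∧
      ((y⁻¹ : GL (Fin 2) F).1 * s * y.1).det = 1 := by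
  refine ⟨?_, ?_⟩
  · have h1 : ((y⁻¹ : GL (Fin 2) F).1)ᵀ * y.1ᵀ = 1 := by
      rw [← Matrix.transpose_mul, Units.mul_inv, Matrix.transpose_one]
    have h2 : y.1.map φ * ((y⁻¹ : GL (Fin 2) F).1).map φ = 1 := by
      rw [← Matrix.map_mul, Units.mul_inv]
      ext i j
      simp [Matrix.map_apply, Matrix.one_apply]
    rw [Matrix.transpose_mul, Matrix.transpose_mul, Matrix.map_mul, Matrix.map_mul]
    calc y.1ᵀ * (sᵀ * ((y⁻¹ : GL (Fin 2) F).1)ᵀ) * G *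
          (((y⁻¹ : GL (Fin 2) F).1).map φ * s.map φ * y.1.map φ)
        = y.1ᵀ * sᵀ * (((y⁻¹ : GL (Fin 2) F).1)ᵀ * y.1ᵀ) *
            (y.1.map φ * ((y⁻¹ : GL (Fin 2) F).1).map φ) * s.map φ * y.1.map φ := by
          rw [hG]
          simp only [Matrix.mul_assoc]
      _ = y.1ᵀ * (sᵀ * s.map φ) * y.1.map φ := by
          rw [h1, h2]
          simp only [Matrix.mul_assoc, Matrix.mul_one, Matrix.one_mul]
      _ = G := by rw [hs.1, Matrix.mul_one, hG]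
  · rw [Cfsg.Agent.Lib.Helper27.SU4T22N.su4t22n_det_conj, hs.2]

/-- T22SPAN: the special unitary group of a non-degenerate hermitian `2 × 2` Gram matrix spans
the full matrix algebra. -/
theorem t22span (hF : Fintype.card F = q ^ 2) (G : Matrix (Fin 2) (Fin 2) F)
    (hh : ∀ a b, G a b = (G b a) ^ q) (hd : G.det ≠ 0) :
    Submodule.span F {A : Matrix (Fin 2) (Fin 2) F |
      Aᵀ * G * A.map (fun x : F => x ^ q) = G ∧ A.det = 1} = ⊤ := by
  classical
  obtain ⟨φ, hφ, hφφ⟩ := Cfsg.Agent.Lib.Helper60.SUQTF.tf_frob hF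
  obtain ⟨ν₀, hν₀⟩ := Cfsg.Agent.Lib.Helper60.SUQTF.tf_exists_moved hF
  obtain ⟨x, hx1, hx2⟩ := Cfsg.Agent.Lib.Helper27.SU4T22N.su4t22n_exists_x φ hφφ
    ⟨ν₀, by rw [hφ]; exact hν₀⟩
  obtain ⟨p, hp⟩ := CharP.exists F
  haveI : Fact p.Prime := ⟨CharP.char_is_prime F p⟩
  obtain ⟨Y, hYu, hY⟩ := Cfsg.Agent.Lib.Helper43.Uf.exists_std p q hF 2 _
    (Cfsg.Agent.Lib.Helper50.SUQTFS.suqtfs_unitary hF G hd hh)
  obtain ⟨y, hy⟩ : ∃ y : GL (Fin 2) F, y.1 = Y := by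
    have hu : IsUnit Y := (Matrix.isUnit_iff_isUnit_det Y).mpr hYu
    obtain ⟨y, hy⟩ := hu
    exact ⟨y, hy⟩
  subst hy
  have hG : G = y.1ᵀ * y.1.map φ := by
    ext i j
    rw [Cfsg.Agent.Lib.Helper27.SU4T22N.su4t22n_gram hF G y.1 hY i j]
    simp [Matrix.mul_apply, Matrix.transpose_apply, Matrix.map_apply, hφ]
  have hσ : (fun x : F => x ^ q) = φ := funext fun x => (hφ x).symm
  rw [hσ]
  have hDu := sugt22span_un_D φ hφφ x hx1
  have hJu := sugt22span_un_J φ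
  have hmem : ∀ s : Matrix (Fin 2) (Fin 2) F, sugt22span_Un φ s →
      (y⁻¹ : GL (Fin 2) F).1 * s * y.1 ∈ Submodule.span F {A : Matrix (Fin 2) (Fin 2) F |
        Aᵀ * G * A.map φ = G ∧ A.det = 1} :=
    fun s hs => Submodule.subset_span (sugt22span_mem φ G y hG hs)
  rw [eq_top_iff]
  intro X _
  obtain ⟨c₁, c₂, c₃, c₄, hX⟩ := Cfsg.Agent.Lib.Helper27.SU4T22N.su4t22n_span4 x (φ x) hx2
    (y.1 * X * (y⁻¹ : GL (Fin 2) F).1)
  have e1 : X = (y⁻¹ : GL (Fin 2) F).1 * (y.1 * X * (y⁻¹ : GL (Fin 2) F).1) * y.1 := by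
    simp only [Matrix.mul_assoc, Units.inv_mul, Matrix.mul_one, Units.inv_mul_cancel_left]
  have e2 : X = c₁ • ((y⁻¹ : GL (Fin 2) F).1 * 1 * y.1) +
      c₂ • ((y⁻¹ : GL (Fin 2) F).1 * !![x, 0; 0, φ x] * y.1) +
      c₃ • ((y⁻¹ : GL (Fin 2) F).1 * !![0, 1; -1, 0] * y.1) +
      c₄ • ((y⁻¹ : GL (Fin 2) F).1 * (!![x, 0; 0, φ x] * !![0, 1; -1, 0]) * y.1) := by
    conv_lhs => rw [e1, hX]
    simp only [Matrix.mul_add, Matrix.add_mul, Matrix.mul_smul, Matrix.smul_mul]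
  rw [e2]
  exact Submodule.add_mem _ (Submodule.add_mem _ (Submodule.add_mem _
    (Submodule.smul_mem _ _ (hmem _ (sugt22span_un_one φ)))
    (Submodule.smul_mem _ _ (hmem _ hDu)))
    (Submodule.smul_mem _ _ (hmem _ hJu)))
    (Submodule.smul_mem _ _ (hmem _ (sugt22span_un_mul φ hDu hJu)))

end Cfsg.Agent.Lib.Helper49.SUG
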