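import Mathlib
import Cfsg.Prelude.Def_GeometricClasses
import Cfsg.Prelude.Def_LieClassical
import Cfsg.Agent.Lib.Helper71.Asch0
import Cfsg.Agent.Lib.Helper71.Asch5
import Cfsg.Agent.Lib.Helper46.U9TSQU
import Cfsg.Agent.Lib.Helper49.SUGXT22SIM
import Cfsg.Agent.Lib.Helper49.SUGXT22SPAN
import Cfsg.Agent.Lib.Helper49.SUGXT22AI

/-!
# S5663 project SUG (helper49), piece T22

The tensor case `2 ⊗ 2` (`n = 4`): assembly on top of the sub-pieces `t22sim`, `t22span`, `t22ai`.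
-/

set_option autoImplicit false

namespace Cfsg.Agent.Lib.Helper49.SUG

open Matrix Cfsg.Geo Cfsg.Agent.Lib.Helper71.Asch
open scoped Kronecker

variable {n : ℕ} {F : Type*} [Field F] [Fintype F] {q : ℕ}

omit [Fintype F] in
/-- the bilinear form with Gram matrix `N` is fixed by `g` when `gᵀ N g = N` -/
theorem sugt22_fix (N g : Matrix (Fin n) (Fin n) F) (c : F) (h : gᵀ * N * g = c • N)
    (u v : Fin n → F) : (g *ᵥ u) ⬝ᵥ (N *ᵥ (g *ᵥ v)) = c * (u ⬝ᵥ (N *ᵥ v)) := by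
  calc (g *ᵥ u) ⬝ᵥ (N *ᵥ (g *ᵥ v)) = (u ᵥ* gᵀ) ⬝ᵥ (N *ᵥ (g *ᵥ v)) := by
        rw [Matrix.vecMul_transpose]
    _ = u ⬝ᵥ (gᵀ *ᵥ (N *ᵥ (g *ᵥ v))) := (Matrix.dotProduct_mulVec u gᵀ _).symm
    _ = u ⬝ᵥ ((gᵀ * N * g) *ᵥ v) := by rw [Matrix.mulVec_mulVec, Matrix.mulVec_mulVec]
    _ = c * (u ⬝ᵥ (N *ᵥ v)) := by
        rw [h, Matrix.smul_mulVec, dotProduct_smul, smul_eq_mul]

omit [Fintype F] in
theorem sugt22_bil (N : Matrix (Fin n) (Fin n) F) :
    IsBilinearForm (fun u v : Fin n → F => u ⬝ᵥ (N *ᵥ v)) := by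
  refine ⟨?_, ?_, ?_, ?_⟩
  · intro x y v
    exact add_dotProduct x y _
  · intro c x v
    simp [smul_dotProduct]
  · intro v x y
    simp [Matrix.mulVec_add, dotProduct_add]
  · intro c v x
    simp [Matrix.mulVec_smul, dotProduct_smul]

omit [Fintype F] in
theorem sugt22_nd (N : Matrix (Fin n) (Fin n) F) (hN : N.det ≠ 0) :
    IsNondegenerateForm (fun u v : Fin n → F => u ⬝ᵥ (N *ᵥ v)) := by
  classical
  intro v hv
  constructor
  · -- N v ≠ 0
    have h1 : N *ᵥ v ≠ 0 := by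
      intro h0
      apply hv
      have hu : IsUnit N.det := isUnit_iff_ne_zero.mpr hN
      have := congrArg (fun w => N⁻¹ *ᵥ w) h0
      simpa [Matrix.mulVec_mulVec, Matrix.nonsing_inv_mul N hu] using this
    obtain ⟨i, hi⟩ : ∃ i, (N *ᵥ v) i ≠ 0 := by
      by_contra hcon
      push_neg at hcon
      exact h1 (funext hcon)
    refine ⟨Pi.single i 1, ?_⟩
    simpa [single_dotProduct] using hi
  · have h1 : v ᵥ* N ≠ 0 := by
      intro h0
      apply hv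
      have hu : IsUnit N.det := isUnit_iff_ne_zero.mpr hN
      have := congrArg (fun w => w ᵥ* N⁻¹) h0
      simpa [Matrix.vecMul_vecMul, Matrix.mul_nonsing_inv N hu] using this
    obtain ⟨i, hi⟩ : ∃ i, (v ᵥ* N) i ≠ 0 := by
      by_contra hcon
      push_neg at hcon
      exact h1 (funext hcon)
    refine ⟨Pi.single i 1, ?_⟩
    show v ⬝ᵥ (N *ᵥ Pi.single i 1) ≠ 0
    rw [Matrix.dotProduct_mulVec]
    simpa [dotProduct_single] using hi

omit [Fintype F] in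
theorem sugt22_tmat_mul {d k : ℕ} (e : Fin n ≃ Fin d × Fin k) (P : GL (Fin n) F)
    (a a' : Matrix (Fin d) (Fin d) F) (b b' : Matrix (Fin k) (Fin k) F) :
    tmat e P a b * tmat e P a' b' = tmat e P (a * a') (b * b') := by
  unfold tmat
  have h1 : (P⁻¹ : GL (Fin n) F).1 * P.1 = 1 := by
    rw [← Units.val_mul, inv_mul_cancel, Units.val_one]
  have h2 : Matrix.reindex e.symm e.symm (a ⊗ₖ b) * Matrix.reindex e.symm e.symm (a' ⊗ₖ b') =
      Matrix.reindex e.symm e.symm ((a * a') ⊗ₖ (b * b')) := by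
    rw [Matrix.mul_kronecker_mul]
    simp only [Matrix.reindex_apply]
    rw [Matrix.submatrix_mul_equiv]
  calc P.1 * Matrix.reindex e.symm e.symm (a ⊗ₖ b) * (P⁻¹ : GL (Fin n) F).1 *
        (P.1 * Matrix.reindex e.symm e.symm (a' ⊗ₖ b') * (P⁻¹ : GL (Fin n) F).1)
      = P.1 * (Matrix.reindex e.symm e.symm (a ⊗ₖ b) * ((P⁻¹ : GL (Fin n) F).1 * P.1) *
          Matrix.reindex e.symm e.symm (a' ⊗ₖ b')) * (P⁻¹ : GL (Fin n) F).1 := by
        simp only [Matrix.mul_assoc]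
    _ = _ := by rw [h1, Matrix.mul_one, h2]

omit [Fintype F] in
theorem sugt22_tmat_one {d k : ℕ} (e : Fin n ≃ Fin d × Fin k) (P : GL (Fin n) F) :
    tmat e P (1 : Matrix (Fin d) (Fin d) F) (1 : Matrix (Fin k) (Fin k) F) = 1 := by
  unfold tmat
  rw [Matrix.one_kronecker_one]
  simp

/-- T22: a tensor decomposition `2 ⊗ 2` of the unitary form (`n = 4`): the subgroup `M₀` of the
elements of `tensorProductSubgroup 2 2 e P ⊓ GU` fixing the bilinear form `J ⊗ J` (transported by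
`P`, `e`) is normalised by `H`, absolutely irreducible (it contains `SU(G₁) ⊗ SU(G₂)`) and fixes
a non-degenerate bilinear form. -/
theorem t22 (hF : Fintype.card F = q ^ 2) (H : Subgroup (GL (Fin n) F))
    (hH : H ≤ Cfsg.GU n F q) (e : Fin n ≃ Fin 2 × Fin 2) (P : GL (Fin n) F)
    (G₁ G₂ : Matrix (Fin 2) (Fin 2) F) (hd1 : G₁.det ≠ 0) (hd2 : G₂.det ≠ 0)
    (hh1 : ∀ a b, G₁ a b = (G₁ b a) ^ q) (hh2 : ∀ a b, G₂ a b = (G₂ b a) ^ q)
    (hid : ∀ x y : Fin 2 × Fin 2 → F,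
      Cfsg.hermForm n F q (P.1 *ᵥ (x ∘ e)) (P.1 *ᵥ (y ∘ e)) =
        formOfGram (fun c : F => c ^ q) (G₁ ⊗ₖ G₂) x y)
    (hHT : H ≤ tensorProductSubgroup 2 2 e P) :
    ∃ M₀ : Subgroup (GL (Fin n) F), M₀ ≤ Cfsg.GU n F q ∧ Nrm H M₀ ∧
      ActsAbsolutelyIrreducibly (matrixSet M₀) ∧
      ∃ b : (Fin n → F) → (Fin n → F) → F, IsBilinearForm b ∧ IsNondegenerateForm b ∧
        FixesForm (matrixSet M₀) b := by
  classical
  obtain ⟨Kr, hKr⟩ : ∃ Kr : Matrix (Fin n) (Fin n) F,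
      Kr = Matrix.reindex e.symm e.symm (sugJ F ⊗ₖ sugJ F) := ⟨_, rfl⟩
  obtain ⟨Q, hQ⟩ : ∃ Q : Matrix (Fin n) (Fin n) F, Q = (P⁻¹ : GL (Fin n) F).1 := ⟨_, rfl⟩
  obtain ⟨N, hN⟩ : ∃ N : Matrix (Fin n) (Fin n) F, N = Qᵀ * Kr * Q := ⟨_, rfl⟩
  have hQP : Q * P.1 = 1 := by
    rw [hQ, ← Units.val_mul, inv_mul_cancel, Units.val_one]
  have hPQ : P.1 * Q = 1 := by
    rw [hQ, ← Units.val_mul, mul_inv_cancel, Units.val_one]
  have htm : ∀ (a b : Matrix (Fin 2) (Fin 2) F),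
      tmat e P a b = P.1 * Matrix.reindex e.symm e.symm (a ⊗ₖ b) * Q := by
    intro a b
    rw [hQ]
    rfl
  -- similarity
  have hsim : ∀ a b : Matrix (Fin 2) (Fin 2) F,
      (tmat e P a b)ᵀ * N * tmat e P a b = (a.det * b.det) • N := by
    intro a b
    rw [htm, hN]
    obtain ⟨R, hR⟩ : ∃ R : Matrix (Fin n) (Fin n) F,
        R = Matrix.reindex e.symm e.symm (a ⊗ₖ b) := ⟨_, rfl⟩
    rw [← hR]
    have h1 : (P.1 * R * Q)ᵀ = Qᵀ * Rᵀ * P.1ᵀ := by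
      rw [Matrix.transpose_mul, Matrix.transpose_mul, Matrix.mul_assoc]
    have h2 : P.1ᵀ * Qᵀ = 1 := by rw [← Matrix.transpose_mul, hQP, Matrix.transpose_one]
    have h3 : Rᵀ * Kr * R = (a.det * b.det) • Kr := by
      rw [hR, hKr]
      have := t22sim a b
      simp only [Matrix.reindex_apply, Matrix.transpose_submatrix]
      rw [Matrix.submatrix_mul_equiv, Matrix.submatrix_mul_equiv, this, Matrix.submatrix_smul]
      rfl
    rw [h1]
    calc Qᵀ * Rᵀ * P.1ᵀ * (Qᵀ * Kr * Q) * (P.1 * R * Q)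
        = Qᵀ * (Rᵀ * ((P.1ᵀ * Qᵀ) * Kr * (Q * P.1)) * R) * Q := by
          simp only [Matrix.mul_assoc]
      _ = Qᵀ * (Rᵀ * Kr * R) * Q := by
          rw [h2, hQP, Matrix.mul_one, Matrix.one_mul, ← Matrix.mul_assoc]
      _ = (a.det * b.det) • (Qᵀ * Kr * Q) := by
          rw [h3, Matrix.mul_smul, Matrix.smul_mul]
  have hdetN : N.det ≠ 0 := by
    rw [hN, Matrix.det_mul, Matrix.det_mul, Matrix.det_transpose, hKr, Matrix.det_reindex_self,
      Matrix.det_kronecker]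
    have hJ : (sugJ F).det = 1 := by
      simp [sugJ, Matrix.det_fin_two]
    have hQd : Q.det ≠ 0 := by
      intro h0
      have := congrArg Matrix.det hQP
      rw [Matrix.det_mul, h0, zero_mul, Matrix.det_one] at this
      exact zero_ne_one this
    rw [hJ]
    simpa using hQd
  let M₀ : Subgroup (GL (Fin n) F) :=
    { carrier := {g | g ∈ tensorProductSubgroup 2 2 e P ∧ g ∈ Cfsg.GU n F q ∧
        g.1ᵀ * N * g.1 = N}
      mul_mem' := by
        rintro x y ⟨hx1, hx2, hx3⟩ ⟨hy1, hy2, hy3⟩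
        refine ⟨Subgroup.mul_mem _ hx1 hy1, Subgroup.mul_mem _ hx2 hy2, ?_⟩
        rw [Units.val_mul, Matrix.transpose_mul]
        calc y.1ᵀ * x.1ᵀ * N * (x.1 * y.1) = y.1ᵀ * (x.1ᵀ * N * x.1) * y.1 := by
              simp only [Matrix.mul_assoc]
          _ = N := by rw [hx3, hy3]
      one_mem' := ⟨Subgroup.one_mem _, Subgroup.one_mem _, by simp⟩
      inv_mem' := by
        rintro x ⟨hx1, hx2, hx3⟩
        refine ⟨Subgroup.inv_mem _ hx1, Subgroup.inv_mem _ hx2, ?_⟩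
        have hxi : x.1 * (x⁻¹ : GL (Fin n) F).1 = 1 := by
          rw [← Units.val_mul, mul_inv_cancel, Units.val_one]
        calc (x⁻¹ : GL (Fin n) F).1ᵀ * N * (x⁻¹ : GL (Fin n) F).1
            = (x⁻¹ : GL (Fin n) F).1ᵀ * (x.1ᵀ * N * x.1) * (x⁻¹ : GL (Fin n) F).1 := by rw [hx3]
          _ = (x.1 * (x⁻¹ : GL (Fin n) F).1)ᵀ * N * (x.1 * (x⁻¹ : GL (Fin n) F).1) := by
              rw [Matrix.transpose_mul]
              simp only [Matrix.mul_assoc]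
          _ = N := by rw [hxi]; simp }
  have hM₀ : ∀ g : GL (Fin n) F, g ∈ M₀ ↔ (g ∈ tensorProductSubgroup 2 2 e P ∧
      g ∈ Cfsg.GU n F q ∧ g.1ᵀ * N * g.1 = N) := fun g => Iff.rfl
  refine ⟨M₀, fun g hg => ((hM₀ g).1 hg).2.1, ?_, ?_, fun u v => u ⬝ᵥ (N *ᵥ v), sugt22_bil N,
    sugt22_nd N hdetN, ?_⟩
  · -- normalised by H
    intro h hh x hx
    obtain ⟨hx1, hx2, hx3⟩ := (hM₀ x).1 hx
    have hhT := hHT hh
    obtain ⟨a, b, hab⟩ := (mem_tensorProductSubgroup_iff e P h).1 hhT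
    have hs := hsim a.1 b.1
    rw [← hab] at hs
    obtain ⟨c, hc⟩ : ∃ c : F, c = a.1.det * b.1.det := ⟨_, rfl⟩
    rw [← hc] at hs
    have hc0 : c ≠ 0 := by
      rw [hc]
      have ha : a.1.det ≠ 0 := by
        intro h0
        have := congrArg Matrix.det (show a.1 * (a⁻¹ : GL (Fin 2) F).1 = 1 by
          rw [← Units.val_mul, mul_inv_cancel, Units.val_one])
        rw [Matrix.det_mul, h0, zero_mul, Matrix.det_one] at this
        exact zero_ne_one this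
      have hb : b.1.det ≠ 0 := by
        intro h0
        have := congrArg Matrix.det (show b.1 * (b⁻¹ : GL (Fin 2) F).1 = 1 by
          rw [← Units.val_mul, mul_inv_cancel, Units.val_one])
        rw [Matrix.det_mul, h0, zero_mul, Matrix.det_one] at this
        exact zero_ne_one this
      exact mul_ne_zero ha hb
    have hhi : h.1 * (h⁻¹ : GL (Fin n) F).1 = 1 := by
      rw [← Units.val_mul, mul_inv_cancel, Units.val_one]
    have hinv : (h⁻¹ : GL (Fin n) F).1ᵀ * N * (h⁻¹ : GL (Fin n) F).1 = c⁻¹ • N := by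
      have h1 : (h⁻¹ : GL (Fin n) F).1ᵀ * (h.1ᵀ * N * h.1) * (h⁻¹ : GL (Fin n) F).1 = N := by
        calc (h⁻¹ : GL (Fin n) F).1ᵀ * (h.1ᵀ * N * h.1) * (h⁻¹ : GL (Fin n) F).1
            = (h.1 * (h⁻¹ : GL (Fin n) F).1)ᵀ * N * (h.1 * (h⁻¹ : GL (Fin n) F).1) := by
              rw [Matrix.transpose_mul]
              simp only [Matrix.mul_assoc]
          _ = N := by rw [hhi]; simp
      rw [hs, Matrix.mul_smul, Matrix.smul_mul] at h1
      calc (h⁻¹ : GL (Fin n) F).1ᵀ * N * (h⁻¹ : GL (Fin n) F).1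
          = c⁻¹ • (c • ((h⁻¹ : GL (Fin n) F).1ᵀ * N * (h⁻¹ : GL (Fin n) F).1)) := by
            rw [smul_smul, inv_mul_cancel₀ hc0, one_smul]
        _ = c⁻¹ • N := by rw [h1]
    refine (hM₀ _).2 ⟨Subgroup.mul_mem _ (Subgroup.mul_mem _ hhT hx1) (Subgroup.inv_mem _ hhT),
      Subgroup.mul_mem _ (Subgroup.mul_mem _ (hH hh) hx2) (Subgroup.inv_mem _ (hH hh)), ?_⟩
    rw [Units.val_mul, Units.val_mul, Matrix.transpose_mul, Matrix.transpose_mul]
    calc (h⁻¹ : GL (Fin n) F).1ᵀ * (x.1ᵀ * h.1ᵀ) * N * (h.1 * x.1 * (h⁻¹ : GL (Fin n) F).1)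
        = (h⁻¹ : GL (Fin n) F).1ᵀ * (x.1ᵀ * (h.1ᵀ * N * h.1) * x.1) *
            (h⁻¹ : GL (Fin n) F).1 := by
          simp only [Matrix.mul_assoc]
      _ = c • ((h⁻¹ : GL (Fin n) F).1ᵀ * (x.1ᵀ * N * x.1) * (h⁻¹ : GL (Fin n) F).1) := by
          rw [hs]
          simp only [Matrix.mul_smul, Matrix.smul_mul]
      _ = N := by
          rw [hx3, hinv, smul_smul, mul_inv_cancel₀ hc0, one_smul]
  · -- absolutely irreducible
    refine t22ai e P _ _ (t22span hF G₁ hh1 hd1) (t22span hF G₂ hh2 hd2) M₀ ?_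
    rintro A ⟨hA1, hA2⟩ B ⟨hB1, hB2⟩
    have hAu : IsUnit A.det := by rw [hA2]; exact isUnit_one
    have hBu : IsUnit B.det := by rw [hB2]; exact isUnit_one
    obtain ⟨a, ha⟩ : ∃ a : GL (Fin 2) F, a.1 = A :=
      ⟨Matrix.GeneralLinearGroup.mk'' A hAu, rfl⟩
    obtain ⟨b, hb⟩ : ∃ b : GL (Fin 2) F, b.1 = B :=
      ⟨Matrix.GeneralLinearGroup.mk'' B hBu, rfl⟩
    obtain ⟨g, hg⟩ : ∃ g : GL (Fin n) F, g.1 = tmat e P A B := by
      refine ⟨⟨tmat e P a.1 b.1, tmat e P (a⁻¹ : GL (Fin 2) F).1 (b⁻¹ : GL (Fin 2) F).1, ?_, ?_⟩,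
        ?_⟩
      · rw [sugt22_tmat_mul, ← Units.val_mul, ← Units.val_mul, mul_inv_cancel, mul_inv_cancel,
          Units.val_one, sugt22_tmat_one]
      · rw [sugt22_tmat_mul, ← Units.val_mul, ← Units.val_mul, inv_mul_cancel, inv_mul_cancel,
          Units.val_one, sugt22_tmat_one]
      · show tmat e P a.1 b.1 = tmat e P A B
        rw [ha, hb]
    refine ⟨g, (hM₀ g).2 ⟨?_, ?_, ?_⟩, hg⟩
    · exact (mem_tensorProductSubgroup_iff e P g).2 ⟨a, b, by rw [hg, ha, hb]⟩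
    · -- in GU
      have hkron : (A ⊗ₖ B)ᵀ * (G₁ ⊗ₖ G₂) * (A ⊗ₖ B).map (fun c : F => c ^ q) = G₁ ⊗ₖ G₂ := by
        have h1 : (A ⊗ₖ B)ᵀ = Aᵀ ⊗ₖ Bᵀ := by
          ext ⟨i, j⟩ ⟨k, l⟩
          simp [Matrix.kroneckerMap_apply]
        have h2 : (A ⊗ₖ B).map (fun c : F => c ^ q) =
            A.map (fun c : F => c ^ q) ⊗ₖ B.map (fun c : F => c ^ q) := by
          ext ⟨i, j⟩ ⟨k, l⟩
          simp [Matrix.kroneckerMap_apply, mul_pow]
        rw [h1, h2, ← Matrix.mul_kronecker_mul, ← Matrix.mul_kronecker_mul, hA1, hB1]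
      have hu' : ∀ u : Fin n → F, u = P.1 *ᵥ ((fun i => (Q *ᵥ u) (e.symm i)) ∘ e) := by
        intro u
        have : ((fun i => (Q *ᵥ u) (e.symm i)) ∘ e) = Q *ᵥ u := by
          funext j
          simp
        rw [this, Matrix.mulVec_mulVec, hPQ, Matrix.one_mulVec]
      have key : ∀ u : Fin n → F, g.1 *ᵥ u =
          P.1 *ᵥ (((A ⊗ₖ B) *ᵥ (fun i => (Q *ᵥ u) (e.symm i))) ∘ e) := by
        intro u
        rw [hg, htm, ← Matrix.mulVec_mulVec, ← Matrix.mulVec_mulVec]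
        congr 1
        rw [Matrix.reindex_apply, Matrix.submatrix_mulVec_equiv]
        rfl
      intro u v
      show Cfsg.hermForm n F q (g.1 *ᵥ u) (g.1 *ᵥ v) = Cfsg.hermForm n F q u v
      calc Cfsg.hermForm n F q (g.1 *ᵥ u) (g.1 *ᵥ v)
          = formOfGram (fun c : F => c ^ q) (G₁ ⊗ₖ G₂)
              ((A ⊗ₖ B) *ᵥ (fun i => (Q *ᵥ u) (e.symm i)))
              ((A ⊗ₖ B) *ᵥ (fun i => (Q *ᵥ v) (e.symm i))) := by
            rw [key u, key v, hid]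
        _ = formOfGram (fun c : F => c ^ q) (G₁ ⊗ₖ G₂)
              (fun i => (Q *ᵥ u) (e.symm i)) (fun i => (Q *ᵥ v) (e.symm i)) := by
            rw [Cfsg.Agent.Lib.Helper44.U9.TSQU_conj hF, hkron]
        _ = Cfsg.hermForm n F q u v := by
            rw [← hid, ← hu' u, ← hu' v]
    · have := hsim A B
      rw [hA2, hB2, one_mul, one_smul, ← hg] at this
      exact this
  · rintro s ⟨g, hg, rfl⟩ u v
    have h3 := ((hM₀ g).1 hg).2.2
    have := sugt22_fix N g.1 1 (by rw [one_smul]; exact h3) u v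
    simpa using this

end Cfsg.Agent.Lib.Helper49.SUG
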