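import Mathlib
import Cfsg.Prelude.Def_GeometricClasses
import Cfsg.Prelude.Def_LieClassical
import Cfsg.Agent.Lib.Helper71.Asch0
import Cfsg.Agent.Lib.Helper71.Asch5
import Cfsg.Agent.Lib.Helper75.SPPEVEN
import Cfsg.Agent.Lib.Helper7.GUOrder

/-!
# S5663 project SUG (helper49), piece U8EV

Filled by helper82 (job 4832); the statement and the namespace are those of the placeholder.
-/

set_option autoImplicit false

namespace Cfsg.Agent.Lib.Helper49.SUG

open Matrix Cfsg.Geo Cfsg.Agent.Lib.Helper71.Asch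
open scoped Kronecker

variable {n : ℕ} {F : Type*} [Field F] [Fintype F] {q : ℕ}

/-- induction over the standard basis -/
theorem sugu8ev_ind (p : (Fin n → F) → Prop) (h0 : p 0) (hadd : ∀ x y, p x → p y → p (x + y))
    (hsmul : ∀ (c : F) x, p x → p (c • x)) (hbasis : ∀ i, p (Pi.single i 1)) : ∀ x, p x := by
  intro x
  have hx : x ∈ Submodule.span F (Set.range (Pi.basisFun F (Fin n))) := by
    rw [(Pi.basisFun F (Fin n)).span_eq]
    exact Submodule.mem_top
  induction hx using Submodule.span_induction with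
  | mem v hv =>
    obtain ⟨i, rfl⟩ := hv
    rw [Pi.basisFun_apply]
    exact hbasis i
  | zero => exact h0
  | add a c _ _ ha hc => exact hadd a c ha hc
  | smul c a _ ha => exact hsmul c a ha

theorem sugu8ev_zero_left (b : (Fin n → F) → (Fin n → F) → F) (hb : IsBilinearForm b)
    (v : Fin n → F) : b 0 v = 0 := by
  have h := hb.smul_left 0 0 v
  rw [zero_smul, zero_mul] at h
  exact h

theorem sugu8ev_zero_right (b : (Fin n → F) → (Fin n → F) → F) (hb : IsBilinearForm b)
    (v : Fin n → F) : b v 0 = 0 := by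
  have h := hb.smul_right 0 v 0
  rw [zero_smul, zero_mul] at h
  exact h

/-- a bilinear form that is skew on the standard basis is skew -/
theorem sugu8ev_skew (b : (Fin n → F) → (Fin n → F) → F) (hb : IsBilinearForm b)
    (h2 : ∀ i j, b (Pi.single i 1) (Pi.single j 1) + b (Pi.single j 1) (Pi.single i 1) = 0) :
    ∀ x y, b x y + b y x = 0 := by
  have h3 : ∀ x : Fin n → F, ∀ j, b x (Pi.single j 1) + b (Pi.single j 1) x = 0 := by
    intro x
    refine sugu8ev_ind (fun x => ∀ j, b x (Pi.single j 1) + b (Pi.single j 1) x = 0)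
      ?_ ?_ ?_ ?_ x
    · intro j
      rw [sugu8ev_zero_left b hb, sugu8ev_zero_right b hb, add_zero]
    · intro x y hx hy j
      rw [hb.add_left, hb.add_right]
      linear_combination hx j + hy j
    · intro c x hx j
      rw [hb.smul_left, hb.smul_right]
      linear_combination c * hx j
    · intro i j
      exact h2 i j
  intro x y
  refine sugu8ev_ind (fun y => ∀ x, b x y + b y x = 0) ?_ ?_ ?_ ?_ y x
  · intro x
    rw [sugu8ev_zero_left b hb, sugu8ev_zero_right b hb, add_zero]
  · intro y z hy hz x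
    rw [hb.add_left, hb.add_right]
    linear_combination hy x + hz x
  · intro c y hy x
    rw [hb.smul_left, hb.smul_right]
    linear_combination c * hy x
  · intro j x
    exact h3 x j

/-- a bilinear form that is alternating on the standard basis is alternating -/
theorem sugu8ev_alt (b : (Fin n → F) → (Fin n → F) → F) (hb : IsBilinearForm b)
    (h1 : ∀ i, b (Pi.single i 1) (Pi.single i 1) = 0)
    (h2 : ∀ i j, b (Pi.single i 1) (Pi.single j 1) + b (Pi.single j 1) (Pi.single i 1) = 0) :
    ∀ x, b x x = 0 := by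
  have hs := sugu8ev_skew b hb h2
  refine sugu8ev_ind (fun x => b x x = 0) ?_ ?_ ?_ ?_
  · exact sugu8ev_zero_left b hb 0
  · intro x y hx hy
    show b (x + y) (x + y) = 0
    rw [hb.add_left, hb.add_right, hb.add_right]
    linear_combination hx + hy + hs x y
  · intro c x hx
    show b (c • x) (c • x) = 0
    rw [hb.smul_left, hb.smul_right]
    linear_combination c * c * hx
  · exact h1

/-- U8EV: a symplectic-type rational structure (index 2, `ζ f` alternating on the rational
vectors) exists only in even dimension. -/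
theorem u8ev (hF : Fintype.card F = q ^ 2) (F₁ : Subfield F)
    (hcard : Fintype.card F = Nat.card F₁ ^ 2) (P : GL (Fin n) F) (ζ : F) (hζ : ζ ≠ 0)
    (htr : ζ + ζ ^ q = 0)
    (hrat : IsFormRationalStructure (Cfsg.hermForm n F q) F₁ ζ P)
    (hiso : ∀ u : Fin n → F, (∀ i, u i ∈ F₁) →
      Cfsg.hermForm n F q ((P : Matrix (Fin n) (Fin n) F) *ᵥ u)
        ((P : Matrix (Fin n) (Fin n) F) *ᵥ u) = 0) : Even n := by
  classical
  have hq0 : q ≠ 0 := Cfsg.Agent.Lib.Helper7.herm_q_ne_zero hF
  obtain ⟨b, hbdef⟩ : ∃ b : (Fin n → F) → (Fin n → F) → F, ∀ x y, b x y =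
      Cfsg.hermForm n F q ((P : Matrix (Fin n) (Fin n) F) *ᵥ x)
        ((P : Matrix (Fin n) (Fin n) F) *ᵥ (fun j => y j ^ q)) := ⟨_, fun _ _ => rfl⟩
  have hb : IsBilinearForm b := by
    refine ⟨?_, ?_, ?_, ?_⟩
    · intro x y v
      rw [hbdef, hbdef, hbdef, Matrix.mulVec_add, Cfsg.Agent.Lib.Helper7.hf_add_left]
    · intro c x v
      rw [hbdef, hbdef, Matrix.mulVec_smul, Cfsg.Agent.Lib.Helper7.hf_smul_left]
    · intro v x y
      have e : (fun j => (x + y) j ^ q) = (fun j => x j ^ q) + (fun j => y j ^ q) := by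
        funext j
        rw [Pi.add_apply, Pi.add_apply, Cfsg.Agent.Lib.Helper7.herm_add_pow hF]
      rw [hbdef, hbdef, hbdef, e, Matrix.mulVec_add, Cfsg.Agent.Lib.Helper7.hf_add_right hF]
    · intro c v x
      have e : (fun j => (c • x) j ^ q) = c ^ q • (fun j => x j ^ q) := by
        funext j
        rw [Pi.smul_apply, Pi.smul_apply, smul_eq_mul, smul_eq_mul, mul_pow]
      rw [hbdef, hbdef, e, Matrix.mulVec_smul, Cfsg.Agent.Lib.Helper7.hf_smul_right,
        Cfsg.Agent.Lib.Helper7.herm_pow_pow hF]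
  have hσe : ∀ i : Fin n, (fun j => (Pi.single i (1 : F) : Fin n → F) j ^ q) = Pi.single i 1 := by
    intro i
    funext j
    by_cases hj : j = i
    · rw [hj, Pi.single_eq_same, one_pow]
    · rw [Pi.single_eq_of_ne hj, zero_pow hq0]
  have hmem : ∀ i : Fin n, ∀ j, (Pi.single i (1 : F) : Fin n → F) j ∈ F₁ := by
    intro i j
    by_cases hj : j = i
    · rw [hj, Pi.single_eq_same]
      exact F₁.one_mem
    · rw [Pi.single_eq_of_ne hj]
      exact F₁.zero_mem
  have h1 : ∀ i, b (Pi.single i 1) (Pi.single i 1) = 0 := by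
    intro i
    rw [hbdef, hσe]
    exact hiso _ (hmem i)
  have h2 : ∀ i j, b (Pi.single i 1) (Pi.single j 1) + b (Pi.single j 1) (Pi.single i 1) = 0 := by
    intro i j
    obtain ⟨u, hu⟩ : ∃ u : Fin n → F, u = Pi.single i 1 + Pi.single j 1 := ⟨_, rfl⟩
    have e : (fun k => u k ^ q) = u := by
      funext k
      rw [hu, Pi.add_apply, Cfsg.Agent.Lib.Helper7.herm_add_pow hF]
      have e1 := congrFun (hσe i) k
      have e2 := congrFun (hσe j) k
      simp only at e1 e2
      rw [e1, e2]
    have h3 : b u u = 0 := by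
      rw [hbdef, e]
      apply hiso
      intro k
      rw [hu, Pi.add_apply]
      exact F₁.add_mem (hmem i k) (hmem j k)
    rw [hu, hb.add_left, hb.add_right, hb.add_right, h1 i, h1 j] at h3
    linear_combination h3
  have halt := sugu8ev_alt b hb h1 h2
  have hskew := sugu8ev_skew b hb h2
  have hnd : IsNondegenerateOn b ⊤ := by
    intro w _ hw
    have key : ∃ x, b x w ≠ 0 := by
      obtain ⟨j, hj⟩ : ∃ j, w j ≠ 0 := by
        by_contra hc
        push Not at hc
        exact hw (funext hc)
      have hv : (P : Matrix (Fin n) (Fin n) F) *ᵥ (fun j => w j ^ q) ≠ 0 := by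
        intro h0
        have h3 : (P⁻¹ : GL (Fin n) F).1 *ᵥ ((P : Matrix (Fin n) (Fin n) F) *ᵥ (fun j => w j ^ q))
            = 0 := by rw [h0, Matrix.mulVec_zero]
        rw [Matrix.mulVec_mulVec, ← Units.val_mul, inv_mul_cancel, Units.val_one,
          Matrix.one_mulVec] at h3
        have h4 := congrFun h3 j
        simp only [Pi.zero_apply] at h4
        exact hj (pow_eq_zero_iff hq0 |>.mp h4)
      obtain ⟨k, hk⟩ : ∃ k, ((P : Matrix (Fin n) (Fin n) F) *ᵥ (fun j => w j ^ q)) k ≠ 0 := by
        by_contra hc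
        push Not at hc
        exact hv (funext hc)
      refine ⟨(P⁻¹ : GL (Fin n) F).1 *ᵥ Pi.single k 1, ?_⟩
      rw [hbdef, Matrix.mulVec_mulVec, ← Units.val_mul, mul_inv_cancel, Units.val_one,
        Matrix.one_mulVec]
      unfold Cfsg.hermForm
      rw [Finset.sum_eq_single k]
      · rw [Pi.single_eq_same, one_mul]
        exact pow_ne_zero q hk
      · intro i _ hi
        rw [Pi.single_eq_of_ne hi, zero_mul]
      · intro h
        exact absurd (Finset.mem_univ _) h
    obtain ⟨x, hx⟩ := key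
    refine ⟨⟨x, Submodule.mem_top, hx⟩, x, Submodule.mem_top, ?_⟩
    intro h0
    apply hx
    have h3 := hskew x w
    rw [h0, add_zero] at h3
    exact h3
  have hev := Cfsg.Agent.Lib.Helper75.SPPEVEN.EVEN b hb halt ⊤ hnd
  rw [finrank_top, Module.finrank_fin_fun] at hev
  exact hev

end Cfsg.Agent.Lib.Helper49.SUG
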