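import Mathlib
import Cfsg.Prelude.Def_GeometricClasses
import Cfsg.Prelude.Def_LieClassical
import Cfsg.Agent.Lib.Helper71.Asch0
import Cfsg.Agent.Lib.Helper71.Asch5
import Cfsg.Agent.Lib.Helper36.UTIFMain

/-!
# S5663 project SUG (helper49), piece UTIF

Filled by helper36 (sub-architect): `utif` is `Cfsg.Agent.Lib.Helper36.UTIF.utif_main`
(assembly in Lib/Helper36/UTIFMain.lean from the team pieces Lib/Helper36/UTIF*.lean).  Unitary twin of Lib/Helper71/SPGTIF.lean (TIF).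
-/

set_option autoImplicit false

namespace Cfsg.Agent.Lib.Helper49.SUG

open Matrix Cfsg.Geo Cfsg.Agent.Lib.Helper71.Asch
open scoped Kronecker

variable {n : ℕ} {F : Type*} [Field F] [Fintype F] {q : ℕ}

/-- UTIF: the tensor-induced branch for unitary groups.  `L = ⁅L, L⁆` absolutely irreducible, the
product of `k ≥ 2` pairwise commuting non-scalar subgroups permuted transitively by `H ≤ GU`:
the form is a tensor power of a unitary form in dimension `d ≥ 3`, `(q, d) ≠ (2, 3)`, and `H`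
lies in the tensor-wreath subgroup; or (`d = 2`) `L` fixes a non-degenerate bilinear form. -/
theorem utif (hF : Fintype.card F = q ^ 2) (hn : 3 ≤ n) (H L : Subgroup (GL (Fin n) F))
    (hH : H ≤ Cfsg.GU n F q) (hL : IsMinNS H L)
    (hLa : ActsAbsolutelyIrreducibly (matrixSet L)) (hc : ⁅L, L⁆ = L)
    (k : ℕ) (Ps : Fin k → Subgroup (GL (Fin n) F)) (hk : 2 ≤ k)
    (hns : ∀ i, ¬ Ps i ≤ scalars (Fin n) F)
    (hcomm : ∀ i j, i ≠ j → ∀ x ∈ Ps i, ∀ y ∈ Ps j, x * y = y * x)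
    (hsup : L = ⨆ i, Ps i)
    (hperm : ∀ h ∈ H, ∃ σ : Equiv.Perm (Fin k), ∀ i,
      (Ps i).map (MulAut.conj h).toMonoidHom = Ps (σ i))
    (htrans : ∀ i j, ∃ h ∈ H, (Ps i).map (MulAut.conj h).toMonoidHom = Ps j) :
    (∃ (d t : ℕ) (e : Fin n ≃ (Fin t → Fin d)) (P : GL (Fin n) F)
      (f₁ : (Fin d → F) → (Fin d → F) → F), 3 ≤ d ∧ 2 ≤ t ∧ ¬ (q = 2 ∧ d = 3) ∧
      IsUnitaryFormPow q f₁ ∧
      IsTensorPowerFormStructure (fun x : F => x ^ q) (Cfsg.hermForm n F q) f₁ e P ∧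
      H ≤ tensorWreathSubgroup d t e P) ∨
    (∃ f : (Fin n → F) → (Fin n → F) → F, IsBilinearForm f ∧ IsNondegenerateForm f ∧
      FixesForm (matrixSet L) f) := by
  exact Cfsg.Agent.Lib.Helper36.UTIF.utif_main hF hn H L hH hL hLa hc k Ps hk hns hcomm hsup hperm
    htrans

end Cfsg.Agent.Lib.Helper49.SUG
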