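import Mathlib
import Cfsg.Agent.Lib.Helper50.SU8Main
import Cfsg.Agent.Lib.Helper1.SUGXT
import Cfsg.Agent.Lib.Helper49.SUGXUTIF
import Cfsg.Agent.Lib.Helper49.SUGXBAD
import Cfsg.Agent.Lib.Helper49.SUGXNFU
import Cfsg.Agent.Lib.Helper49.SUGXTSQG
import Cfsg.Agent.Lib.Helper49.SUGXTPWG
import Cfsg.Agent.Lib.Helper49.SUGXT22
import Cfsg.Agent.Lib.Helper49.SUGXU8EV

/-! Project SUG (helper49): the subgroup structure theorem for `SU_n(q)`, all `n ≥ 3`
(statement S5663): assembly on top of the SUP/SUQ/SU8/U9 pieces and the SUG pieces. -/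

set_option autoImplicit false

namespace Cfsg.Agent.Lib.Helper49.SUG

open Matrix Cfsg.Geo Cfsg.Agent.Lib.Helper71.Asch
open scoped Kronecker
open Cfsg.Agent.Lib.Helper82.ASCOREB (coreB)
open Cfsg.Agent.Lib.Helper21.ASCOREC (coreC)
open Cfsg.Agent.Lib.Helper46.ASB3s (B3s B3a)
open Cfsg.Agent.Lib.Helper61.ASB6 (B6)
open Cfsg.Agent.Lib.Helper67.ASNL (NL_core exists_subfield_aut)
open Cfsg.Agent.Lib.Helper46.ASB7core (B7core)
open Cfsg.Agent.Lib.Helper73.SLPC2 (C2)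
open Cfsg.Agent.Lib.Helper1.SUPU3 (U3_even)
open Cfsg.Agent.Lib.Helper21.SUPU1 (U1)
open Cfsg.Agent.Lib.Helper19.SUPU7 (U7)
open Cfsg.Agent.Lib.Helper89.SUPU8a (U8a)
open Cfsg.Agent.Lib.Helper46.SUPU8b (U8b)
open Cfsg.Agent.Lib.Helper86.SPPCAP (CAP)
open Cfsg.Agent.Lib.Helper83.SPPHOMP (HOMP)
open Cfsg.Agent.Lib.Helper10.SPPUNIQ (UNIQ)
open Cfsg.Agent.Lib.Helper50.SUQMain (exists_minNS)
open Cfsg.Agent.Lib.Helper71.SUPMain (GU_le_sim)
open Cfsg.Agent.Lib.Helper88.SUQPERP (PERP)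
open Cfsg.Agent.Lib.Helper93.SUQPAIRa (PAIRa)
open Cfsg.Agent.Lib.Helper61.SUQPAIRb (PAIRb)
open Cfsg.Agent.Lib.Helper84.SUQPLNM (PLNM)
open Cfsg.Agent.Lib.Helper68.SUQADJ (ADJ)
open Cfsg.Agent.Lib.Helper31.SUQFLD2 (FLD2)
open Cfsg.Agent.Lib.Helper60.SUQTF (TF)
open Cfsg.Agent.Lib.Helper66.SUQTFSW (TFSW)
open Cfsg.Agent.Lib.Helper50.SUQTFS (TFS)
open Cfsg.Agent.Lib.Helper2.SUQU8E (U8E)
open Cfsg.Agent.Lib.Helper1.SUGXT (XTU)

variable {n : ℕ} {F : Type*} [Field F] [Fintype F] {q : ℕ}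

/-- The normal form of a subgroup of `GU_n(q)`. -/
def GenSU (n : ℕ) (q : ℕ) (H : Subgroup (GL (Fin n) F)) : Prop :=
  (∃ M : Subgroup (GL (Fin n) F), InUnitaryClass n F q M ∧ H ≤ M) ∨ InUnitaryResidualClass H

/-- `H` normalises `L`, in the form of the class-6 members. -/
theorem le_subgroupNormalizer_of_nrm (H L : Subgroup (GL (Fin n) F)) (hN : Nrm H L) :
    H ≤ subgroupNormalizer L := by
  intro h hh
  unfold subgroupNormalizer
  rw [Subgroup.mem_normalizer_iff]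
  intro x
  constructor
  · intro hx
    exact hN h hh x hx
  · intro hx
    have := hN h⁻¹ (H.inv_mem hh) _ hx
    have h3 : h⁻¹ * (h * x * h⁻¹) * h⁻¹⁻¹ = x := by group
    rwa [h3] at this

/-- GENSU: the structure of a subgroup of `GU_n(q)`, `n ≥ 3`. -/
theorem genSU (hF : Fintype.card F = q ^ 2) (hn : 3 ≤ n) (H : Subgroup (GL (Fin n) F))
    (hH : H ≤ Cfsg.GU n F q) : GenSU n q H := by
  classical
  -- the subfield alternative
  have sub : ∀ L : Subgroup (GL (Fin n) F), Nrm H L → L ≤ Cfsg.GU n F q →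
      ActsAbsolutelyIrreducibly (matrixSet L) →
      ∀ F₀ : Subfield F, F₀ ≠ ⊤ → RealisableOver F₀ (matrixSet L) → GenSU n q H := by
    intro L hLn hLGU hLa F₀ hF₀ hreal
    obtain ⟨F₁, r, τ', hr, hcardF, hle, hfixτ⟩ := exists_subfield_aut F₀ hF₀
    obtain ⟨B, hB⟩ := hreal
    have hB₁ : ∀ s ∈ matrixSet L, ∀ i j,
        (B.1 * s * (B⁻¹ : GL (Fin n) F).1) i j ∈ F₁ :=
      fun s hs i j => hle (hB s hs i j)
    have hHle : H ≤ subfieldSubgroup F₁ B⁻¹ := by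
      intro h hh
      have key := NL_core L hLa F₁ τ' hfixτ B hB₁ h (fun x hx => hLn h hh x hx)
      unfold subfieldSubgroup
      refine ⟨B * h * B⁻¹, key, ?_⟩
      show B⁻¹ * (B * h * B⁻¹) * B⁻¹⁻¹ = h
      group
    obtain ⟨ζ, hζ, hrat⟩ := U8a hF (by omega) L hLGU hLa F₁ τ' hfixτ B hB₁
    rcases hr.eq_two_or_odd' with h2 | hro
    · subst h2
      rcases U8E hF (by omega) L hLGU hLa F₁ hcardF B hB₁ ζ hζ hrat with
        ⟨ζ', hζ', htr, hrat', hiso'⟩ | ⟨hqo, hrat1⟩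
      · have hev : Even n := u8ev hF F₁ hcardF B⁻¹ ζ' hζ' htr hrat' hiso'
        exact Or.inl ⟨_, Or.inl (Or.inr (Or.inr (Or.inr (Or.inr (Or.inr (Or.inr (Or.inl
          ⟨F₁, B⁻¹, ζ', hev, hcardF, hζ', htr, hrat', hiso', rfl⟩))))))), le_inf hHle hH⟩
      · exact Or.inl ⟨_, Or.inl (Or.inr (Or.inr (Or.inr (Or.inr (Or.inr (Or.inl
          ⟨F₁, B⁻¹, hqo, hcardF, hrat1, rfl⟩)))))), le_inf hHle hH⟩
    · obtain ⟨P', hP', hsub⟩ := U8b hF (by omega) F₁ r hro hcardF B⁻¹ ζ hζ hrat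
      exact Or.inl ⟨_, Or.inl (Or.inr (Or.inr (Or.inr (Or.inr (Or.inl
        ⟨F₁, r, P', hr, hro, hcardF, hP', rfl⟩))))), le_inf (by rw [hsub]; exact hHle) hH⟩
  -- the bilinear alternative
  have bil : ∀ L : Subgroup (GL (Fin n) F), Nrm H L → L ≤ Cfsg.GU n F q →
      ActsAbsolutelyIrreducibly (matrixSet L) →
      ∀ f : (Fin n → F) → (Fin n → F) → F, IsBilinearForm f →
      IsNondegenerateForm f → FixesForm (matrixSet L) f → GenSU n q H := by
    intro L hLn hLGU hLa f hb hnd hfix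
    obtain ⟨F₀, hF₀, hreal⟩ := U7 hF (by omega) L hLGU hLa f hb hnd hfix
    exact sub L hLn hLGU hLa F₀ hF₀ hreal
  -- the symplectic-type alternative
  have symt : ∀ H' E : Subgroup (GL (Fin n) F), H ≤ H' → H' ≤ Cfsg.GU n F q → SymT H' E →
      GenSU n q H := by
    intro H' E hHH' hH'GU hsym
    have hEGU : E ≤ Cfsg.GU n F q := hsym.min.le.trans hH'GU
    have hEn : Nrm H E := fun h hh x hx => hsym.min.nrm h (hHH' hh) x hx
    rcases XTU hF hn H' E hEGU hsym with ⟨F₁, hF₁, hreal⟩ |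
      ⟨r, p, e', k, hst, hrp, hmin, hcase⟩
    · exact sub E hEn hEGU hsym.abs F₁ hF₁ hreal
    · exact Or.inl ⟨_, Or.inl (Or.inr (Or.inr (Or.inr (Or.inr (Or.inr (Or.inr (Or.inr
        ⟨r, E, p, e', k, hst, hsym.abs, hEGU.trans GU_le_sim, hrp, hmin, hcase, rfl⟩))))))),
        le_inf (le_subgroupNormalizer_of_nrm H E hEn) hH⟩
  -- the tensor alternative
  have tens : ∀ (a b : ℕ) (e : Fin n ≃ Fin a × Fin b) (P : GL (Fin n) F)
      (G₁ : Matrix (Fin a) (Fin a) F) (G₂ : Matrix (Fin b) (Fin b) F), 2 ≤ a → a ≤ b →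
      G₁.det ≠ 0 → G₂.det ≠ 0 →
      (∀ x y, G₁ x y = (G₁ y x) ^ q) → (∀ x y, G₂ x y = (G₂ y x) ^ q) →
      (∀ x y : Fin a × Fin b → F,
        Cfsg.hermForm n F q (P.1 *ᵥ (x ∘ e)) (P.1 *ᵥ (y ∘ e)) =
          formOfGram (fun c : F => c ^ q) (G₁ ⊗ₖ G₂) x y) →
      H ≤ tensorProductSubgroup a b e P → GenSU n q H := by
    intro a b e P G₁ G₂ ha2 hab hd1 hd2 hh1 hh2 hid hHT
    rcases Nat.lt_or_ge a b with hlt | hge
    · obtain ⟨f₁, f₂, hf₁, hf₂, ht⟩ := TFS hF e P G₁ G₂ hd1 hd2 hh1 hh2 hid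
      exact Or.inl ⟨_, Or.inr (Or.inr (Or.inl
        ⟨a, b, e, P, f₁, f₂, ha2, hlt, hf₁, hf₂, ht, rfl⟩)), le_inf hHT hH⟩
    · obtain rfl : a = b := le_antisymm hab hge
      rcases Nat.lt_or_ge a 3 with h3 | h3
      · obtain rfl : a = 2 := by omega
        obtain ⟨M₀, hM₀GU, hM₀n, hM₀a, f, hb, hnd, hfix⟩ :=
          t22 hF H hH e P G₁ G₂ hd1 hd2 hh1 hh2 hid hHT
        exact bil M₀ hM₀n hM₀GU hM₀a f hb hnd hfix
      · by_cases hbad : q = 2 ∧ a = 3
        · obtain ⟨hq2, rfl⟩ := hbad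
          obtain ⟨H', E, hHH', hH'GU, hsym⟩ :=
            bad hF hq2 H hH e P G₁ G₂ hd1 hd2 hh1 hh2 hid hHT
          exact symt H' E hHH' hH'GU hsym
        · obtain ⟨A, c, hc, hA⟩ := nfu hF G₁ G₂ hh1 hh2 hd1 hd2
          obtain ⟨P', f₁, hf₁, ht, heq⟩ :=
            tsqg hF (Cfsg.hermForm n F q) e P G₁ G₂ hh1 hd1 hid A c hc hA
          exact Or.inl ⟨_, Or.inr (Or.inr (Or.inr
            ⟨a, 2, e.trans (finTwoArrowEquiv (Fin a)).symm, P', f₁, h3, le_rfl, hbad, hf₁, ht,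
              rfl⟩)), le_inf (heq ▸ hHT.trans (tpwg e P)) hH⟩
  by_cases h1 : ActsIrreducibly (matrixSet H)
  swap
  · rcases U1 hF H hH h1 with ⟨W, h0, hts, hle⟩ | ⟨W, h0, hnd, hdim, hle⟩
    · exact Or.inl ⟨_, Or.inl (Or.inl ⟨W, h0, hts, rfl⟩), le_inf hle hH⟩
    · by_cases hlt : 2 * Module.finrank F W < n
      · exact Or.inl ⟨_, Or.inl (Or.inr (Or.inl ⟨W, h0, hnd, hlt, rfl⟩)), le_inf hle hH⟩
      · have hdim' : n = 2 * Module.finrank F W := by omega
        obtain ⟨D, hD, hHD⟩ := PERP hF (Module.finrank F W) (by omega) hdim' H hH W hnd rfl hle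
        exact Or.inl ⟨_, Or.inl (Or.inr (Or.inr (Or.inl ⟨2, _, D, hD, rfl⟩))),
          le_inf hHD hH⟩
  obtain ⟨L, hL⟩ := exists_minNS (by omega) H h1
  have hLGU : L ≤ Cfsg.GU n F q := hL.le.trans hH
  rcases CAP (by omega) H L h1 hL.le hL.nrm with
    ⟨t, m, D, hD, hHD, hiso, hinv, hfull⟩ | ⟨d, k, e, P, R, hR, hR1, hR2⟩
  · -- inhomogeneous
    have htm : t * m = n := C2 D hD
    have ht2 := hD.two_le
    obtain ⟨τ, hτ, horth, hno⟩ := PAIRa hF L hLGU D hD hiso hinv hfull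
    rcases PAIRb hF H hH h1 D hD hHD τ hτ horth hno with hND | ⟨hfp, hcompat⟩
    · exact Or.inl ⟨_, Or.inl (Or.inr (Or.inr (Or.inl ⟨t, m, D, hND, rfl⟩))), le_inf hHD hH⟩
    · have hev : Even t := by
        have := U3_even τ hτ hfp
        simpa using this
      rcases Nat.lt_or_ge t 4 with ht4 | ht4
      · obtain rfl : t = 2 := by
          rcases hev with ⟨c, hc⟩
          omega
        have hts : ∀ i, IsTotallySingularFor (Cfsg.hermForm n F q) (D i) :=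
          fun i => horth i i (hfp i).symm
        exact Or.inl ⟨_, Or.inl (Or.inr (Or.inr (Or.inr (Or.inl
          ⟨m, D, htm, hD, hts, rfl⟩)))), le_inf hHD hH⟩
      · obtain ⟨s, E, hE, hHE⟩ := PLNM hF H D hD ht4 hHD τ hfp hτ horth hcompat
        exact Or.inl ⟨_, Or.inl (Or.inr (Or.inr (Or.inl ⟨s, 2 * m, E, hE, rfl⟩))),
          le_inf hHE hH⟩
  · -- homogeneous
    have hcard : n = d * k := by
      have := Fintype.card_congr e
      simpa using this
    have hd1 : d ≠ 1 := by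
      rintro rfl
      exact hL.ns (B3s e P R L hR1)
    have hd0 : d ≠ 0 := by
      rintro rfl
      simp at hcard
      omega
    have hk0 : k ≠ 0 := by
      rintro rfl
      simp at hcard
      omega
    by_cases hRa : ActsAbsolutelyIrreducibly (matrixSet R)
    swap
    · obtain ⟨r, K, hr, hK, hHK, hKc⟩ :=
        coreB (by omega) H L hL.le hL.nrm e P R hR hR1 hR2 hRa
      have hhom := HOMP e P R L hR hR1 hR2
      have hadj := ADJ hF (by omega) L hLGU hhom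
        (fun Z hc hi r K K' hK hK' h1 h2 => UNIQ (by omega) Z hc hi r K K' hK hK' h1 h2)
        r K hK hKc
      rcases hr.eq_two_or_odd' with h2 | hro
      · subst h2
        exact (FLD2 hF (by omega) K hK hadj).elim
      · exact Or.inl ⟨_, Or.inr (Or.inl ⟨r, K, hr, hro, hK, hadj, rfl⟩), le_inf hHK hH⟩
    · have hHT : H ≤ tensorProductSubgroup d k e P := fun h hh =>
        (coreC e P R L hRa hR1 hR2).2 h (fun x hx => hL.nrm h hh x hx)
      rcases Nat.lt_or_ge k 2 with hk2 | hk2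
      · -- k = 1: L absolutely irreducible
        obtain rfl : k = 1 := by omega
        have hLa := B3a e P R L hRa hR2
        rcases hL.min ⁅L, L⁆ (commutator_le_self L) hL.nrm.commutator with hc | hc
        · exact symt H L le_rfl hH ⟨hL, hLa, hc⟩
        · rcases B6 H L hL hc with ⟨hs, hna⟩ | ⟨k', Ps, hk', hns, hcomm, hsup, hperm, htrans⟩
          · by_cases hsubf : ∃ F₀ : Subfield F, F₀ ≠ ⊤ ∧ RealisableOver F₀ (matrixSet L)
            · obtain ⟨F₀, hF₀, hreal⟩ := hsubf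
              exact sub L hL.nrm hLGU hLa F₀ hF₀ hreal
            · refine Or.inr ⟨L, B7core H L hL.le hL.nrm hLa hc hs hna ?_, ?_, ?_⟩
              · intro F₀ hF₀ hreal
                exact hsubf ⟨F₀, hF₀, hreal⟩
              · rintro ⟨Q, hQ, hQfix⟩
                apply hsubf
                refine U7 hF (by omega) L hLGU hLa (QuadraticMap.polar Q) hQ.polar_bilinear
                  hQ.nondegenerate ?_
                intro s hs u v
                unfold QuadraticMap.polar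
                rw [← Matrix.mulVec_add, hQfix s hs, hQfix s hs, hQfix s hs]
              · rintro ⟨f, hf, hffix⟩
                exact hsubf (U7 hF (by omega) L hLGU hLa f hf.bilinear hf.nondegenerate hffix)
          · rcases utif hF hn H L hH hL hLa hc k' Ps hk' hns hcomm hsup hperm htrans with
              ⟨d', t', e', P', f₁, hd3, ht2, hnot, hf₁, htp, hHW⟩ | ⟨f, hb, hnd, hfix⟩
            · exact Or.inl ⟨_, Or.inr (Or.inr (Or.inr
                ⟨d', t', e', P', f₁, hd3, ht2, hnot, hf₁, htp, rfl⟩)), le_inf hHW hH⟩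
            · exact bil L hL.nrm hLGU hLa f hb hnd hfix
      · -- a tensor product `d ⊗ k`
        have hd2 : 2 ≤ d := by omega
        obtain ⟨G₁, G₂, hd1', hd2', hh1, hh2, hid⟩ := TF hF e P R L hLGU hRa hR1 hR2
        rcases Nat.lt_or_ge k d with hkd | hkd
        · obtain ⟨hid', heq⟩ := TFSW (Cfsg.hermForm n F q) (fun c : F => c ^ q) e P G₁ G₂ hid
          exact tens k d (e.trans (Equiv.prodComm (Fin d) (Fin k))) P G₂ G₁ hk2 hkd.le
            hd2' hd1' hh2 hh1 hid' (heq ▸ hHT)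
        · exact tens d k e P G₁ G₂ hd2 hkd hd1' hd2' hh1 hh2 hid hHT

end Cfsg.Agent.Lib.Helper49.SUG
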