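import Mathlib

/-!
# S5982 (project of helper96), piece INDEXARITH: arithmetic of `|SL_n(q₀²)| / |SU_n(q₀)|`
-/

set_option autoImplicit false

namespace Cfsg.Agent.Lib.Helper49.Uf

open Finset

theorem ia_prod_gl (Q n : ℕ) :
    ∏ i : Fin n, (Q ^ n - Q ^ (i : ℕ)) =
      Q ^ (n * (n - 1) / 2) * ∏ i ∈ range n, (Q ^ (i + 1) - 1) := by
  rw [Fin.prod_univ_eq_prod_range (fun i => Q ^ n - Q ^ i) n]
  have h1 : ∀ i ∈ range n, Q ^ n - Q ^ i = Q ^ i * (Q ^ (n - 1 - i + 1) - 1) := by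
    intro i hi
    have hi' := mem_range.mp hi
    have e : i + (n - 1 - i + 1) = n := by omega
    rw [Nat.mul_sub, mul_one, ← pow_add, e]
  rw [prod_congr rfl h1, prod_mul_distrib, prod_pow_eq_pow_sum, sum_range_id,
    prod_range_reflect (fun j => Q ^ (j + 1) - 1) n]

theorem ia_sq_sub_one (c : ℕ) (hc : 1 ≤ c) : (c + 1) * (c - 1) = c ^ 2 - 1 := by
  obtain ⟨d, rfl⟩ : ∃ d, c = d + 1 := ⟨c - 1, by omega⟩
  simp only [Nat.add_sub_cancel]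
  have h : (d + 1) ^ 2 = (d + 1 + 1) * d + 1 := by ring
  rw [h]
  simp

theorem index_arith (q₀ n r : ℕ) (hr : r.Prime) (hq₀ : 2 ≤ q₀) (hn : 1 ≤ n) (hrq : ¬ r ∣ q₀)
    (S U m t : ℕ)
    (hU : (q₀ + 1) * U = q₀ ^ (n * (n - 1) / 2) *
      ∏ i ∈ Finset.range n, (if Even i then q₀ ^ (i + 1) + 1 else q₀ ^ (i + 1) - 1))
    (hS : S * (q₀ ^ 2 - 1) = ∏ i : Fin n, ((q₀ ^ 2) ^ n - (q₀ ^ 2) ^ (i : ℕ)))
    (hm : m * t * U = S) (hrm : r ∣ m) :
    ∃ k, 2 ≤ k ∧ k ≤ n ∧ r ∣ (if Even k then q₀ ^ k + 1 else q₀ ^ k - 1) := by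
  obtain ⟨T, hT⟩ : ∃ T, T = n * (n - 1) / 2 := ⟨_, rfl⟩
  rw [← hT] at hU
  obtain ⟨a, ha⟩ : ∃ a : ℕ → ℕ, a = fun i => if Even i then q₀ ^ (i + 1) + 1 else q₀ ^ (i + 1) - 1 :=
    ⟨_, rfl⟩
  obtain ⟨b, hb⟩ : ∃ b : ℕ → ℕ, b = fun i => if Even i then q₀ ^ (i + 1) - 1 else q₀ ^ (i + 1) + 1 :=
    ⟨_, rfl⟩
  have hpow2 : ∀ i : ℕ, 2 ≤ q₀ ^ (i + 1) := by
    intro i
    calc 2 ≤ q₀ := hq₀
      _ = q₀ ^ 1 := (pow_one q₀).symm
      _ ≤ q₀ ^ (i + 1) := Nat.pow_le_pow_right (by omega) (by omega)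
  have hab : ∀ i, a i * b i = (q₀ ^ 2) ^ (i + 1) - 1 := by
    intro i
    have h2 : (q₀ ^ (i + 1) + 1) * (q₀ ^ (i + 1) - 1) = (q₀ ^ 2) ^ (i + 1) - 1 := by
      rw [ia_sq_sub_one _ (by have := hpow2 i; omega), ← pow_mul, ← pow_mul, mul_comm]
    rw [ha, hb]
    by_cases h : Even i
    · simp only [if_pos h]
      exact h2
    · simp only [if_neg h]
      rw [mul_comm]
      exact h2
  have hapos : ∀ i, 0 < a i := by
    intro i
    rw [ha]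
    have := hpow2 i
    by_cases h : Even i
    · simp only [if_pos h]
      omega
    · simp only [if_neg h]
      omega
  obtain ⟨A, hA⟩ : ∃ A, A = ∏ i ∈ range n, a i := ⟨_, rfl⟩
  obtain ⟨B, hB⟩ : ∃ B, B = ∏ i ∈ range n, b i := ⟨_, rfl⟩
  have hApos : 0 < A := by
    rw [hA]
    exact Finset.prod_pos (fun i _ => hapos i)
  have hU' : (q₀ + 1) * U = q₀ ^ T * A := by
    rw [hU, hA, ha]
  have hS' : S * (q₀ ^ 2 - 1) = q₀ ^ T * q₀ ^ T * (A * B) := by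
    rw [hS, ia_prod_gl, ← hT, hA, hB, ← prod_mul_distrib, ← pow_mul, mul_comm 2 T, pow_mul, sq]
    congr 1
    exact prod_congr rfl (fun i _ => (hab i).symm)
  have hD : q₀ ^ 2 - 1 = (q₀ + 1) * (q₀ - 1) := (ia_sq_sub_one q₀ (by omega)).symm
  obtain ⟨e, he⟩ : ∃ e, e = q₀ - 1 := ⟨_, rfl⟩
  have hepos : 0 < e := by omega
  rw [hD, ← he] at hS'
  obtain ⟨n', rfl⟩ : ∃ n', n = n' + 1 := ⟨n - 1, by omega⟩
  obtain ⟨B', hB'⟩ : ∃ B', B' = ∏ i ∈ range n', b (i + 1) := ⟨_, rfl⟩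
  have hBB : B = B' * e := by
    rw [hB, hB', Finset.prod_range_succ', he, hb]
    simp
  have hqpos : 0 < q₀ ^ T := Nat.pos_of_ne_zero (pow_ne_zero _ (by omega))
  have key : m * t = q₀ ^ T * B' := by
    have hpos : 0 < (q₀ + 1) * e * (q₀ ^ T * A) :=
      Nat.mul_pos (Nat.mul_pos (by omega) hepos) (Nat.mul_pos hqpos hApos)
    apply Nat.eq_of_mul_eq_mul_right hpos
    calc m * t * ((q₀ + 1) * e * (q₀ ^ T * A))
        = (m * t * U * ((q₀ + 1) * e)) * (q₀ + 1) := by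
          rw [← hU']
          ring
      _ = (q₀ ^ T * q₀ ^ T * (A * B)) * (q₀ + 1) := by rw [hm, hS']
      _ = q₀ ^ T * B' * ((q₀ + 1) * e * (q₀ ^ T * A)) := by
          rw [hBB]
          ring
  have hdvd : r ∣ q₀ ^ T * B' := by
    rw [← key]
    exact Dvd.dvd.mul_right hrm t
  rcases (Nat.Prime.dvd_mul hr).mp hdvd with h | h
  · exact absurd (hr.dvd_of_dvd_pow h) hrq
  · rw [hB'] at h
    obtain ⟨i, hi, hri⟩ := (Prime.dvd_finsetProd_iff (Nat.Prime.prime hr) _).mp h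
    have hi' := mem_range.mp hi
    refine ⟨i + 2, by omega, by omega, ?_⟩
    have hpar : Even (i + 2) ↔ ¬ Even (i + 1) := Nat.even_add_one (n := i + 1)
    rw [hb] at hri
    by_cases h1 : Even (i + 1)
    · have h2 : ¬ Even (i + 2) := fun h2 => (hpar.mp h2) h1
      rw [if_neg h2]
      simp only [if_pos h1] at hri
      exact hri
    · have h2 : Even (i + 2) := hpar.mpr h1
      rw [if_pos h2]
      simp only [if_neg h1] at hri
      exact hri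

end Cfsg.Agent.Lib.Helper49.Uf
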